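import Mathlib
import Cfsg.Prelude.Def_Local
import Cfsg.Agent.Lib.Solv.Cores
import Cfsg.Agent.Lib.Solv.MinNormal

/-!
# `p`-length through arbitrary series
-/

set_option autoImplicit false
set_option linter.unusedSectionVars false

namespace Cfsg.Lib.Solv

open Subgroup

universe u

variable {G : Type u} [Group G] {p : ℕ}

/-- A normal series from `K` to the top with at most `k` steps of `p`-type. -/
def PSer (p k : ℕ) (K : Subgroup G) : Prop :=
  ∃ X : ℕ → Subgroup G, X 0 = K ∧ X (2 * k + 1) = ⊤ ∧ Monotone X ∧ (∀ i, (X i).Normal) ∧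
    (∀ i, i ≤ 2 * k → Even i → ((X i).relIndex (X (i + 1))).Coprime p) ∧
    ∀ i, i ≤ 2 * k → ¬ Even i → ∃ m, (X i).relIndex (X (i + 1)) = p ^ m

theorem relIndex_dvd_of_normal (A : Subgroup G) [A.Normal] {B C : Subgroup G} (h : B ≤ C) :
    A.relIndex B ∣ A.relIndex C := by
  have h1 := fun D : Subgroup G => relIndex_ker D (QuotientGroup.mk' A)
  simp only [QuotientGroup.ker_mk'] at h1
  rw [h1, h1]
  exact card_dvd_of_le (map_mono h)

theorem relIndex_map_dvd {H : Type*} [Group H] (f : G →* H) (A B : Subgroup G) :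
    (A.map f).relIndex (B.map f) ∣ A.relIndex B := by
  refine dvd_trans (index_dvd_of_le (H := (A.subgroupOf B).map (f.subgroupMap B)) ?_)
    (index_map_dvd _ (f.subgroupMap_surjective B))
  rintro _ ⟨a, ha, rfl⟩
  exact ⟨(a : G), ha, rfl⟩

theorem pow_of_dvd [Fact p.Prime] {a m : ℕ} (h : a ∣ p ^ m) : ∃ n, a = p ^ n := by
  obtain ⟨n, -, hn⟩ := (Nat.dvd_prime_pow Fact.out).1 h
  exact ⟨n, hn⟩

theorem isPGroup_map_card {n : ℕ} {H : Subgroup G} (h : Nat.card H = p ^ n) : IsPGroup p H := IsPGroup.of_card h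

theorem upperPSeries_succ_even (n : ℕ) (hn : Even n) :
    (Cfsg.upperPSeries p G (n + 1)).1 =
      (Cfsg.pPrimeCore p (G ⧸ (Cfsg.upperPSeries p G n).1)).comap (QuotientGroup.mk' _) := by
  rw [Cfsg.upperPSeries]; simp only [hn, if_true]

theorem upperPSeries_succ_odd (n : ℕ) (hn : ¬ Even n) :
    (Cfsg.upperPSeries p G (n + 1)).1 =
      (Cfsg.pCore p (G ⧸ (Cfsg.upperPSeries p G n).1)).comap (QuotientGroup.mk' _) := by
  rw [Cfsg.upperPSeries]; simp only [hn, if_false]

theorem relIndex_comap_mk (Z : Subgroup G) [Z.Normal] (M : Subgroup (G ⧸ Z)) :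
    Z.relIndex (M.comap (QuotientGroup.mk' Z)) = Nat.card M := by
  have := relIndex_ker (M.comap (QuotientGroup.mk' Z)) (QuotientGroup.mk' Z)
  rwa [QuotientGroup.ker_mk', map_comap_eq_self_of_surjective (QuotientGroup.mk'_surjective Z)] at this

theorem upperPSeries_mono : Monotone fun n => (Cfsg.upperPSeries p G n).1 := by
  refine monotone_nat_of_le_succ fun n x hx => ?_
  show x ∈ (Cfsg.upperPSeries p G (n + 1)).1
  rw [Cfsg.upperPSeries]
  split_ifs <;>
  · refine mem_comap.2 ?_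
    rw [show QuotientGroup.mk' (Cfsg.upperPSeries p G n).1 x = 1 from (QuotientGroup.eq_one_iff x).2 hx]
    exact one_mem _

theorem pSer_bot_iff [Finite G] [Fact p.Prime] {k : ℕ} : PSer p k (⊥ : Subgroup G) ↔ Cfsg.PLengthLE p k G := by
  constructor
  · rintro ⟨X, h0, htop, hmono, hn, he, ho⟩
    have key : ∀ i, i ≤ 2 * k + 1 → X i ≤ (Cfsg.upperPSeries p G i).1 := by
      intro i
      induction i with
      | zero => intro _; rw [h0]; exact bot_le
      | succ i ih =>
        intro hi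
        have h1 := ih (by omega)
        set U := (Cfsg.upperPSeries p G i).1 with hU
        have hd : Nat.card ((X (i + 1)).map (QuotientGroup.mk' U)) ∣ (X i).relIndex (X (i + 1)) := by
          rw [← relIndex_ker (X (i + 1)) (QuotientGroup.mk' U), QuotientGroup.ker_mk']
          exact relIndex_dvd_of_le_left _ h1
        have hN := (hn (i + 1)).map (QuotientGroup.mk' U) (QuotientGroup.mk'_surjective U)
        by_cases hev : Even i
        · rw [upperPSeries_succ_even i hev, ← map_le_iff_le_comap]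
          exact le_pPrimeCore hN ((he i (by omega) hev).coprime_dvd_left hd)
        · rw [upperPSeries_succ_odd i hev, ← map_le_iff_le_comap]
          obtain ⟨m, hm⟩ := ho i (by omega) hev
          obtain ⟨m', hm'⟩ := pow_of_dvd (hm ▸ hd)
          exact le_pCore hN (IsPGroup.of_card hm')
    exact eq_top_iff.2 (htop ▸ key _ le_rfl)
  · intro h
    refine ⟨fun n => (Cfsg.upperPSeries p G n).1, rfl, h, upperPSeries_mono,
      fun i => (Cfsg.upperPSeries p G i).2, fun i _ hev => ?_, fun i _ hev => ?_⟩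
    · simp only
      rw [upperPSeries_succ_even i hev, relIndex_comap_mk]
      exact coprime_pPrimeCore p
    · simp only
      rw [upperPSeries_succ_odd i hev, relIndex_comap_mk]
      exact (isPGroup_pCore (G := G ⧸ _) p).exists_card_eq

theorem PSer.top (k : ℕ) : PSer p k (⊤ : Subgroup G) :=
  ⟨fun _ => ⊤, rfl, rfl, monotone_const, fun _ => inferInstance, fun _ _ _ => by simp,
    fun _ _ _ => ⟨0, by simp⟩⟩

theorem PSer.mono {k l : ℕ} {K : Subgroup G} (h : PSer p k K) (hkl : k ≤ l) : PSer p l K := by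
  obtain ⟨X, h0, htop, hmono, hn, he, ho⟩ := h
  refine ⟨fun i => X (min i (2 * k + 1)), by simpa using h0, by simp [show 2 * k + 1 ≤ 2 * l + 1 by omega, htop],
    fun a b hab => hmono (min_le_min hab le_rfl), fun i => hn _, fun i _ hev => ?_, fun i _ hev => ?_⟩
  · by_cases hi : i ≤ 2 * k
    · simp only [min_eq_left (show i ≤ 2 * k + 1 by omega), min_eq_left (show i + 1 ≤ 2 * k + 1 by omega)]
      exact he i hi hev
    · simp only [min_eq_right (show 2 * k + 1 ≤ i by omega), min_eq_right (show 2 * k + 1 ≤ i + 1 by omega),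
        relIndex_self]
      exact Nat.coprime_one_left p
  · by_cases hi : i ≤ 2 * k
    · simp only [min_eq_left (show i ≤ 2 * k + 1 by omega), min_eq_left (show i + 1 ≤ 2 * k + 1 by omega)]
      exact ho i hi hev
    · refine ⟨0, ?_⟩
      simp only [min_eq_right (show 2 * k + 1 ≤ i by omega), min_eq_right (show 2 * k + 1 ≤ i + 1 by omega),
        relIndex_self, pow_zero]

theorem PSer.inf [Fact p.Prime] {k : ℕ} {K L : Subgroup G} (h : PSer p k K) (h' : PSer p k L) :
    PSer p k (K ⊓ L) := by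
  obtain ⟨X, h0, htop, hmono, hn, he, ho⟩ := h
  obtain ⟨Y, g0, gtop, gmono, gn, ge, go⟩ := h'
  have key : ∀ i, (X i ⊓ Y i).relIndex (X (i + 1) ⊓ Y (i + 1)) ∣
      (X i).relIndex (X (i + 1)) * (Y i).relIndex (Y (i + 1)) := by
    intro i
    haveI := hn i; haveI := gn i
    set B := X (i + 1) ⊓ Y (i + 1) with hB
    rw [← relIndex_mul_relIndex (X i ⊓ Y i) (X i ⊓ B) B
      (le_inf inf_le_left (inf_le_inf (hmono (Nat.le_succ i)) (gmono (Nat.le_succ i)))) inf_le_right, mul_comm]
    refine mul_dvd_mul ?_ ?_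
    · rw [inf_relIndex_right]
      exact relIndex_dvd_of_normal _ inf_le_left
    · rw [← inf_relIndex_right, show X i ⊓ Y i ⊓ (X i ⊓ B) = Y i ⊓ (X i ⊓ B) by
        rw [inf_comm (X i) (Y i), inf_assoc, ← inf_assoc (X i) (X i), inf_idem], inf_relIndex_right]
      exact relIndex_dvd_of_normal _ (inf_le_right.trans inf_le_right)
  refine ⟨fun i => X i ⊓ Y i, by simp only [h0, g0], by simp [htop, gtop],
    fun a b hab => inf_le_inf (hmono hab) (gmono hab), fun i => ?_, fun i hi hev => ?_, fun i hi hev => ?_⟩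
  · haveI := hn i; haveI := gn i
    exact Subgroup.normal_inf_normal _ _
  · exact ((he i hi hev).mul_left (ge i hi hev)).coprime_dvd_left (key i)
  · obtain ⟨a, ha⟩ := ho i hi hev
    obtain ⟨b, hb⟩ := go i hi hev
    exact pow_of_dvd (m := a + b) (by rw [pow_add, ← ha, ← hb]; exact key i)

theorem pSer_of_quotient [Finite G] [Fact p.Prime] {k : ℕ} (K : Subgroup G) [K.Normal]
    (h : Cfsg.PLengthLE p k (G ⧸ K)) : PSer p k K := by
  obtain ⟨X, h0, htop, hmono, hn, he, ho⟩ := pSer_bot_iff.2 h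
  have hrel : ∀ i, ((X i).comap (QuotientGroup.mk' K)).relIndex ((X (i + 1)).comap (QuotientGroup.mk' K)) =
      (X i).relIndex (X (i + 1)) := fun i => by
    rw [relIndex_comap, map_comap_eq_self_of_surjective (QuotientGroup.mk'_surjective K)]
  refine ⟨fun i => (X i).comap (QuotientGroup.mk' K), ?_, ?_, fun a b hab => comap_mono (hmono hab),
    fun i => (hn i).comap _, fun i hi hev => ?_, fun i hi hev => ?_⟩
  · simp only [h0, MonoidHom.comap_bot, QuotientGroup.ker_mk']
  · simp only [htop, comap_top]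
  · simp only [hrel]; exact he i hi hev
  · simp only [hrel]; exact ho i hi hev

theorem pLengthLE_quotient [Finite G] [Fact p.Prime] {k : ℕ} (h : Cfsg.PLengthLE p k G) (K : Subgroup G)
    [K.Normal] : Cfsg.PLengthLE p k (G ⧸ K) := by
  obtain ⟨X, h0, htop, hmono, hn, he, ho⟩ := pSer_bot_iff.2 h
  refine pSer_bot_iff.1 ⟨fun i => (X i).map (QuotientGroup.mk' K), by simp [h0],
    by simp only [htop]; exact map_top_of_surjective _ (QuotientGroup.mk'_surjective K),
    fun a b hab => map_mono (hmono hab), fun i => (hn i).map _ (QuotientGroup.mk'_surjective K),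
    fun i hi hev => (he i hi hev).coprime_dvd_left (relIndex_map_dvd _ _ _), fun i hi hev => ?_⟩
  obtain ⟨m, hm⟩ := ho i hi hev
  exact pow_of_dvd (hm ▸ relIndex_map_dvd _ _ _)

/-- Going up through a normal `p'`-subgroup. -/
theorem pLengthLE_of_quotient_pPrime [Finite G] [Fact p.Prime] {k : ℕ} (N : Subgroup G) [N.Normal]
    (hN : (Nat.card N).Coprime p) (h : Cfsg.PLengthLE p k (G ⧸ N)) : Cfsg.PLengthLE p k G := by
  obtain ⟨X, h0, htop, hmono, hn, he, ho⟩ := pSer_of_quotient N h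
  refine pSer_bot_iff.1 ⟨fun i => if i = 0 then ⊥ else X i, if_pos rfl, by
      show (if 2 * k + 1 = 0 then ⊥ else X (2 * k + 1)) = ⊤
      rw [if_neg (by omega), htop],
    monotone_nat_of_le_succ fun i => ?_, fun i => ?_, fun i hi hev => ?_, fun i hi hev => ?_⟩
  · by_cases h1 : i = 0
    · simp [h1]
    · simp [h1, hmono (Nat.le_succ i)]
  · by_cases h1 : i = 0
    · simp only [h1, if_true]; infer_instance
    · simp only [h1, if_false]; exact hn i
  · by_cases h1 : i = 0
    · subst h1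
      simp only [if_true, Nat.zero_add, one_ne_zero, if_false]
      rw [← relIndex_mul_relIndex ⊥ (X 0) (X 1) bot_le (hmono zero_le_one), relIndex_bot_left, h0]
      exact hN.mul_left (h0 ▸ he 0 hi hev)
    · simp only [h1, if_false, Nat.succ_ne_zero]
      exact he i hi hev
  · have h1 : i ≠ 0 := fun h1 => hev (h1 ▸ ⟨0, rfl⟩)
    simp only [h1, if_false, Nat.succ_ne_zero]
    exact ho i hi hev

/-- Going up through a normal `p`-subgroup. -/
theorem pLengthLE_of_quotient_p [Finite G] [Fact p.Prime] {k : ℕ} (N : Subgroup G) [N.Normal]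
    (hN : IsPGroup p N) (h : Cfsg.PLengthLE p k (G ⧸ N)) : Cfsg.PLengthLE p (k + 1) G := by
  obtain ⟨X, h0, htop, hmono, hn, he, ho⟩ := pSer_of_quotient N h
  refine pSer_bot_iff.1 ⟨fun i => if i ≤ 1 then ⊥ else X (i - 2), if_pos (by omega),
    by
      show (if 2 * (k + 1) + 1 ≤ 1 then ⊥ else X (2 * (k + 1) + 1 - 2)) = ⊤
      rw [if_neg (by omega), ← htop]; congr 1,
    monotone_nat_of_le_succ fun i => ?_, fun i => ?_, fun i hi hev => ?_, fun i hi hev => ?_⟩
  · by_cases h1 : i ≤ 1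
    · simp [h1]
    · simp only [h1, if_false, show ¬ i + 1 ≤ 1 by omega]
      exact hmono (by omega)
  · by_cases h1 : i ≤ 1
    · simp only [h1, if_true]; infer_instance
    · simp only [h1, if_false]; exact hn _
  · by_cases h1 : i ≤ 1
    · have : i = 0 := by
        rcases Nat.le_one_iff_eq_zero_or_eq_one.1 h1 with h2 | h2
        · exact h2
        · exact absurd (h2 ▸ hev) Nat.not_even_one
      subst this
      simp
    · simp only [h1, if_false, show ¬ i + 1 ≤ 1 by omega]
      rw [show i + 1 - 2 = i - 2 + 1 by omega]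
      exact he (i - 2) (by omega) ((Nat.even_sub (by omega)).2 (by simp [hev]))
  · by_cases h1 : i ≤ 1
    · have : i = 1 := by
        rcases Nat.le_one_iff_eq_zero_or_eq_one.1 h1 with h2 | h2
        · exact absurd (h2 ▸ (⟨0, rfl⟩ : Even 0)) hev
        · exact h2
      subst this
      simp only [le_refl, if_true, show ¬ (1 : ℕ) + 1 ≤ 1 by omega, if_false]
      rw [relIndex_bot_left, show 1 + 1 - 2 = 0 from rfl, h0]
      exact hN.exists_card_eq
    · simp only [h1, if_false, show ¬ i + 1 ≤ 1 by omega]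
      rw [show i + 1 - 2 = i - 2 + 1 by omega]
      exact ho (i - 2) (by omega) (fun h2 => hev (by
        have := (Nat.even_sub (show 2 ≤ i by omega)).1 h2
        exact this.2 even_two))

/-- Without a `p'`-core, factoring out the `p`-core lowers the `p`-length. -/
theorem pLengthLE_pred [Finite G] [Fact p.Prime] {k : ℕ} (hO : Cfsg.pPrimeCore p G = ⊥)
    (hne : Cfsg.pCore p G ≠ ⊥) (h : Cfsg.PLengthLE p k G) :
    1 ≤ k ∧ Cfsg.PLengthLE p (k - 1) (G ⧸ Cfsg.pCore p G) := by
  obtain ⟨X, h0, htop, hmono, hn, he, ho⟩ := pSer_bot_iff.2 h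
  have hX1 : X 1 = ⊥ := by
    refine le_bot_iff.1 (hO ▸ le_pPrimeCore (hn 1) ?_)
    have := he 0 (by omega) ⟨0, rfl⟩
    rwa [h0, relIndex_bot_left] at this
  have hk : 1 ≤ k := by
    by_contra hk
    obtain rfl : k = 0 := by omega
    rw [Nat.mul_zero, Nat.zero_add, hX1] at htop
    exact hne (le_bot_iff.1 (htop ▸ le_top))
  have hX2 : X 2 ≤ Cfsg.pCore p G := by
    obtain ⟨m, hm⟩ := ho 1 (by omega) Nat.not_even_one
    rw [hX1, relIndex_bot_left] at hm
    exact le_pCore (hn 2) (IsPGroup.of_card hm)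
  set q := QuotientGroup.mk' (Cfsg.pCore p G) with hq
  refine ⟨hk, pSer_bot_iff.1 ⟨fun i => (X (i + 2)).map q, ?_, ?_, fun a b hab => map_mono (hmono (by omega)),
    fun i => (hn _).map _ (QuotientGroup.mk'_surjective _), fun i hi hev => ?_, fun i hi hev => ?_⟩⟩
  · simp only [Nat.zero_add]
    rw [Subgroup.map_eq_bot_iff, hq, QuotientGroup.ker_mk']
    exact hX2
  · simp only [show 2 * (k - 1) + 1 + 2 = 2 * k + 1 by omega, htop]
    exact map_top_of_surjective _ (QuotientGroup.mk'_surjective _)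
  · simp only [show i + 1 + 2 = i + 2 + 1 by omega]
    exact (he (i + 2) (by omega) (hev.add even_two)).coprime_dvd_left (relIndex_map_dvd _ _ _)
  · simp only [show i + 1 + 2 = i + 2 + 1 by omega]
    obtain ⟨m, hm⟩ := ho (i + 2) (by omega) (by simpa [Nat.even_add] using hev)
    exact pow_of_dvd (hm ▸ relIndex_map_dvd _ _ _)

/-- Induction through monolithic quotients of a solvable group. -/
theorem of_monolithic [Finite G] [Group.IsSolvable G] (P : Subgroup G → Prop)
    (hinf : ∀ K L : Subgroup G, P K → P L → P (K ⊓ L)) (htop : P ⊤)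
    (h : ∀ (s : ℕ) [Fact s.Prime] (K : Subgroup G) [K.Normal], Cfsg.pCore s G ≠ ⊥ →
      Cfsg.pCore s (G ⧸ K) ≠ ⊥ → Cfsg.pPrimeCore s (G ⧸ K) = ⊥ → P K) : P ⊥ := by
  classical
  obtain ⟨K₀, ⟨hK₀n, hK₀⟩, hmin⟩ := (wellFounded_lt (α := Subgroup G)).has_min
    {K | K.Normal ∧ P K} ⟨⊤, inferInstance, htop⟩
  haveI := hK₀n
  by_cases hb : K₀ = ⊥
  · rwa [← hb]
  exfalso
  obtain ⟨M, ⟨hMn, hMb, hMK⟩, hMmin⟩ := (wellFounded_lt (α := Subgroup G)).has_min
    {M | M.Normal ∧ M ≠ ⊥ ∧ M ≤ K₀} ⟨K₀, hK₀n, hb, le_rfl⟩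
  haveI := hMn
  haveI : Group.IsSolvable M := inferInstance
  haveI : Nontrivial M := (Subgroup.nontrivial_iff_ne_bot M).2 hMb
  obtain ⟨s, hs, hsM⟩ : ∃ s : ℕ, s.Prime ∧ Cfsg.pCore s M ≠ ⊥ := by
    by_contra hcon
    push Not at hcon
    refine fitting_ne_bot_of_solvable (G := M) ?_
    rw [fitting_eq_iSup_pCore, iSup_eq_bot]
    exact fun t => hcon t.1 t.2
  haveI := Fact.mk hs
  set M' := (Cfsg.pCore s M).map M.subtype with hM'
  have hM'n : M'.Normal := inferInstance
  have hM'M : M' = M := by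
    by_contra hne
    refine hMmin M' ⟨hM'n, ?_, (map_subtype_le _).trans hMK⟩ (lt_of_le_of_ne (map_subtype_le _) hne)
    rwa [hM', ne_eq, map_eq_bot_iff_of_injective _ M.subtype_injective]
  have hMp : IsPGroup s M := hM'M ▸ (isPGroup_pCore (G := M) s).map M.subtype
  have hdich : ∀ L : Subgroup G, L.Normal → L ⊓ M = ⊥ ∨ M ≤ L := by
    intro L hL
    by_cases h1 : L ⊓ M = ⊥
    · exact Or.inl h1
    · refine Or.inr ?_
      by_contra h2
      refine hMmin (L ⊓ M) ⟨Subgroup.normal_inf_normal _ _, h1, inf_le_right.trans hMK⟩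
        (lt_of_le_of_ne inf_le_right fun h3 => h2 (h3 ▸ inf_le_left))
  obtain ⟨K, ⟨hKn, hKM⟩, hKmax⟩ := (wellFounded_gt (α := Subgroup G)).has_min
    {K | K.Normal ∧ K ⊓ M = ⊥} ⟨⊥, inferInstance, bot_inf_eq _⟩
  haveI := hKn
  have hMK' : ¬ M ≤ K := fun h1 => hMb (le_bot_iff.1 (hKM ▸ le_inf h1 le_rfl))
  set q := QuotientGroup.mk' K with hq
  have hqM : M.map q ≤ Cfsg.pCore s (G ⧸ K) :=
    le_pCore (hMn.map q (QuotientGroup.mk'_surjective K)) (hMp.map q)
  have hqb : M.map q ≠ ⊥ := by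
    rw [ne_eq, Subgroup.map_eq_bot_iff, hq, QuotientGroup.ker_mk']
    exact hMK'
  have hO : Cfsg.pPrimeCore s (G ⧸ K) = ⊥ := by
    by_contra hne
    set L := (Cfsg.pPrimeCore s (G ⧸ K)).comap q with hL
    have hLn : L.Normal := inferInstance
    have hKL : K ≤ L := fun x hx => by
      rw [hL, mem_comap, hq, QuotientGroup.mk'_apply, (QuotientGroup.eq_one_iff x).2 hx]
      exact one_mem _
    rcases hdich L hLn with h1 | h1
    · refine hKmax L ⟨hLn, h1⟩ (lt_of_le_of_ne hKL fun h2 => hne ?_)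
      rw [← map_comap_eq_self_of_surjective (QuotientGroup.mk'_surjective K) (Cfsg.pPrimeCore s (G ⧸ K)),
        ← hL, ← h2, Subgroup.map_eq_bot_iff, QuotientGroup.ker_mk']
    · refine hqb (le_bot_iff.1 ?_)
      obtain ⟨n, hn⟩ := (hMp.map q).exists_card_eq
      have hd := card_dvd_of_le (map_le_iff_le_comap.2 h1 : M.map q ≤ Cfsg.pPrimeCore s (G ⧸ K))
      have hc := (coprime_pPrimeCore (G := G ⧸ K) s).coprime_dvd_left hd
      rw [hn] at hc
      have : n = 0 := by
        by_contra h0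
        exact (hs.coprime_iff_not_dvd.1 hc.symm) (dvd_pow_self s h0)
      rw [this, pow_zero, card_eq_one] at hn
      exact hn.le
  have hsG : Cfsg.pCore s G ≠ ⊥ := fun h1 => hMb (le_bot_iff.1 (h1 ▸ le_pCore hMn hMp))
  refine hmin (K₀ ⊓ K) ⟨Subgroup.normal_inf_normal _ _, hinf _ _ hK₀
    (h s K hsG (fun h1 => hqb (le_bot_iff.1 (h1 ▸ hqM))) hO)⟩ (lt_of_le_of_ne inf_le_left fun h1 => hMK' ?_)
  exact hMK.trans (h1 ▸ inf_le_right)

end Cfsg.Lib.Solv
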