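import Mathlib
import Cfsg.Agent.Lib.Solv.PLengthSeries

/-!
# Consequences of `p`-length one
-/

set_option autoImplicit false

namespace Cfsg.Lib.Solv

open Subgroup

variable {G : Type*} [Group G] [Finite G] {p : ℕ} [Fact p.Prime]

theorem index_pCore_coprime (hO : Cfsg.pPrimeCore p G = ⊥) (h : Cfsg.PLengthLE p 1 G) :
    (Cfsg.pCore p G).index.Coprime p := by
  obtain ⟨X, h0, htop, hmono, hn, he, ho⟩ := pSer_bot_iff.2 h
  have hX1 : X 1 = ⊥ := by
    refine le_bot_iff.1 (hO ▸ le_pPrimeCore (hn 1) ?_)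
    have := he 0 (by omega) ⟨0, rfl⟩
    rwa [h0, relIndex_bot_left] at this
  obtain ⟨m, hm⟩ := ho 1 (by omega) Nat.not_even_one
  rw [hX1, relIndex_bot_left] at hm
  have hX2 : X 2 ≤ Cfsg.pCore p G := le_pCore (hn 2) (IsPGroup.of_card hm)
  have h2 := he 2 (by omega) even_two
  rw [show X (2 + 1) = ⊤ from htop, relIndex_top_right] at h2
  exact h2.coprime_dvd_left (index_dvd_of_le hX2)

/-- In the case of `p`-length one every Sylow subgroup is the `p`-core modulo the `p'`-core. -/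
theorem map_sylow_eq_pCore (h : Cfsg.PLengthLE p 1 G) (S : Sylow p G) :
    (S : Subgroup G).map (QuotientGroup.mk' (Cfsg.pPrimeCore p G)) =
      Cfsg.pCore p (G ⧸ Cfsg.pPrimeCore p G) := by
  set q := QuotientGroup.mk' (Cfsg.pPrimeCore p G) with hq
  have hind := index_pCore_coprime (pPrimeCore_quotient_eq_bot (G := G) p)
    (pLengthLE_quotient h (Cfsg.pPrimeCore p G))
  let S' : Sylow p (G ⧸ Cfsg.pPrimeCore p G) := S.mapSurjective (QuotientGroup.mk'_surjective _)
  have hS' : (S' : Subgroup (G ⧸ Cfsg.pPrimeCore p G)) = (S : Subgroup G).map q :=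
    Sylow.coe_mapSurjective (QuotientGroup.mk'_surjective _) S
  rw [← hS']
  have hle := pCore_le_sylow p S'
  refine (eq_of_le_of_card_ge hle ?_).symm
  obtain ⟨a, ha⟩ := S'.isPGroup'.exists_card_eq
  have h3 : (S' : Subgroup (G ⧸ Cfsg.pPrimeCore p G)).index ∣ (Cfsg.pCore p (G ⧸ Cfsg.pPrimeCore p G)).index :=
    index_dvd_of_le hle
  have h4 : Nat.card S' ∣ Nat.card (Cfsg.pCore p (G ⧸ Cfsg.pPrimeCore p G)) *
      (Cfsg.pCore p (G ⧸ Cfsg.pPrimeCore p G)).index := by
    rw [card_mul_index]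
    exact card_subgroup_dvd_card _
  rw [ha] at h4 ⊢
  exact Nat.le_of_dvd Nat.card_pos ((Nat.Coprime.pow_left a hind.symm).dvd_of_dvd_mul_right h4)

end Cfsg.Lib.Solv
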