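import Cfsg.Agent.Lib.Solv.Supersolvable2

/-!
Products of two abelian subgroups (theorems of Ito), products of two cyclic subgroups.
-/

set_option autoImplicit false

namespace Cfsg.Lib.Solv

open Subgroup
open scoped Pointwise commutatorElement

universe u

theorem exists_idempotent_pow {M : Type*} [Monoid M] [Finite M] (e : M) :
    ∃ N : ℕ, 0 < N ∧ e ^ N * e ^ N = e ^ N := by
  obtain ⟨i, j, hne, heq⟩ := Finite.exists_ne_map_eq_of_infinite fun n : ℕ => e ^ n
  rcases lt_or_gt_of_ne hne with h | h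
  · exact aux e i j h heq
  · exact aux e j i h heq.symm
where
  aux {M : Type _} [Monoid M] (e : M) (i j : ℕ) (h : i < j) (heq : e ^ i = e ^ j) :
      ∃ N : ℕ, 0 < N ∧ e ^ N * e ^ N = e ^ N := by
    have hper : ∀ t n, i ≤ n → e ^ (n + t * (j - i)) = e ^ n := by
      intro t
      induction t with
      | zero => simp
      | succ t ih =>
        intro n hn
        have h1 : n + (t + 1) * (j - i) = (n + t * (j - i) - i) + j := by
          rw [add_one_mul]; omega
        rw [h1, pow_add, ← heq, ← pow_add, Nat.sub_add_cancel (by omega), ih n hn]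
    refine ⟨(i + 1) * (j - i), Nat.mul_pos (Nat.succ_pos i) (Nat.sub_pos_of_lt h), ?_⟩
    rw [← pow_add]
    exact hper (i + 1) _ (le_trans (Nat.le_succ i) (Nat.le_mul_of_pos_right _ (Nat.sub_pos_of_lt h)))

theorem exists_kernel_of_nilpotent {W : Type*} [AddCommGroup W] {ι : Type*} [DecidableEq ι]
    (e : ι → AddMonoid.End W) (hc : ∀ a b, e a * e b = e b * e a)
    (hnil : ∀ a, ∃ N : ℕ, e a ^ N = 0) {w : W} (hw : w ≠ 0) (s : Finset ι) :
    ∃ x : W, x ≠ 0 ∧ ∀ a ∈ s, e a x = 0 := by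
  induction s using Finset.induction with
  | empty => exact ⟨w, hw, by simp⟩
  | insert a s has ih =>
    obtain ⟨x, hx, hxs⟩ := ih
    obtain ⟨N, hN⟩ := hnil a
    classical
    have hex : ∃ k : ℕ, (e a ^ k) x = 0 := ⟨N, by rw [hN]; rfl⟩
    have hk := Nat.find_spec hex
    have hk0 : Nat.find hex ≠ 0 := fun h => hx (by rw [h, pow_zero] at hk; exact hk)
    obtain ⟨k, hk'⟩ := Nat.exists_eq_succ_of_ne_zero hk0
    refine ⟨(e a ^ k) x, Nat.find_min hex (by omega), fun b hb => ?_⟩
    rcases Finset.mem_insert.1 hb with rfl | hb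
    · rw [hk', pow_succ'] at hk; exact hk
    · have hcb : Commute (e b) (e a ^ k) := (show Commute (e b) (e a) from hc b a).pow_right k
      show (e b * e a ^ k) x = 0
      rw [hcb.eq]
      show (e a ^ k) (e b x) = 0
      rw [hxs b hb, map_zero]

/-- Symmetric families for commuting endomorphisms without a common kernel are coboundaries. -/
theorem exists_of_symmetric : ∀ (n : ℕ) (W : Type u) [AddCommGroup W] [Finite W],
    Nat.card W ≤ n → ∀ {ι : Type u} [Finite ι] (e : ι → AddMonoid.End W),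
      (∀ a b, e a * e b = e b * e a) → (∀ w, (∀ a, e a w = 0) → w = 0) →
      ∀ f : ι → W, (∀ a b, e a (f b) = e b (f a)) → ∃ v, ∀ a, f a = e a v := by
  intro n
  induction n with
  | zero => intro W _ _ hn; exact absurd hn (Nat.not_le.2 Nat.card_pos)
  | succ n ih =>
    intro W _ _ hn ι _ e hc hker f hf
    classical
    have : Fintype ι := Fintype.ofFinite ι
    by_cases htriv : ∀ w : W, w = 0
    · exact ⟨0, fun a => (htriv _).trans (htriv _).symm⟩
    push Not at htriv
    obtain ⟨w, hw⟩ := htriv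
    have : Finite (AddMonoid.End W) :=
      Finite.of_injective (fun g : AddMonoid.End W => (g : W → W)) DFunLike.coe_injective
    by_cases hnil : ∀ a, ∃ N : ℕ, e a ^ N = 0
    · obtain ⟨x, hx, hxs⟩ := exists_kernel_of_nilpotent e hc hnil hw Finset.univ
      exact absurd (hker x fun a => hxs a (Finset.mem_univ a)) hx
    push Not at hnil
    obtain ⟨a, ha⟩ := hnil
    obtain ⟨N, hN, hidem⟩ := exists_idempotent_pow (e a)
    set E := e a ^ N with hE
    have hEc : ∀ b, e b * E = E * e b := fun b => ((show Commute (e b) (e a) from hc b a).pow_right N).eq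
    have hEb : ∀ b w, e b (E w) = E (e b w) := fun b w => congrArg (fun g : AddMonoid.End W => g w) (hEc b)
    have hEE : ∀ w, E (E w) = E w := fun w => congrArg (fun g : AddMonoid.End W => g w) hidem
    let K : AddSubgroup W := E.ker
    have hKne : Nat.card K ≤ n := by
      have hlt : Nat.card K < Nat.card W := by
        refine lt_of_le_of_ne (Nat.card_le_card_of_injective _ Subtype.coe_injective) fun heq => ha N ?_
        have htop : K = ⊤ := AddSubgroup.eq_top_of_card_eq K heq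
        refine AddMonoidHom.ext fun w => ?_
        exact (htop.ge (AddSubgroup.mem_top w) : w ∈ K)
      omega
    let eK : ι → AddMonoid.End K := fun b =>
      ((e b).comp K.subtype).codRestrict K fun x => by
        show E (e b x) = 0
        have hx : E (x : W) = 0 := x.2
        rw [← hEb, hx, map_zero]
    have hval : ∀ b (x : K), ((eK b x : K) : W) = e b x := fun b x => rfl
    let fK : ι → K := fun b => ⟨f b - E (f b), by show E (f b - E (f b)) = 0; rw [map_sub, hEE, sub_self]⟩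
    obtain ⟨v, hv⟩ := ih K hKne eK
      (fun b c => AddMonoidHom.ext fun x => Subtype.ext (by
        show e b (e c x) = e c (e b x)
        exact congrArg (fun g : AddMonoid.End W => g (x : W)) (hc b c)))
      (fun x hx => Subtype.ext (hker x fun b => congrArg Subtype.val (hx b)))
      fK (fun b c => Subtype.ext (by
        show e b (f c - E (f c)) = e c (f b - E (f b))
        rw [map_sub, map_sub, hEb, hEb, hf b c]))
    refine ⟨(v : W) + (e a ^ (N - 1)) (E (f a)), fun b => ?_⟩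
    rw [map_add]
    have h1 : e b ((e a ^ (N - 1)) (E (f a))) = E (f b) := by
      have hcb := ((show Commute (e b) (e a) from hc b a).pow_right (N - 1)).eq
      calc e b ((e a ^ (N - 1)) (E (f a))) = (e a ^ (N - 1)) (e b (E (f a))) :=
            congrArg (fun g : AddMonoid.End W => g (E (f a))) hcb
        _ = (e a ^ (N - 1)) (e a (E (f b))) := by rw [hEb b (f a), hEb a (f b), hf a b]
        _ = (e a ^ (N - 1) * e a) (E (f b)) := rfl
        _ = E (f b) := by rw [pow_sub_one_mul hN.ne', ← hE, hEE]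
    rw [h1, ← hval, ← hv b]
    show f b = (f b - E (f b)) + E (f b)
    rw [sub_add_cancel]

section

variable {G : Type*} [Group G]

theorem conj_coboundary [Finite G] (A V : Subgroup G) [IsMulCommutative A] [IsMulCommutative V]
    (hAV : A ≤ normalizer (V : Set G)) (hfix : V ⊓ centralizer (A : Set G) = ⊥)
    (f : A → G) (hfV : ∀ a, f a ∈ V)
    (hf : ∀ a b : A, f (a * b) = f a * ((a : G) * f b * (a : G)⁻¹)) :
    ∃ v ∈ V, ∀ a : A, f a = v * a * v⁻¹ * (a : G)⁻¹ := by
  let W := Additive V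
  have hcm : ∀ x y : V, x * y = y * x := fun x y => IsMulCommutative.is_comm.comm x y
  let _ : AddCommGroup W :=
    { (inferInstance : AddGroup W) with add_comm := fun x y => hcm x.toMul y.toMul }
  let act : A → V → V := fun a v =>
    ⟨(a : G) * v * (a : G)⁻¹, (mem_normalizer_iff.1 (hAV a.2) _).1 v.2⟩
  let e : A → AddMonoid.End W := fun a =>
    AddMonoidHom.mk' (fun w => Additive.ofMul (w.toMul * (act a w.toMul)⁻¹)) fun x y => by
      apply Additive.toMul.injective
      show (x.toMul * y.toMul) * (act a (x.toMul * y.toMul))⁻¹ =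
        (x.toMul * (act a x.toMul)⁻¹) * (y.toMul * (act a y.toMul)⁻¹)
      have : act a (x.toMul * y.toMul) = act a x.toMul * act a y.toMul := Subtype.ext (by
        show (a : G) * ((x.toMul : G) * y.toMul) * (a : G)⁻¹ = _
        simp [act, mul_assoc])
      rw [this, mul_inv_rev, hcm (act a y.toMul)⁻¹, ← mul_assoc, mul_assoc x.toMul,
        hcm y.toMul, ← mul_assoc, mul_assoc]
  have hev : ∀ a (w : W), (((e a w).toMul : V) : G) =
      (w.toMul : G) * ((a : G) * w.toMul * (a : G)⁻¹)⁻¹ := fun a w => rfl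
  have hac : ∀ a b : A, (a : G) * b = b * a := fun a b => congrArg Subtype.val
    (IsMulCommutative.is_comm.comm a b)
  have hVc : ∀ x ∈ V, ∀ y ∈ V, x * y = y * x := fun x hx y hy =>
    congrArg Subtype.val (hcm ⟨x, hx⟩ ⟨y, hy⟩)
  have hconj : ∀ (a : A) (x : G), x ∈ V → (a : G) * x * (a : G)⁻¹ ∈ V := fun a x hx =>
    (mem_normalizer_iff.1 (hAV a.2) _).1 hx
  obtain ⟨v, hv⟩ := exists_of_symmetric _ W le_rfl e
    (fun a b => AddMonoidHom.ext fun w => by
      apply Additive.toMul.injective; apply Subtype.ext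
      show (((e a (e b w)).toMul : V) : G) = (((e b (e a w)).toMul : V) : G)
      rw [hev, hev, hev, hev]
      set x := (w.toMul : G) with hxdef
      have hx : x ∈ V := w.toMul.2
      have e1 : ∀ (s t : A), x * ((t : G) * x * (t : G)⁻¹)⁻¹ *
          ((s : G) * (x * ((t : G) * x * (t : G)⁻¹)⁻¹) * (s : G)⁻¹)⁻¹ =
          x * ((t : G) * x * (t : G)⁻¹)⁻¹ * (((s : G) * (t : G)) * x * ((s : G) * (t : G))⁻¹) *
            ((s : G) * x * (s : G)⁻¹)⁻¹ := fun s t => by group
      rw [e1, e1, hac b a]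
      have hA := V.inv_mem (hconj a x hx)
      have hB := V.inv_mem (hconj b x hx)
      have hAB : ((a : G) * b) * x * ((a : G) * b)⁻¹ ∈ V := hconj (a * b) x hx
      have key : ∀ p ∈ V, ∀ q ∈ V, ∀ r ∈ V, x * p * q * r = x * r * q * p := by
        intro p hp q hq r hr
        calc x * p * q * r = x * ((p * q) * r) := by group
          _ = x * (r * (q * p)) := by rw [hVc _ (V.mul_mem hp hq) r hr, hVc p hp q hq]
          _ = _ := by group
      exact key _ hB _ hAB _ hA)
    (fun w hw => by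
      have h1 : (w.toMul : G) ∈ V ⊓ centralizer (A : Set G) := by
        refine ⟨w.toMul.2, mem_centralizer_iff.2 fun a ha => ?_⟩
        have h := congrArg (fun z : W => ((z.toMul : V) : G)) (hw ⟨a, ha⟩)
        simp only [hev, toMul_zero, OneMemClass.coe_one] at h
        rw [mul_inv_eq_one] at h
        exact (eq_mul_inv_iff_mul_eq.1 h).symm
      rw [hfix, mem_bot] at h1
      exact Additive.toMul.injective (Subtype.ext h1))
    (fun a => Additive.ofMul (⟨f a, hfV a⟩ : V)) (fun a b => by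
      apply Additive.toMul.injective; apply Subtype.ext
      show f b * ((a : G) * f b * (a : G)⁻¹)⁻¹ = f a * ((b : G) * f a * (b : G)⁻¹)⁻¹
      have h1 := hf a b
      rw [IsMulCommutative.is_comm.comm a b, hf b a] at h1
      have hA := hconj a _ (hfV b)
      have hB := hconj b _ (hfV a)
      calc f b * ((a : G) * f b * (a : G)⁻¹)⁻¹
          = (f b * ((b : G) * f a * (b : G)⁻¹)) * ((b : G) * f a * (b : G)⁻¹)⁻¹ *
              ((a : G) * f b * (a : G)⁻¹)⁻¹ := by group
        _ = (f a * ((a : G) * f b * (a : G)⁻¹)) * ((b : G) * f a * (b : G)⁻¹)⁻¹ *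
              ((a : G) * f b * (a : G)⁻¹)⁻¹ := by rw [h1]
        _ = f a * ((b : G) * f a * (b : G)⁻¹)⁻¹ := by
          rw [mul_assoc (f a), hVc _ hA _ (V.inv_mem hB)]; group)
  refine ⟨(v.toMul : G), v.toMul.2, fun a => ?_⟩
  have h := congrArg (fun z : W => ((z.toMul : V) : G)) (hv a)
  simp only [hev, toMul_ofMul] at h
  rw [h]
  group

variable (A B : Subgroup G)

theorem factor_sup_eq_top (hAB : ∀ g : G, ∃ a ∈ A, ∃ b ∈ B, g = a * b) : A ⊔ B = ⊤ :=
  top_le_iff.1 fun g _ => by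
    obtain ⟨a, ha, b, hb, rfl⟩ := hAB g
    exact mul_mem_sup ha hb

theorem commutator_le_of_factor [IsMulCommutative A] [IsMulCommutative B]
    (hAB : ∀ g : G, ∃ a ∈ A, ∃ b ∈ B, g = a * b) : _root_.commutator G ≤ ⁅A, B⁆ := by
  have hn : (⁅A, B⁆ : Subgroup G).Normal := by
    rw [← normalizer_eq_top_iff, ← top_le_iff, ← factor_sup_eq_top A B hAB]
    refine sup_le ?_ (le_normalizer_commutator_right A B)
    exact le_normalizer_commutator_left A B
  set f := QuotientGroup.mk' (⁅A, B⁆ : Subgroup G)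
  have hab : ∀ a ∈ A, ∀ b ∈ B, Commute (f a) (f b) := fun a ha b hb => by
    refine commutatorElement_eq_one_iff_commute.1 ?_
    rw [← map_commutatorElement]
    exact (QuotientGroup.eq_one_iff _).2 (commutator_mem_commutator ha hb)
  rw [_root_.commutator_def, commutator_le]
  intro x _ y _
  refine (QuotientGroup.eq_one_iff _).1 ?_
  show f ⁅x, y⁆ = 1
  rw [map_commutatorElement, commutatorElement_eq_one_iff_commute]
  obtain ⟨a, ha, b, hb, rfl⟩ := hAB x
  obtain ⟨a', ha', b', hb', rfl⟩ := hAB y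
  have hA : Commute (f a) (f a') :=
    (show Commute a a' from setLike_mul_comm ha ha').map f
  have hB : Commute (f b) (f b') :=
    (show Commute b b' from setLike_mul_comm hb hb').map f
  rw [map_mul, map_mul]
  exact ((hA.mul_right (hab a ha b' hb')).mul_left ((hab a' ha' b hb).symm.mul_right hB))

/-- Ito: the commutator subgroup of a product of two abelian subgroups is abelian. -/
theorem commutator_abelian_of_factor [IsMulCommutative A] [IsMulCommutative B]
    (hAB : ∀ g : G, ∃ a ∈ A, ∃ b ∈ B, g = a * b) : IsMulCommutative ↥(_root_.commutator G) := by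
  have hBA : ∀ g : G, ∃ b ∈ B, ∃ a ∈ A, g = b * a := fun g => by
    obtain ⟨a, ha, b, hb, e⟩ := hAB g⁻¹
    exact ⟨b⁻¹, B.inv_mem hb, a⁻¹, A.inv_mem ha, by rw [← mul_inv_rev, ← e, inv_inv]⟩
  have hA : ∀ x ∈ A, ∀ y ∈ A, x * y = y * x := fun x hx y hy => setLike_mul_comm hx hy
  have hB : ∀ x ∈ B, ∀ y ∈ B, x * y = y * x := fun x hx y hy => setLike_mul_comm hx hy
  have hcomm : ∀ a ∈ A, ∀ b ∈ B, ∀ a1 ∈ A, ∀ b1 ∈ B,
      (a1 * b1) * ⁅a, b⁆ * (a1 * b1)⁻¹ = (b1 * a1) * ⁅a, b⁆ * (b1 * a1)⁻¹ := by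
    intro a ha b hb a1 ha1 b1 hb1
    obtain ⟨b2, hb2, a2, ha2, e2⟩ := hBA (a1 * b * a1⁻¹)
    obtain ⟨a3, ha3, b3, hb3, e3⟩ := hAB (b1 * a * b1⁻¹)
    have s1 : ∀ z ∈ A, a1 * ⁅z, b⁆ * a1⁻¹ = ⁅z, b2⁆ := by
      intro z hz
      calc a1 * ⁅z, b⁆ * a1⁻¹ = (a1 * z * a1⁻¹) * (a1 * b * a1⁻¹) * (a1 * z * a1⁻¹)⁻¹ *
            (a1 * b * a1⁻¹)⁻¹ := by rw [commutatorElement_def]; group
        _ = z * (b2 * a2) * z⁻¹ * (b2 * a2)⁻¹ := by
          rw [hA a1 ha1 z hz, mul_inv_cancel_right, e2]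
        _ = z * b2 * (a2 * z⁻¹) * a2⁻¹ * b2⁻¹ := by group
        _ = _ := by rw [hA a2 ha2 _ (A.inv_mem hz), commutatorElement_def]; group
    have s2 : ∀ z ∈ B, b1 * ⁅a, z⁆ * b1⁻¹ = ⁅a3, z⁆ := by
      intro z hz
      calc b1 * ⁅a, z⁆ * b1⁻¹ = (b1 * a * b1⁻¹) * (b1 * z * b1⁻¹) * (b1 * a * b1⁻¹)⁻¹ *
            (b1 * z * b1⁻¹)⁻¹ := by rw [commutatorElement_def]; group
        _ = (a3 * b3) * z * (a3 * b3)⁻¹ * z⁻¹ := by
          rw [hB b1 hb1 z hz, mul_inv_cancel_right, e3]
        _ = a3 * (b3 * z) * b3⁻¹ * a3⁻¹ * z⁻¹ := by group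
        _ = _ := by rw [hB b3 hb3 z hz, commutatorElement_def]; group
    calc (a1 * b1) * ⁅a, b⁆ * (a1 * b1)⁻¹ = a1 * (b1 * ⁅a, b⁆ * b1⁻¹) * a1⁻¹ := by group
      _ = ⁅a3, b2⁆ := by rw [s2 b hb, s1 a3 ha3]
      _ = b1 * (a1 * ⁅a, b⁆ * a1⁻¹) * b1⁻¹ := by rw [s1 a ha, s2 b2 hb2]
      _ = _ := by group
  set S : Set G := {g | ∃ a ∈ A, ∃ b ∈ B, ⁅a, b⁆ = g}
  have hSc : ∀ x ∈ S, ∀ y ∈ S, x * y = y * x := by
    rintro _ ⟨a1, ha1, b1, hb1, rfl⟩ _ ⟨a, ha, b, hb, rfl⟩
    have key : ∀ x : G, (a1 * b1) * x * (a1 * b1)⁻¹ = (b1 * a1) * x * (b1 * a1)⁻¹ →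
        ⁅a1, b1⁆ * ((b1 * a1) * x * (b1 * a1)⁻¹) = ((b1 * a1) * x * (b1 * a1)⁻¹) * ⁅a1, b1⁆ := by
      intro x hx
      calc ⁅a1, b1⁆ * ((b1 * a1) * x * (b1 * a1)⁻¹)
          = ((a1 * b1) * x * (a1 * b1)⁻¹) * ⁅a1, b1⁆ := by rw [commutatorElement_def]; group
        _ = _ := by rw [hx]
    -- the set of commutators is invariant under conjugation
    have hstep : ∀ c ∈ A, ∀ d ∈ B, ∀ z, z ∈ (A : Set G) ∪ B →
        z * ⁅c, d⁆ * z⁻¹ ∈ S := by
      intro c hc d hd z hz
      rcases hz with hz | hz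
      · obtain ⟨d2, hd2, c2, hc2, e2⟩ := hBA (z * d * z⁻¹)
        refine ⟨c, hc, d2, hd2, ?_⟩
        calc ⁅c, d2⁆ = c * d2 * (c⁻¹ * c2) * c2⁻¹ * d2⁻¹ := by rw [commutatorElement_def]; group
          _ = c * (d2 * c2) * c⁻¹ * (d2 * c2)⁻¹ := by rw [hA _ (A.inv_mem hc) c2 hc2]; group
          _ = (z * c * z⁻¹) * (z * d * z⁻¹) * (z * c * z⁻¹)⁻¹ * (z * d * z⁻¹)⁻¹ := by
            rw [hA z hz c hc, mul_inv_cancel_right, e2]
          _ = _ := by rw [commutatorElement_def]; group
      · obtain ⟨c3, hc3, d3, hd3, e3⟩ := hAB (z * c * z⁻¹)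
        refine ⟨c3, hc3, d, hd, ?_⟩
        calc ⁅c3, d⁆ = c3 * (d * d3) * d3⁻¹ * c3⁻¹ * d⁻¹ := by rw [commutatorElement_def]; group
          _ = (c3 * d3) * d * (c3 * d3)⁻¹ * d⁻¹ := by rw [hB d hd d3 hd3]; group
          _ = (z * c * z⁻¹) * (z * d * z⁻¹) * (z * c * z⁻¹)⁻¹ * (z * d * z⁻¹)⁻¹ := by
            rw [hB z hz d hd, mul_inv_cancel_right, e3]
          _ = _ := by rw [commutatorElement_def]; group
    obtain ⟨c, hc, d, hd, e⟩ := hstep a ha b hb b1⁻¹ (Or.inr (B.inv_mem hb1))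
    obtain ⟨c', hc', d', hd', e'⟩ := hstep c hc d hd a1⁻¹ (Or.inl (A.inv_mem ha1))
    have h := key ⁅c', d'⁆ (hcomm c' hc' d' hd' a1 ha1 b1 hb1)
    have hx : (b1 * a1) * ⁅c', d'⁆ * (b1 * a1)⁻¹ = ⁅a, b⁆ := by rw [e', e]; group
    rwa [hx] at h
  have : IsMulCommutative ↥(⁅A, B⁆ : Subgroup G) := Subgroup.isMulCommutative_closure hSc
  have hle := commutator_le_of_factor A B hAB
  exact ⟨⟨fun x y => Subtype.ext (setLike_mul_comm (hle x.2) (hle y.2))⟩⟩

theorem solvable_of_abelian_factor [IsMulCommutative A] [IsMulCommutative B]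
    (hAB : ∀ g : G, ∃ a ∈ A, ∃ b ∈ B, g = a * b) : Group.IsSolvable G := by
  have := commutator_abelian_of_factor A B hAB
  have hs : Group.IsSolvable ↥(_root_.commutator G) :=
    Group.isSolvable_of_comm fun a b => IsMulCommutative.is_comm.comm a b
  exact Group.isSolvable_of_ker_le_range (_root_.commutator G).subtype
    (Abelianization.of (G := G)) (by rw [range_subtype]; exact (Abelianization.ker_of G).le)

/-- Ito: a product of two abelian subgroups has a nontrivial normal subgroup inside a factor. -/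
theorem exists_normal_le_factor [Finite G] [Nontrivial G] [IsMulCommutative A] [IsMulCommutative B]
    (hAB : ∀ g : G, ∃ a ∈ A, ∃ b ∈ B, g = a * b) :
    ∃ N : Subgroup G, N.Normal ∧ N ≠ ⊥ ∧ (N ≤ A ∨ N ≤ B) := by
  by_contra hno
  push Not at hno
  have hA : ∀ N : Subgroup G, N.Normal → N ≤ A → N = ⊥ := fun N hN h => by
    by_contra hne; exact (hno N hN hne).1 h
  have hB : ∀ N : Subgroup G, N.Normal → N ≤ B → N = ⊥ := fun N hN h => by
    by_contra hne; exact (hno N hN hne).2 h
  set V := _root_.commutator G with hV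
  have := commutator_abelian_of_factor A B hAB
  have hcA : centralizer (A : Set G) ≤ A := by
    intro x hx
    obtain ⟨a, ha, b, hb, rfl⟩ := hAB x
    have hbA : b ∈ centralizer (A : Set G) := by
      have h2 := mul_mem (inv_mem (le_centralizer A ha)) hx
      rwa [inv_mul_cancel_left] at h2
    have hbc : b ∈ center G ⊓ B := by
      refine ⟨mem_center_iff.2 fun g => ?_, hb⟩
      obtain ⟨c, hc, d, hd, rfl⟩ := hAB g
      have h1 : Commute c b := mem_centralizer_iff.1 hbA c hc
      have h2 : Commute d b := setLike_mul_comm hd hb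
      exact (h1.mul_left h2).eq
    rw [hB (center G ⊓ B) ⟨fun y hy g => by
      have e : g * y * g⁻¹ = y := by rw [mem_center_iff.1 hy.1 g, mul_inv_cancel_right]
      rw [e]; exact hy⟩ inf_le_right, mem_bot] at hbc
    rw [hbc, mul_one]; exact ha
  have hVA : V ⊓ centralizer (A : Set G) = ⊥ := by
    rw [eq_bot_iff]
    intro a ha
    have hT : (centralizer ((A ⊔ V : Subgroup G) : Set G)).Normal := by
      have : (A ⊔ V).Normal := Subgroup.Normal.of_commutator_le G le_sup_right
      infer_instance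
    have hle : centralizer ((A ⊔ V : Subgroup G) : Set G) ≤ A :=
      le_trans (centralizer_le (fun x hx => mem_sup_left hx)) hcA
    rw [← hA _ hT hle]
    have : A ⊔ V ≤ centralizer ({a} : Set G) := sup_le
      (fun x hx => mem_centralizer_singleton_iff.2 (mem_centralizer_iff.1 ha.2 x hx))
      (fun x hx => mem_centralizer_singleton_iff.2 (setLike_mul_comm hx ha.1))
    exact mem_centralizer_iff.2 fun x hx => mem_centralizer_singleton_iff.1 (this hx)
  -- every element lies in `V * A`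
  have hVn : A ≤ normalizer (V : Set G) := by rw [normalizer_eq_top]; exact le_top
  have hgen : ∀ g : G, ∃ v ∈ V, ∃ a ∈ A, g = v * a := by
    intro g
    obtain ⟨v, hv, hva⟩ := conj_coboundary A V hVn hVA (fun a => g * a * g⁻¹ * (a : G)⁻¹)
      (fun a => commutator_mem_commutator (mem_top g) (mem_top (a : G)))
      (fun a b => by simp only [Subgroup.coe_mul]; group)
    have hmem : v⁻¹ * g ∈ A := hcA (mem_centralizer_iff.2 fun a ha => by
      have h := hva ⟨a, ha⟩
      have h' : g * a * g⁻¹ = v * a * v⁻¹ := mul_right_cancel h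
      calc a * (v⁻¹ * g) = v⁻¹ * (v * a * v⁻¹) * g := by group
        _ = v⁻¹ * (g * a * g⁻¹) * g := by rw [h']
        _ = _ := by group)
    exact ⟨v, hv, _, hmem, (mul_inv_cancel_left v g).symm⟩
  have hBA : ∀ g : G, ∃ b ∈ B, ∃ a ∈ A, g = b * a := fun g => by
    obtain ⟨a, ha, b, hb, e⟩ := hAB g⁻¹
    exact ⟨b⁻¹, B.inv_mem hb, a⁻¹, A.inv_mem ha, by rw [← mul_inv_rev, ← e, inv_inv]⟩
  -- `B` also meets `V` trivially and `V B = G`
  have hcB : centralizer (B : Set G) ≤ B := by
    intro x hx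
    obtain ⟨b, hb, a, ha, rfl⟩ := hBA x
    have haB : a ∈ centralizer (B : Set G) := by
      have h2 := mul_mem (inv_mem (le_centralizer B hb)) hx
      rwa [inv_mul_cancel_left] at h2
    have hac : a ∈ center G ⊓ A := by
      refine ⟨mem_center_iff.2 fun g => ?_, ha⟩
      obtain ⟨c, hc, d, hd, rfl⟩ := hAB g
      have h1 : Commute c a := setLike_mul_comm hc ha
      have h2 : Commute d a := mem_centralizer_iff.1 haB d hd
      exact (h1.mul_left h2).eq
    rw [hA (center G ⊓ A) ⟨fun y hy g => by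
      have e : g * y * g⁻¹ = y := by rw [mem_center_iff.1 hy.1 g, mul_inv_cancel_right]
      rw [e]; exact hy⟩ inf_le_right, mem_bot] at hac
    rw [hac, mul_one]; exact hb
  have hVB : V ⊓ centralizer (B : Set G) = ⊥ := by
    rw [eq_bot_iff]
    intro a ha
    have hT : (centralizer ((B ⊔ V : Subgroup G) : Set G)).Normal := by
      have : (B ⊔ V).Normal := Subgroup.Normal.of_commutator_le G le_sup_right
      infer_instance
    have hle : centralizer ((B ⊔ V : Subgroup G) : Set G) ≤ B :=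
      le_trans (centralizer_le (fun x hx => mem_sup_left hx)) hcB
    rw [← hB _ hT hle]
    have : B ⊔ V ≤ centralizer ({a} : Set G) := sup_le
      (fun x hx => mem_centralizer_singleton_iff.2 (mem_centralizer_iff.1 ha.2 x hx))
      (fun x hx => mem_centralizer_singleton_iff.2 (setLike_mul_comm hx ha.1))
    exact mem_centralizer_iff.2 fun x hx => mem_centralizer_singleton_iff.1 (this hx)
  have hgenB : ∀ g : G, ∃ v ∈ V, ∃ b ∈ B, g = v * b := by
    intro g
    obtain ⟨v, hv, hva⟩ := conj_coboundary B V (by rw [normalizer_eq_top]; exact le_top) hVB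
      (fun a => g * a * g⁻¹ * (a : G)⁻¹)
      (fun a => commutator_mem_commutator (mem_top g) (mem_top (a : G)))
      (fun a b => by simp only [Subgroup.coe_mul]; group)
    have hmem : v⁻¹ * g ∈ B := hcB (mem_centralizer_iff.2 fun a ha => by
      have h := hva ⟨a, ha⟩
      have h' : g * a * g⁻¹ = v * a * v⁻¹ := mul_right_cancel h
      calc a * (v⁻¹ * g) = v⁻¹ * (v * a * v⁻¹) * g := by group
        _ = v⁻¹ * (g * a * g⁻¹) * g := by rw [h']
        _ = _ := by group)
    exact ⟨v, hv, _, hmem, (mul_inv_cancel_left v g).symm⟩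
  -- `B` is a conjugate of `A`
  have hVdB : ∀ x ∈ V, x ∈ B → x = 1 := fun x hx hxB => by
    have : x ∈ V ⊓ centralizer (B : Set G) := ⟨hx, le_centralizer B hxB⟩
    rwa [hVB, mem_bot] at this
  have hex : ∀ a : A, ∃ b ∈ B, b * (a : G)⁻¹ ∈ V := fun a => by
    obtain ⟨v, hv, b, hb, e⟩ := hgenB a
    refine ⟨b, hb, ?_⟩
    have : b * (a : G)⁻¹ = v⁻¹ := by rw [e]; group
    rw [this]; exact V.inv_mem hv
  choose β hβB hβV using hex
  obtain ⟨v, hv, hva⟩ := conj_coboundary A V hVn hVA (fun a => β a * (a : G)⁻¹) hβV (fun a b => by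
    have hprod : β (a * b) = β a * β b := by
      refine (mul_inv_eq_one.1 (hVdB _ ?_ ?_)).symm
      · have e : β a * β b * (β (a * b))⁻¹ = (β a * (a : G)⁻¹) *
            ((a : G) * (β b * (b : G)⁻¹) * (a : G)⁻¹) * (β (a * b) * ((a * b : A) : G)⁻¹)⁻¹ := by
          rw [Subgroup.coe_mul]; group
        rw [e]
        exact V.mul_mem (V.mul_mem (hβV a) ((mem_normalizer_iff.1 (hVn a.2) _).1 (hβV b)))
          (V.inv_mem (hβV _))
      · exact B.mul_mem (B.mul_mem (hβB a) (hβB b)) (B.inv_mem (hβB _))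
    simp only [Subgroup.coe_mul, hprod]
    group)
  have hBconj : ∀ b ∈ B, ∃ a ∈ A, b = v * a * v⁻¹ := by
    intro b hb
    obtain ⟨w, hw, a, ha, e⟩ := hgen b
    have h1 : β ⟨a, ha⟩ = v * a * v⁻¹ := mul_right_cancel (hva ⟨a, ha⟩)
    refine ⟨a, ha, ?_⟩
    have h2 : b * (β ⟨a, ha⟩)⁻¹ = 1 := by
      refine hVdB _ ?_ (B.mul_mem hb (B.inv_mem (hβB _)))
      have : b * (β ⟨a, ha⟩)⁻¹ = w * (β ⟨a, ha⟩ * a⁻¹)⁻¹ := by rw [e]; group
      rw [this]
      exact V.mul_mem hw (V.inv_mem (hβV ⟨a, ha⟩))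
    rw [← h1, mul_inv_eq_one.1 h2]
  have hvA : v ∈ A := by
    obtain ⟨a, ha, b, hb, e⟩ := hAB v⁻¹
    obtain ⟨a', ha', rfl⟩ := hBconj b hb
    have h1 : a * v * a' = 1 := by
      calc a * v * a' = (a * (v * a' * v⁻¹)) * v := by group
        _ = v⁻¹ * v := by rw [← e]
        _ = 1 := inv_mul_cancel v
    have h2 : v = a⁻¹ * a'⁻¹ := by
      calc v = a⁻¹ * (a * v * a') * a'⁻¹ := by group
        _ = _ := by rw [h1, mul_one]
    rw [h2]; exact A.mul_mem (A.inv_mem ha) (A.inv_mem ha')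
  have htop : A = ⊤ := top_le_iff.1 fun g _ => by
    obtain ⟨a, ha, b, hb, rfl⟩ := hAB g
    obtain ⟨a', ha', rfl⟩ := hBconj b hb
    exact A.mul_mem ha (A.mul_mem (A.mul_mem hvA ha') (A.inv_mem hvA))
  exact top_ne_bot (hA ⊤ inferInstance htop.ge)

end

/-- A product of two cyclic subgroups is supersolvable. -/
theorem supersolvable_of_cyclic_factor : ∀ (n : ℕ) (G : Type u) [Group G] [Finite G],
    Nat.card G ≤ n → ∀ A B : Subgroup G, IsCyclic A → IsCyclic B →
      (∀ g : G, ∃ a ∈ A, ∃ b ∈ B, g = a * b) → Cfsg.IsSupersolvable G := by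
  intro n
  induction n with
  | zero => intro G _ _ hn; exact absurd hn (Nat.not_le.2 Nat.card_pos)
  | succ n ih =>
    intro G _ _ hn A B hA hB hAB
    by_cases hs : Subsingleton G
    · exact isSupersolvable_of_subsingleton
    have : Nontrivial G := not_subsingleton_iff_nontrivial.1 hs
    obtain ⟨N, hN, hNne, hle⟩ := exists_normal_le_factor A B hAB
    have : IsCyclic N := by
      rcases hle with h | h <;> exact isCyclic_of_injective (inclusion h) (inclusion_injective h)
    set f := QuotientGroup.mk' N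
    have hlt := card_quotient_lt N hNne
    refine isSupersolvable_of_cyclic_normal N (ih (G ⧸ N) (by omega) (A.map f) (B.map f)
      (isCyclic_of_surjective (f.subgroupMap A) (f.subgroupMap_surjective A))
      (isCyclic_of_surjective (f.subgroupMap B) (f.subgroupMap_surjective B)) fun g => ?_)
    obtain ⟨g, rfl⟩ := QuotientGroup.mk'_surjective N g
    obtain ⟨a, ha, b, hb, rfl⟩ := hAB g
    exact ⟨f a, mem_map_of_mem f ha, f b, mem_map_of_mem f hb, map_mul f a b⟩

end Cfsg.Lib.Solv
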