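import Cfsg.Agent.Lib.Solv.Systems
import Cfsg.Agent.Lib.Solv.Coprime3
import Cfsg.Agent.Lib.Transfer.Action
import Cfsg.Prelude.Def_SolvableStructure

/-!
Hall complement systems and system normalizers of solvable groups.
-/

set_option autoImplicit false

namespace Cfsg.Lib.Solv

open Subgroup
open scoped Pointwise commutatorElement

variable {G : Type*} [Group G]

theorem le_of_normal_of_coprime_index [Finite G] {L H : Subgroup G} [L.Normal]
    (h : (Nat.card L).Coprime H.index) : L ≤ H := by
  rw [← relIndex_eq_one]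
  refine Nat.eq_one_of_dvd_coprimes h (relIndex_dvd_card H L) ?_
  rw [← relIndex_sup_left_normal H L]
  exact relIndex_dvd_index_of_le le_sup_left

theorem not_dvd_card_complement [Finite G] {p : ℕ} (hp : p.Prime) {H : Subgroup G}
    (hH : H.index = p ^ (Nat.card G).factorization p) : ¬ p ∣ Nat.card H := by
  intro hd
  refine Nat.pow_succ_factorization_not_dvd (n := Nat.card G) Nat.card_pos.ne' hp ?_
  rw [pow_succ', ← hH, ← card_mul_index H]
  exact Nat.mul_dvd_mul_right hd _

theorem coprime_index_normalizer [Finite G] {K L : Nat.Primes → Subgroup G}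
    (hK : Cfsg.IsComplementSystem K) (hL : Cfsg.IsComplementSystem L) {p q : Nat.Primes}
    (h : p ≠ q) :
    (normalizer (K p : Set G)).index.Coprime (normalizer (L q : Set G)).index := by
  refine Nat.Coprime.coprime_dvd_left (index_dvd_of_le le_normalizer)
    (Nat.Coprime.coprime_dvd_right (index_dvd_of_le le_normalizer) ?_)
  rw [hK p, hL q]
  exact Nat.Coprime.pow _ _ ((Nat.coprime_primes p.2 q.2).2 fun e => h (Subtype.ext e))

theorem isComplementSystem_conj [Finite G] {K : Nat.Primes → Subgroup G}
    (hK : Cfsg.IsComplementSystem K) (g : G) :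
    Cfsg.IsComplementSystem fun p => MulAut.conj g • K p := fun p => by
  rw [index_conj_smul]; exact hK p

/-- Members of two complement systems conjugate under `N` one by one are conjugate simultaneously
under `N`. -/
theorem exists_simultaneous [Finite G] {K L : Nat.Primes → Subgroup G}
    (hK : Cfsg.IsComplementSystem K) (hL : Cfsg.IsComplementSystem L) (N : Subgroup G) [N.Normal]
    (h : ∀ p : Nat.Primes, ∃ n ∈ N, MulAut.conj n • K p = L p) (s : Finset Nat.Primes) :
    ∃ n ∈ N, ∀ p ∈ s, MulAut.conj n • K p = L p := by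
  induction s using Finset.induction with
  | empty => exact ⟨1, N.one_mem, by simp⟩
  | insert a s has ih =>
    obtain ⟨n, hn, hfix⟩ := ih
    obtain ⟨n0, hn0, h0⟩ := h a
    set A := s.inf (fun p => normalizer (L p : Set G))
    set B := normalizer ((MulAut.conj n • K a : Subgroup G) : Set G)
    have hA : ∀ p ∈ s, A ≤ normalizer (L p : Set G) := fun p hp => Finset.inf_le hp
    have hcop : A.index.Coprime B.index := by
      rw [index_inf_finset _ s fun i _ j _ hij => coprime_index_normalizer hL hL hij]
      exact Nat.Coprime.prod_left fun i hi => coprime_index_normalizer hL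
        (isComplementSystem_conj hK n) (L := fun p => MulAut.conj n • K p)
        (fun e => has (e ▸ hi))
    have hdvd : ∀ H : Subgroup G, (H.subgroupOf N).index ∣ H.index := fun H => by
      show H.relIndex N ∣ H.index
      rw [← relIndex_sup_left_normal H N]
      exact relIndex_dvd_index_of_le le_sup_left
    obtain ⟨m, hm, m', hm', e⟩ := exists_mul_of_coprime_index
      ((hcop.coprime_dvd_left (hdvd A)).coprime_dvd_right (hdvd B))
      ⟨n0 * n⁻¹, N.mul_mem hn0 (N.inv_mem hn)⟩
    have e' : n0 * n⁻¹ = (m : G) * (m' : G) := congrArg Subtype.val e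
    refine ⟨m * n, N.mul_mem m.2 hn, fun p hp => ?_⟩
    rw [map_mul, mul_smul]
    rcases Finset.mem_insert.1 hp with rfl | hp
    · have h1 : MulAut.conj (n0 * n⁻¹) • (MulAut.conj n • K p) = L p := by
        rw [← mul_smul, ← map_mul, inv_mul_cancel_right, h0]
      rw [e', map_mul, mul_smul, conj_smul_eq_self_iff.2 (mem_subgroupOf.1 hm')] at h1
      exact h1
    · rw [hfix p hp, conj_smul_eq_self_iff.2 (hA p hp (mem_subgroupOf.1 hm))]

theorem exists_simultaneous_all [Finite G] {K L : Nat.Primes → Subgroup G}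
    (hK : Cfsg.IsComplementSystem K) (hL : Cfsg.IsComplementSystem L) (N : Subgroup G) [N.Normal]
    (h : ∀ p : Nat.Primes, ∃ n ∈ N, MulAut.conj n • K p = L p) :
    ∃ n ∈ N, ∀ p, MulAut.conj n • K p = L p := by
  obtain ⟨n, hn, hfix⟩ :=
    exists_simultaneous hK hL N h
      ((Nat.card G).primeFactors.subtype Nat.Prime : Finset Nat.Primes)
  refine ⟨n, hn, fun p => ?_⟩
  by_cases hp : (p : ℕ) ∈ (Nat.card G).primeFactors
  · exact hfix p (Finset.mem_subtype.2 hp)
  have h0 : (Nat.card G).factorization (p : ℕ) = 0 := by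
    exact Finsupp.notMem_support_iff.1 (by rwa [Nat.support_factorization])
  have h1 : ∀ M : Nat.Primes → Subgroup G, Cfsg.IsComplementSystem M → M p = ⊤ := fun M hM =>
    index_eq_one.1 (by rw [hM p, h0, pow_zero])
  rw [h1 K hK, h1 L hL, conj_smul_normal]

theorem isPiHallOf_complement [Finite G] {p : ℕ} (hp : p.Prime) {H T : Subgroup G}
    (hH : H.index = p ^ (Nat.card G).factorization p) (hT : H ≤ T) :
    Cfsg.IsPiHallOf {q | q ≠ p} H T := by
  refine ⟨hT, fun q hq hd e => not_dvd_card_complement hp hH (e ▸ hd), fun q hq hne hd => hne ?_⟩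
  exact (Nat.prime_dvd_prime_iff_eq hq hp).1
    (hq.dvd_of_dvd_pow (hH ▸ hd.trans (relIndex_dvd_index_of_le hT)))

/-- Hall complement systems are conjugate. -/
theorem complement_system_conj [Finite G] [Group.IsSolvable G] {K L : Nat.Primes → Subgroup G}
    (hK : Cfsg.IsComplementSystem K) (hL : Cfsg.IsComplementSystem L) :
    ∃ g : G, ∀ p, MulAut.conj g • K p = L p := by
  obtain ⟨g, -, hg⟩ := exists_simultaneous_all hK hL (⊤ : Subgroup G) fun p => by
    obtain ⟨k, -, hk⟩ := hallOf_conj (K := (⊤ : Subgroup G)) inferInstance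
      (isPiHallOf_complement p.2 (hK p) le_top) (isPiHallOf_complement p.2 (hL p) le_top)
    exact ⟨k, mem_top k, hk⟩
  exact ⟨g, hg⟩

theorem mem_systemNormalizer {K : Nat.Primes → Subgroup G} {x : G} :
    x ∈ Cfsg.systemNormalizer K ↔ ∀ p, x ∈ normalizer (K p : Set G) := mem_iInf

theorem systemNormalizer_le (K : Nat.Primes → Subgroup G) (p : Nat.Primes) :
    Cfsg.systemNormalizer K ≤ normalizer (K p : Set G) := iInf_le _ p

/-- System normalizers are nilpotent. -/
theorem systemNormalizer_isNilpotent [Finite G] {K : Nat.Primes → Subgroup G}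
    (hK : Cfsg.IsComplementSystem K) : Group.IsNilpotent ↥(Cfsg.systemNormalizer K) := by
  set D := Cfsg.systemNormalizer K with hD
  let s : Finset Nat.Primes := (Nat.card G).primeFactors.subtype Nat.Prime
  have hn : ∀ p : Nat.Primes, ((K p).subgroupOf D).Normal := fun p => by
    have hle := systemNormalizer_le K p
    refine ⟨fun x hx d => ?_⟩
    exact (mem_normalizer_iff.1 (hle d.2) _).1 hx
  have hnil : ∀ p : ↥s, Group.IsNilpotent (↥D ⧸ (K p).subgroupOf D) := fun p => by
    have := Fact.mk p.1.2
    have hd : ((K p).subgroupOf D).index ∣ (p : ℕ) ^ (Nat.card G).factorization (p : ℕ) := by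
      rw [← hK p]
      show (K p).relIndex D ∣ _
      have hle := systemNormalizer_le K p
      have : ((K p).subgroupOf (normalizer (K (p : Nat.Primes) : Set G))).Normal :=
        (normal_subgroupOf_iff_le_normalizer le_normalizer).2 le_rfl
      have h1 := relIndex_sup_left_normal (G := normalizer (K (p : Nat.Primes) : Set G))
      have h2 : (K p).relIndex D ∣ (K p).relIndex (normalizer (K (p : Nat.Primes) : Set G)) := by
        rw [← relIndex_subgroupOf hle]
        exact relIndex_dvd_index_of_normal _ _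
      exact h2.trans (relIndex_dvd_index_of_le le_normalizer)
    obtain ⟨k, -, hk⟩ := (Nat.dvd_prime_pow p.1.2).1 hd
    exact (IsPGroup.of_card (p := (p : ℕ)) (n := k) (by rw [← index_eq_card, hk])).isNilpotent
  let φ : ↥D →* ((p : ↥s) → ↥D ⧸ (K p).subgroupOf D) :=
    MonoidHom.pi fun p => QuotientGroup.mk' ((K p).subgroupOf D)
  have hinj : Function.Injective φ := by
    rw [← MonoidHom.ker_eq_bot_iff, eq_bot_iff]
    intro x hx
    rw [mem_bot, ← orderOf_eq_one_iff]
    by_contra hne
    obtain ⟨q, hq, hqd⟩ := Nat.exists_prime_and_dvd hne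
    have hqs : (⟨q, hq⟩ : Nat.Primes) ∈ s := by
      refine Finset.mem_subtype.2 ?_
      exact Nat.mem_primeFactors.2
        ⟨hq, hqd.trans ((orderOf_dvd_natCard x).trans (card_subgroup_dvd_card D)), Nat.card_pos.ne'⟩
    have h1 : (x : G) ∈ K ⟨q, hq⟩ :=
      haveI := hn ⟨q, hq⟩
      mem_subgroupOf.1 ((QuotientGroup.eq_one_iff x).1 (congrFun hx ⟨⟨q, hq⟩, hqs⟩))
    refine not_dvd_card_complement hq (hK ⟨q, hq⟩) (hqd.trans ?_)
    rw [← Subgroup.orderOf_coe]
    exact Subgroup.orderOf_dvd_natCard _ h1
  exact Subgroup.isNilpotent_of_ker_le_center φ (by rw [(φ.ker_eq_bot_iff).2 hinj]; exact bot_le)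

theorem isComplementSystem_map [Finite G] {K : Nat.Primes → Subgroup G}
    (hK : Cfsg.IsComplementSystem K) (N : Subgroup G) [N.Normal] :
    Cfsg.IsComplementSystem fun p => (K p).map (QuotientGroup.mk' N) := by
  intro p
  have hd := index_map_dvd (K p) (QuotientGroup.mk'_surjective N)
  rw [hK p] at hd
  obtain ⟨k, -, hk⟩ := (Nat.dvd_prime_pow p.2).1 hd
  have hnd : ¬ (p : ℕ) ∣ Nat.card ↥((K p).map (QuotientGroup.mk' N)) := fun h =>
    not_dvd_card_complement p.2 (hK p) (h.trans (card_map_dvd _ _))
  have hfac : (Nat.card (G ⧸ N)).factorization (p : ℕ) = k := by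
    conv_lhs => rw [← card_mul_index ((K p).map (QuotientGroup.mk' N)), hk]
    rw [Nat.factorization_mul Nat.card_pos.ne' (pow_ne_zero _ p.2.ne_zero), Finsupp.add_apply,
      Nat.factorization_eq_zero_of_not_dvd hnd, Nat.Prime.factorization_pow p.2,
      Finsupp.single_eq_same, zero_add]
  show ((K p).map (QuotientGroup.mk' N)).index = _
  rw [hfac, hk]

/-- The system normalizer of a quotient is the image of the system normalizer. -/
theorem systemNormalizer_map [Finite G] [Group.IsSolvable G] {K : Nat.Primes → Subgroup G}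
    (hK : Cfsg.IsComplementSystem K) (N : Subgroup G) [N.Normal] :
    Cfsg.systemNormalizer (fun p => (K p).map (QuotientGroup.mk' N)) =
      (Cfsg.systemNormalizer K).map (QuotientGroup.mk' N) := by
  set f := QuotientGroup.mk' N with hf
  refine le_antisymm (fun x hx => ?_) ?_
  · obtain ⟨g, rfl⟩ := QuotientGroup.mk'_surjective N x
    rw [mem_systemNormalizer] at hx
    have hL := isComplementSystem_conj hK g
    have hT : ∀ p, MulAut.conj g • (K p ⊔ N) = K p ⊔ N := fun p => by
      rw [conj_smul_eq_self_iff, mem_normalizer_iff]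
      intro y
      have h := mem_normalizer_iff.1 (hx p) (f y)
      have hc : ∀ z, z ∈ K p ⊔ N ↔ f z ∈ (K p).map f := fun z => by
        rw [← mem_comap, comap_map_eq, hf, QuotientGroup.ker_mk']
      rw [hc, hc, map_mul, map_mul, map_inv]
      exact h
    obtain ⟨n, hn, hfix⟩ := exists_simultaneous_all hK hL N fun p => by
      have hle : MulAut.conj g • K p ≤ K p ⊔ N :=
        (smul_le_smul_left _ (le_sup_left : K p ≤ K p ⊔ N)).trans (hT p).le
      obtain ⟨t, ht, he⟩ := hallOf_conj (K := K p ⊔ N) inferInstance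
        (isPiHallOf_complement p.2 (hK p) le_sup_left) (isPiHallOf_complement p.2 (hL p) hle)
      obtain ⟨n, hn, k, hk, rfl⟩ :=
        mem_sup_of_normal_left.1 (show t ∈ N ⊔ K p by rw [sup_comm]; exact ht)
      refine ⟨n, hn, ?_⟩
      rwa [map_mul, mul_smul, conj_smul_eq_self_iff.2 (le_normalizer hk)] at he
    refine ⟨n⁻¹ * g, mem_systemNormalizer.2 fun p => ?_, ?_⟩
    · rw [← conj_smul_eq_self_iff, map_mul, mul_smul]
      have h := hfix p
      rw [← h, ← mul_smul, ← map_mul, inv_mul_cancel, map_one, one_smul]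
    · rw [map_mul, map_inv, show f n = 1 from (QuotientGroup.eq_one_iff n).2 hn, inv_one, one_mul]
  · refine le_iInf fun p => (map_mono (systemNormalizer_le K p)).trans (le_normalizer_map f)

/-- The normal closure of a system normalizer is the whole group. -/
theorem normalClosure_systemNormalizer [Finite G] [Group.IsSolvable G]
    {K : Nat.Primes → Subgroup G} (hK : Cfsg.IsComplementSystem K) :
    normalClosure ((Cfsg.systemNormalizer K : Subgroup G) : Set G) = ⊤ := by
  set M := normalClosure ((Cfsg.systemNormalizer K : Subgroup G) : Set G) with hM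
  by_contra hne
  set N := M ⊔ _root_.commutator G with hN
  have hNne : N ≠ ⊤ := by
    intro h
    have : Nontrivial (G ⧸ M) := QuotientGroup.nontrivial_iff.2 hne
    refine (Group.IsSolvable.commutator_lt_top_of_nontrivial (G := G ⧸ M)).ne ?_
    rw [_root_.commutator_def, ← map_top_of_surjective (QuotientGroup.mk' M)
      (QuotientGroup.mk'_surjective M), ← map_commutator, ← _root_.commutator_def]
    have h2 := congrArg (Subgroup.map (QuotientGroup.mk' M)) h
    rwa [hN, Subgroup.map_sup, QuotientGroup.map_mk'_self, bot_sup_eq] at h2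
  have htop : Cfsg.systemNormalizer (fun p => (K p).map (QuotientGroup.mk' N)) = ⊤ := by
    refine top_le_iff.1 (le_iInf fun p x _ => ?_)
    rw [mem_normalizer_iff]
    intro y
    have : x * y * x⁻¹ = y := by
      obtain ⟨a, rfl⟩ := QuotientGroup.mk'_surjective N x
      obtain ⟨b, rfl⟩ := QuotientGroup.mk'_surjective N y
      rw [← map_mul, ← map_inv, ← map_mul]
      refine (QuotientGroup.eq.2 ?_).symm
      have h1 : ⁅b⁻¹, a⁆ ∈ _root_.commutator G := commutator_mem_commutator (mem_top _) (mem_top _)
      refine mem_sup_right ?_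
      have h2 : b⁻¹ * (a * b * a⁻¹) = ⁅b⁻¹, a⁆ := by rw [commutatorElement_def]; group
      rw [h2]; exact h1
    rw [this]
  rw [systemNormalizer_map hK N] at htop
  refine hNne (top_le_iff.1 fun g _ => ?_)
  obtain ⟨d, hd, e⟩ := htop.ge (mem_top (QuotientGroup.mk' N g))
  have h1 : d⁻¹ * g ∈ N := QuotientGroup.eq.1 e
  have h2 : d ∈ N := mem_sup_left (subset_normalClosure hd)
  simpa using N.mul_mem h2 h1

theorem le_complement_of_normal_pGroup [Finite G] {p : ℕ} [Fact p.Prime] {M H : Subgroup G}
    [M.Normal] (hM : IsPGroup p M) {q : ℕ} (hq : q.Prime) (hne : q ≠ p)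
    (hH : H.index = q ^ (Nat.card G).factorization q) : M ≤ H := by
  refine le_of_normal_of_coprime_index ?_
  obtain ⟨k, hk⟩ := IsPGroup.iff_card.1 hM
  rw [hk, hH]
  exact Nat.Coprime.pow _ _ ((Nat.coprime_primes Fact.out hq).2 hne.symm)

/-- A non-central minimal normal subgroup meets the system normalizer trivially. -/
theorem minimal_inf_systemNormalizer [Finite G] [Group.IsSolvable G]
    {K : Nat.Primes → Subgroup G} (hK : Cfsg.IsComplementSystem K) (M : Subgroup G) [hMn : M.Normal]
    (hMne : M ≠ ⊥) (hmin : ∀ L : Subgroup G, L.Normal → L ≤ M → L = ⊥ ∨ L = M)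
    (hnc : ¬ M ≤ center G) : M ⊓ Cfsg.systemNormalizer K = ⊥ := by
  obtain ⟨-, p, hp, hMp, -⟩ := minimal_normal_elementary hMne inferInstance hmin
  have := Fact.mk hp
  set C := centralizer (M : Set G) with hC
  have hCne : C ≠ ⊤ := fun h => hnc fun m hm =>
    mem_center_iff.2 fun g => ((mem_centralizer_iff.1 (h.ge (mem_top g))) m hm).symm
  have : Nontrivial (G ⧸ C) := QuotientGroup.nontrivial_iff.2 hCne
  obtain ⟨L', hL'n, -, hL'ne, hL'min⟩ :=
    exists_minimal_normal_le (G := G ⧸ C) (N := ⊤) top_ne_bot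
  obtain ⟨-, q, hq, hL'q, -⟩ := minimal_normal_elementary hL'ne inferInstance hL'min
  have := Fact.mk hq
  set f := QuotientGroup.mk' C with hf
  have hsurj : Function.Surjective f := QuotientGroup.mk'_surjective C
  set L := L'.comap f with hL
  have hCL : C ≤ L := by
    have h := ker_le_comap (f := f) L'
    rwa [hf, QuotientGroup.ker_mk'] at h
  have hMLn : (M ⊓ centralizer (L : Set G)).Normal := inferInstance
  have hbot : M ⊓ centralizer (L : Set G) = ⊥ := by
    refine (hmin _ hMLn inf_le_left).resolve_right fun h => hL'ne ?_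
    have hLC : L ≤ C := le_centralizer_iff.1 (h ▸ inf_le_right)
    rw [← map_comap_eq_self_of_surjective hsurj L', ← hL, eq_bot_iff]
    exact (map_mono hLC).trans (le_of_eq (QuotientGroup.map_mk'_self C))
  have hqp : q ≠ p := by
    rintro rfl
    obtain ⟨P⟩ := (inferInstance : Nonempty (Sylow q L))
    set P' := (P : Subgroup L).map L.subtype
    have hPn : P' ≤ normalizer (M : Set G) := by rw [normalizer_eq_top]; exact le_top
    have hcard := Cfsg.Lib.Transfer.card_modEq_card_inf_centralizer M P' (P.isPGroup'.map _) hPn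
    have hLP : L ≤ C ⊔ P' := by
      have hn : C.subgroupOf L ⊔ (P : Subgroup L) = ⊤ := by
        refine index_eq_one.1 ?_
        by_contra h1
        obtain ⟨r, hr, hrd⟩ := Nat.exists_prime_and_dvd h1
        have h2 : r ∣ (C.subgroupOf L).index := hrd.trans (index_dvd_of_le le_sup_left)
        have h3 : r = q := by
          obtain ⟨k, hk⟩ := IsPGroup.iff_card.1 hL'q
          refine (Nat.prime_dvd_prime_iff_eq hr hq).1 (hr.dvd_of_dvd_pow (n := k) ?_)
          have e : (C.subgroupOf L).index = Nat.card ↥L' := by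
            show C.relIndex L = _
            rw [← map_comap_eq_self_of_surjective hsurj L', ← hL, card_map_eq_relIndex, hf,
              QuotientGroup.ker_mk']
          rw [← hk, ← e]; exact h2
        subst h3
        exact P.not_dvd_index (hrd.trans (index_dvd_of_le le_sup_right))
      have h := congrArg (Subgroup.map L.subtype) hn
      rw [Subgroup.map_sup, subgroupOf_map_subtype, inf_eq_left.2 hCL, ← MonoidHom.range_eq_map,
        range_subtype] at h
      exact h.ge
    have hone : M ⊓ centralizer (P' : Set G) ≤ M ⊓ centralizer (L : Set G) := by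
      refine le_inf inf_le_left (le_centralizer_iff.1 (hLP.trans (sup_le ?_ ?_)))
      · exact le_centralizer_iff.1 (inf_le_left.trans (le_centralizer_iff.1 le_rfl))
      · exact le_centralizer_iff.1 inf_le_right
    rw [hbot, le_bot_iff] at hone
    obtain ⟨k, hk⟩ := IsPGroup.iff_card.1 hMp
    rw [hone, card_bot, hk] at hcard
    have hk0 : k ≠ 0 := fun h0 => hMne (eq_bot_of_card_eq M (by rw [hk, h0, pow_zero]))
    have h1 : (1 : ℕ) % q = 0 := by
      rw [← hcard]; exact Nat.mod_eq_zero_of_dvd (dvd_pow_self q hk0)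
    rw [Nat.one_mod_eq_one.2 hq.ne_one] at h1
    exact one_ne_zero h1
  rw [eq_bot_iff, ← hbot]
  refine le_inf inf_le_left (le_centralizer_iff.1 ?_)
  have hLK : L ≤ C ⊔ K ⟨p, hp⟩ := by
    have h := comap_mono (f := f) (le_complement_of_normal_pGroup (M := L') hL'q hp hqp.symm
      (isComplementSystem_map hK C ⟨p, hp⟩))
    rwa [comap_map_eq, hf, QuotientGroup.ker_mk', sup_comm] at h
  refine hLK.trans (sup_le ?_ ?_)
  · exact le_centralizer_iff.1 (inf_le_left.trans (le_centralizer_iff.1 le_rfl))
  intro k hk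
  rw [mem_centralizer_iff]
  intro x hx
  have hxn : x ∈ normalizer (K ⟨p, hp⟩ : Set G) := systemNormalizer_le K _ hx.2
  have h1 : x * k * x⁻¹ * k⁻¹ ∈ K ⟨p, hp⟩ ⊓ M :=
    ⟨(K ⟨p, hp⟩).mul_mem ((mem_normalizer_iff.1 hxn k).1 hk) ((K ⟨p, hp⟩).inv_mem hk), by
      have h2 : x * k * x⁻¹ * k⁻¹ = x * (k * x⁻¹ * k⁻¹) := by group
      rw [h2]
      exact M.mul_mem hx.1 (hMn.conj_mem _ (M.inv_mem hx.1) k)⟩
  have hd : K ⟨p, hp⟩ ⊓ M = ⊥ := inf_eq_bot_of_coprime_card (by
    obtain ⟨j, hj⟩ := IsPGroup.iff_card.1 hMp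
    rw [hj]
    exact ((hp.coprime_iff_not_dvd.2 (not_dvd_card_complement hp (hK ⟨p, hp⟩))).symm).pow_right j)
  rw [hd, mem_bot] at h1
  exact mul_inv_eq_iff_eq_mul.1 (mul_inv_eq_one.1 h1)

/-- System normalizers cover central chief factors and avoid the others. -/
theorem systemNormalizer_cover_avoid [Finite G] [Group.IsSolvable G]
    {K : Nat.Primes → Subgroup G} (hK : Cfsg.IsComplementSystem K) (A B : Subgroup G) [A.Normal]
    [B.Normal] (hAB : A < B)
    (hchief : ∀ N : Subgroup G, N.Normal → A ≤ N → N ≤ B → N = A ∨ N = B) :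
    (⁅B, (⊤ : Subgroup G)⁆ ≤ A → B ≤ A ⊔ Cfsg.systemNormalizer K) ∧
      (¬ ⁅B, (⊤ : Subgroup G)⁆ ≤ A → B ⊓ Cfsg.systemNormalizer K ≤ A) := by
  set f := QuotientGroup.mk' A with hf
  have hsurj : Function.Surjective f := QuotientGroup.mk'_surjective A
  have hcen : ⁅B, (⊤ : Subgroup G)⁆ ≤ A ↔ B.map f ≤ center (G ⧸ A) := by
    have e : (⁅B, (⊤ : Subgroup G)⁆).map f = ⁅B.map f, (⊤ : Subgroup (G ⧸ A))⁆ := by
      rw [map_commutator, map_top_of_surjective f hsurj]
    constructor
    · intro h
      rw [← centralizer_univ, ← coe_top, ← commutator_eq_bot_iff_le_centralizer, ← e, eq_bot_iff]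
      exact (map_mono h).trans (le_of_eq (QuotientGroup.map_mk'_self A))
    · intro h
      rw [← centralizer_univ, ← coe_top, ← commutator_eq_bot_iff_le_centralizer, ← e,
        Subgroup.map_eq_bot_iff, hf, QuotientGroup.ker_mk'] at h
      exact h
  have hmap := systemNormalizer_map hK A
  constructor
  · intro h
    have h1 : B.map f ≤ Cfsg.systemNormalizer (fun p => (K p).map f) :=
      (hcen.1 h).trans (le_iInf fun p => center_le_normalizer _)
    rw [hmap, Subgroup.map_le_map_iff, hf, QuotientGroup.ker_mk', sup_comm] at h1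
    exact h1
  · intro h
    have : (B.map f).Normal := Subgroup.Normal.map inferInstance f hsurj
    have hne : B.map f ≠ ⊥ := by
      rw [ne_eq, Subgroup.map_eq_bot_iff, hf, QuotientGroup.ker_mk']
      exact hAB.not_ge
    have h2 := minimal_inf_systemNormalizer (isComplementSystem_map hK A) (B.map f) hne
      (fun L hL hLB => by
        have hl := comap_mono (f := f) hLB
        rw [comap_map_eq, hf, QuotientGroup.ker_mk', sup_eq_left.2 hAB.le] at hl
        have hA : A ≤ L.comap f := by
          have h := ker_le_comap (f := f) L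
          rwa [hf, QuotientGroup.ker_mk'] at h
        rcases hchief _ (hL.comap f) hA hl with e | e
        · left
          rw [← map_comap_eq_self_of_surjective hsurj L, e, hf, QuotientGroup.map_mk'_self]
        · right
          rw [← map_comap_eq_self_of_surjective hsurj L, e])
      (fun h' => h (hcen.2 h'))
    intro x hx
    have h3 : f x ∈ B.map f ⊓ Cfsg.systemNormalizer (fun p => (K p).map f) :=
      ⟨mem_map_of_mem f hx.1, hmap.ge (mem_map_of_mem f hx.2)⟩
    rw [h2, mem_bot] at h3
    exact (QuotientGroup.eq_one_iff x).1 h3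

end Cfsg.Lib.Solv
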