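import Mathlib
import Cfsg.Agent.Lib.Solv.Carter
import Cfsg.Agent.Lib.Solv.SystemNormalizer

/-! Carter subgroups and system normalizers. -/

set_option autoImplicit false
open Subgroup
open scoped Pointwise

namespace Cfsg.Lib.Solv.Carter

variable {G : Type*} [Group G]

/-- The complement system `K` reduces into `C`. -/
def Reduces (K : Nat.Primes → Subgroup G) (C : Subgroup G) : Prop :=
  ∀ p : Nat.Primes, ∃ k : ℕ, (K p).relIndex C = (p : ℕ) ^ k

theorem relIndex_map_dvd {H : Type*} [Group H] (f : G →* H) (A B : Subgroup G) :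
    (A.map f).relIndex (B.map f) ∣ A.relIndex B := by
  have h1 := index_map_dvd (A.subgroupOf B) (f.subgroupMap_surjective B)
  refine dvd_trans (index_dvd_of_le ?_) h1
  rintro _ ⟨x, hx, rfl⟩
  exact ⟨x, hx, rfl⟩

theorem pow_dvd_of_le [Finite G] {p : ℕ} (hp : p.Prime) {H : Subgroup G}
    (hH : H.index = p ^ (Nat.card G).factorization p) {T : Subgroup G} (hT : T ≤ H) {k : ℕ}
    (hk : T.index = p ^ k) : T = H := by
  refine eq_of_le_of_card_ge hT ?_
  have h1 : H.index ∣ T.index := index_dvd_of_le hT
  rw [hH, hk] at h1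
  have h2 : p ^ k ∣ Nat.card G := hk ▸ index_dvd_card T
  have hk2 : k ≤ (Nat.card G).factorization p :=
    (hp.pow_dvd_iff_le_factorization Nat.card_pos.ne').1 h2
  have hk3 := (Nat.pow_dvd_pow_iff_le_right hp.one_lt).1 h1
  have e1 := T.card_mul_index
  have e2 := H.card_mul_index
  rw [hk, le_antisymm hk2 hk3] at e1
  rw [hH] at e2
  exact (Nat.eq_of_mul_eq_mul_right (pow_pos hp.pos _) (e2.trans e1.symm)).le

theorem isComplementSystem_subgroupOf [Finite G] {K : Nat.Primes → Subgroup G}
    (hK : Cfsg.IsComplementSystem K) {W : Subgroup G} (hW : Reduces K W) :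
    Cfsg.IsComplementSystem fun p => (K p).subgroupOf W := by
  intro p
  obtain ⟨k, hk⟩ := hW p
  have hnd : ¬ (p : ℕ) ∣ Nat.card ↥((K p).subgroupOf W) := fun h =>
    not_dvd_card_complement p.2 (hK p)
      (h.trans (card_comap_dvd_of_injective (K p) W.subtype W.subtype_injective))
  have hfac : (Nat.card W).factorization (p : ℕ) = k := by
    conv_lhs => rw [← card_mul_index ((K p).subgroupOf W), show ((K p).subgroupOf W).index = _ from hk]
    rw [Nat.factorization_mul Nat.card_pos.ne' (pow_ne_zero _ p.2.ne_zero), Finsupp.add_apply,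
      Nat.factorization_eq_zero_of_not_dvd hnd, Nat.Prime.factorization_pow p.2,
      Finsupp.single_eq_same, zero_add]
  show (K p).relIndex W = _
  rw [hfac, hk]

/-- If a system reduces into a Carter subgroup, its system normalizer lies in it. -/
theorem systemNormalizer_le_aux : ∀ (n : ℕ) (G : Type _) [Group G] [Finite G], Nat.card G = n →
    Group.IsSolvable G → ∀ (C : Subgroup G) (K : Nat.Primes → Subgroup G), IsC C →
      Cfsg.IsComplementSystem K → Reduces K C → Cfsg.systemNormalizer K ≤ C := by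
  intro n
  induction n using Nat.strong_induction_on with
  | _ n ih =>
  intro G _ _ hn hs C K hC hK hR
  subst hn
  rcases eq_or_ne C ⊤ with rfl | hCt
  · exact le_top
  have : Nontrivial G := by
    by_contra h
    rw [not_nontrivial_iff_subsingleton] at h
    exact hCt (Subsingleton.elim _ _)
  obtain ⟨N, hNn, -, hNne, hNmin⟩ :=
    Cfsg.Lib.Solv.exists_minimal_normal_le (N := (⊤ : Subgroup G)) top_ne_bot
  haveI := hNn
  obtain ⟨hNab, r, hr, hNp, -⟩ :=
    Cfsg.Lib.Solv.minimal_normal_elementary hNne inferInstance hNmin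
  haveI := Fact.mk hr
  set π := QuotientGroup.mk' N with hπ
  have hlt : Nat.card (G ⧸ N) < Nat.card G := by
    rw [← index_eq_card, ← N.card_mul_index]
    exact lt_mul_of_one_lt_left (Nat.pos_of_ne_zero FiniteIndex.index_ne_zero)
      ((one_lt_card_iff_ne_bot N).2 hNne)
  have hRq : Reduces (fun p => (K p).map π) (C.map π) := fun p => by
    obtain ⟨k, hk⟩ := hR p
    obtain ⟨j, -, hj⟩ := (Nat.dvd_prime_pow p.2).1 (hk ▸ relIndex_map_dvd π (K p) C :
      ((K p).map π).relIndex (C.map π) ∣ (p : ℕ) ^ k)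
    exact ⟨j, hj⟩
  have hq := ih _ hlt (G ⧸ N) rfl inferInstance _ _ (carter_map hC N) (isComplementSystem_map hK N) hRq
  rw [systemNormalizer_map hK N] at hq
  set W := C ⊔ N with hWdef
  have hDW : Cfsg.systemNormalizer K ≤ W := by
    have := map_le_iff_le_comap.1 hq
    rwa [comap_map_eq, QuotientGroup.ker_mk'] at this
  by_cases hW : W = ⊤
  · -- `C` is the normalizer of a member of the system
    set q : Nat.Primes := ⟨r, hr⟩ with hqdef
    obtain ⟨k, hk⟩ := hR q
    obtain ⟨a, ha⟩ := hNp.exists_card_eq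
    have hCN : (C : Subgroup G).index ∣ r ^ a := by
      rw [← relIndex_top_right, ← hW, hWdef, relIndex_sup_left_normal C N, ← ha]
      exact relIndex_dvd_card C N
    have hTi : ∃ j, (K q ⊓ C).index = r ^ j := by
      obtain ⟨j, -, hj⟩ := (Nat.dvd_prime_pow hr).1
        (show (K q ⊓ C).index ∣ r ^ (k + a) by
          rw [← relIndex_mul_index (inf_le_right : K q ⊓ C ≤ C), inf_relIndex_right, hk, pow_add]
          exact mul_dvd_mul dvd_rfl hCN)
      exact ⟨j, hj⟩
    obtain ⟨j, hj⟩ := hTi
    have hKC : K q ≤ C := inf_eq_left.1 (pow_dvd_of_le hr (hK q) inf_le_left hj)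
    have : Group.IsNilpotent C := hC.1
    have hT : (K q).subgroupOf C = Cfsg.pResidual r C := by
      refine eq_of_le_of_card_ge (fun x hx => ?_) ?_
      · refine Cfsg.Lib.Transfer.coprime_orderOf_mem_pResidual ?_
        refine Nat.Coprime.coprime_dvd_left ?_ ((hr.coprime_iff_not_dvd.2
          (not_dvd_card_complement hr (hK q))).symm)
        rw [← Subgroup.orderOf_coe]
        exact Subgroup.orderOf_dvd_natCard _ hx
      · refine Nat.le_of_dvd Nat.card_pos ?_
        have h1 : Nat.card (Cfsg.pResidual r C) ∣ Nat.card ((K q).subgroupOf C) * r ^ k := by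
          rw [← hk]
          show _ ∣ Nat.card ((K q).subgroupOf C) * ((K q).subgroupOf C).index
          rw [card_mul_index]
          exact card_subgroup_dvd_card _
        exact ((coprime_pResidual_of_nilpotent r).pow_right k).dvd_of_dvd_mul_right h1
    have hKn : ((K q).subgroupOf C).Normal := hT ▸ Cfsg.Lib.Transfer.pResidual_normal r
    have hCX : C ≤ normalizer (K q : Set G) := (normal_subgroupOf_iff_le_normalizer hKC).1 hKn
    have hXne : normalizer (K q : Set G) ≠ ⊤ := by
      intro h
      rw [normalizer_eq_top_iff] at h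
      have hq : IsPGroup r (G ⧸ K q) := IsPGroup.of_card (by rw [← index_eq_card]; exact hK q)
      have : Group.IsNilpotent (G ⧸ K q) := hq.isNilpotent
      have h2 := sup_eq_top hC (K q)
      rw [sup_eq_left.2 hKC] at h2
      exact hCt h2
    suffices normalizer (K q : Set G) = C from this ▸ systemNormalizer_le K q
    set X := normalizer (K q : Set G)
    have hinf : ∀ Y : Subgroup G, Y ⊔ N = ⊤ → Y ≠ ⊤ → Y.index = Nat.card N := by
      intro Y hY hYt
      have hn : (Y ⊓ N).Normal := by
        rw [← normalizer_eq_top_iff, ← top_le_iff, ← hY]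
        refine sup_le (fun b hb => ?_) (fun b hb => ?_)
        · refine mem_normalizer_iff.2 fun y => ⟨fun hy => ⟨Y.mul_mem (Y.mul_mem hb hy.1) (Y.inv_mem hb),
            hNn.conj_mem y hy.2 b⟩, fun hy => ?_⟩
          have h1 : y ∈ Y := by
            have := Y.mul_mem (Y.mul_mem (Y.inv_mem hb) hy.1) hb
            simpa [mul_assoc] using this
          have h2 : y ∈ N := by simpa [mul_assoc] using hNn.conj_mem _ hy.2 b⁻¹
          exact ⟨h1, h2⟩
        · refine mem_normalizer_iff.2 fun y => ⟨fun hy => ?_, fun hy => ?_⟩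
          · have e : b * y * b⁻¹ = y := by
              have hc : b * y = y * b := congrArg Subtype.val (hNab.is_comm.comm (⟨b, hb⟩ : N) ⟨y, hy.2⟩)
              rw [hc]; group
            rw [e]; exact hy
          · have h2 : y ∈ N := by simpa [mul_assoc] using hNn.conj_mem _ hy.2 b⁻¹
            have e : b * y * b⁻¹ = y := by
              have hc : b * y = y * b := congrArg Subtype.val (hNab.is_comm.comm (⟨b, hb⟩ : N) ⟨y, h2⟩)
              rw [hc]; group
            rwa [e] at hy
      rcases hNmin _ hn inf_le_right with h | h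
      · exact (isComplement'_of_disjoint_and_mul_eq_univ (disjoint_iff.2 h)
          (by rw [← mul_normal, hY, coe_top])).symm.index_eq_card
      · exact absurd (top_le_iff.1 (hY ▸ sup_le le_rfl (h ▸ inf_le_left))) hYt
    refine (eq_of_le_of_card_ge hCX ?_).symm
    have e1 := C.card_mul_index
    have e2 := X.card_mul_index
    rw [hinf C hW hCt] at e1
    rw [hinf X (top_le_iff.1 (hW ▸ sup_le_sup_right hCX N)) hXne, ← e1] at e2
    exact (Nat.eq_of_mul_eq_mul_right Nat.card_pos e2).le
  · have hRW : Reduces K W := by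
      intro p
      obtain ⟨k, hk⟩ := hR p
      by_cases hpr : (p : ℕ) = r
      · obtain ⟨a, ha⟩ := hNp.exists_card_eq
        obtain ⟨j, -, hj⟩ := (Nat.dvd_prime_pow p.2).1
          (show (K p).relIndex W ∣ (p : ℕ) ^ (k + a) by
            have h1 : (K p ⊓ C).relIndex W = (K p).relIndex C * C.relIndex W := by
              rw [← inf_relIndex_right (K p) C,
                relIndex_mul_relIndex _ _ _ inf_le_right le_sup_left]
            refine dvd_trans (relIndex_dvd_of_le_left W (inf_le_left : K p ⊓ C ≤ K p)) ?_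
            rw [h1, hk, pow_add, hWdef, relIndex_sup_left_normal C N, hpr, ← ha]
            exact mul_dvd_mul dvd_rfl (relIndex_dvd_card C N))
        exact ⟨j, hj⟩
      · have hNK : N ≤ K p := le_complement_of_normal_pGroup hNp p.2 hpr (hK p)
        obtain ⟨j, hj⟩ := hRq p
        refine ⟨j, ?_⟩
        rw [← hj]
        have e : ((K p).map π).comap π = K p := by
          rw [comap_map_eq, QuotientGroup.ker_mk', sup_eq_left.2 hNK]
        conv_lhs => rw [← e]
        rw [relIndex_comap, hWdef, Subgroup.map_sup, QuotientGroup.map_mk'_self, sup_bot_eq]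
    have hCW : C ≤ W := le_sup_left
    have hRC : Reduces (fun p => (K p).subgroupOf W) (C.subgroupOf W) := fun p => by
      obtain ⟨k, hk⟩ := hR p
      exact ⟨k, by rw [relIndex_subgroupOf hCW]; exact hk⟩
    have hW' := ih _ (lt_of_le_of_ne (card_le_card_group W) fun h => hW (eq_top_of_card_eq W h)) W rfl
      inferInstance _ _ (isC_subgroupOf' hCW hC) (isComplementSystem_subgroupOf hK hRW) hRC
    intro g hg
    have hgW := hDW hg
    refine hW' (show (⟨g, hgW⟩ : W) ∈ _ from mem_systemNormalizer.2 fun p => ?_)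
    refine mem_normalizer_iff.2 fun y => ?_
    exact mem_normalizer_iff.1 (systemNormalizer_le K p hg) (y : G)

/-- Every nilpotent subgroup has a complement system of the group reducing into it. -/
theorem exists_reduces [Finite G] [Group.IsSolvable G] (C : Subgroup G) :
    ∃ K : Nat.Primes → Subgroup G, Cfsg.IsComplementSystem K ∧ Reduces K C := by
  have key : ∀ p : Nat.Primes, ∃ H : Subgroup G,
      H.index = (p : ℕ) ^ (Nat.card G).factorization (p : ℕ) ∧ ∃ k : ℕ, H.relIndex C = (p : ℕ) ^ k := by
    intro p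
    have hpow : ∀ n : ℕ, n ≠ 0 → (∀ q : ℕ, q.Prime → q ∈ {q : ℕ | q ≠ p} → ¬ q ∣ n) →
        ∃ k, n = (p : ℕ) ^ k := by
      intro n hn h
      refine ⟨n.factorization p, Nat.eq_pow_of_factorization_eq_single hn ?_⟩
      ext q
      by_cases hq : q = p
      · subst hq; simp
      · rw [Finsupp.single_eq_of_ne hq]
        by_cases hqp : q.Prime
        · exact Nat.factorization_eq_zero_of_not_dvd (h q hqp hq)
        · exact Nat.factorization_eq_zero_of_not_prime n hqp
    obtain ⟨H₀, hH₀⟩ := hall_exists (G := G) {q : ℕ | q ≠ p}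
    obtain ⟨T, hT⟩ := hall_exists (G := C) {q : ℕ | q ≠ p}
    have hTp : ∀ q : ℕ, q.Prime → q ∣ Nat.card (T.map C.subtype) → q ∈ {q : ℕ | q ≠ p} := by
      rw [← Nat.card_congr (equivMapOfInjective T _ C.subtype_injective).toEquiv]
      exact hT.1
    obtain ⟨g, hg⟩ := hall_le_conj hH₀ hTp
    obtain ⟨a, ha⟩ := hpow H₀.index FiniteIndex.index_ne_zero hH₀.2
    obtain ⟨b, hb⟩ := hpow T.index FiniteIndex.index_ne_zero hT.2
    refine ⟨MulAut.conj g • H₀, ?_, ?_⟩
    · rw [index_conj_smul, ha]
      congr 1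
      have hnd : ¬ (p : ℕ) ∣ Nat.card H₀ := fun h => hH₀.1 p p.2 h rfl
      conv_rhs => rw [← card_mul_index H₀, ha]
      rw [Nat.factorization_mul Nat.card_pos.ne' (pow_ne_zero _ p.2.ne_zero), Finsupp.add_apply,
        Nat.factorization_eq_zero_of_not_dvd hnd, Nat.Prime.factorization_pow p.2,
        Finsupp.single_eq_same, zero_add]
    · have h1 : (MulAut.conj g • H₀).relIndex C ∣ (p : ℕ) ^ b := by
        rw [← hb]
        exact index_dvd_of_le fun x hx => hg ⟨x, hx, rfl⟩
      obtain ⟨j, -, hj⟩ := (Nat.dvd_prime_pow p.2).1 h1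
      exact ⟨j, hj⟩
  choose K hK hR using key
  exact ⟨K, hK, hR⟩

/-- The system normalizer of the conjugate system. -/
theorem systemNormalizer_conj (K : Nat.Primes → Subgroup G) (g : G) :
    Cfsg.systemNormalizer (fun p => MulAut.conj g • K p) = MulAut.conj g • Cfsg.systemNormalizer K := by
  ext x
  rw [mem_systemNormalizer, Cfsg.Lib.Solv.mem_conj_smul, mem_systemNormalizer]
  refine forall_congr' fun p => ?_
  rw [← conj_smul_eq_self_iff, ← conj_smul_eq_self_iff, map_mul, map_mul, mul_smul, mul_smul,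
    map_inv, inv_smul_eq_iff]

theorem systemNormalizer_le_carter [Finite G] [Group.IsSolvable G] {C : Subgroup G} (hC : IsC C) :
    ∃ K : Nat.Primes → Subgroup G, Cfsg.IsComplementSystem K ∧ Reduces K C ∧
      Cfsg.systemNormalizer K ≤ C := by
  obtain ⟨K, hK, hR⟩ := exists_reduces C
  exact ⟨K, hK, hR, systemNormalizer_le_aux _ G rfl inferInstance C K hC hK hR⟩

theorem exists_carter_ge [Finite G] [Group.IsSolvable G] {K : Nat.Primes → Subgroup G}
    (hK : Cfsg.IsComplementSystem K) : ∃ C : Subgroup G, IsC C ∧ Cfsg.systemNormalizer K ≤ C := by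
  obtain ⟨C, hC⟩ := exists_carter (G := G)
  obtain ⟨L, hL, -, hle⟩ := systemNormalizer_le_carter hC
  obtain ⟨g, hg⟩ := complement_system_conj hL hK
  refine ⟨_, isC_conj hC g, ?_⟩
  rw [show K = fun p => MulAut.conj g • L p from funext fun p => (hg p).symm, systemNormalizer_conj]
  exact smul_le_smul_left _ hle

/-- In groups of nilpotent length at most two the Carter subgroups are system normalizers. -/
theorem carter_eq_systemNormalizer [Finite G] [Group.IsSolvable G] (F : Subgroup G) [F.Normal]
    (hF : Group.IsNilpotent F) [Group.IsNilpotent (G ⧸ F)] {C : Subgroup G} (hC : IsC C) :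
    ∃ K : Nat.Primes → Subgroup G, Cfsg.IsComplementSystem K ∧ C = Cfsg.systemNormalizer K := by
  obtain ⟨K, hK, hR, hle⟩ := systemNormalizer_le_carter hC
  refine ⟨K, hK, le_antisymm (le_iInf fun p => ?_) hle⟩
  have := Fact.mk p.2
  have : Group.IsNilpotent C := hC.1
  set T := (K p) ⊓ C with hT
  set F' := (Cfsg.pResidual (p : ℕ) F).map F.subtype with hF'
  have : (Cfsg.pResidual (p : ℕ) F).Characteristic := Cfsg.Lib.Transfer.pResidual_characteristic _
  have hF'n : F'.Normal := hF' ▸ inferInstance
  obtain ⟨c, hc⟩ := Cfsg.Lib.Transfer.exists_index_pResidual_eq_pow (G := F) (p := (p : ℕ))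
  have hF'c : (Nat.card F').Coprime (p : ℕ) := by
    rw [hF', ← Nat.card_congr (equivMapOfInjective _ _ F.subtype_injective).toEquiv]
    exact coprime_pResidual_of_nilpotent _
  have hF'K : F' ≤ K p := le_of_normal_of_coprime_index (by rw [hK p]; exact hF'c.pow_right _)
  have hF'F : F' ≤ F := map_subtype_le _
  have hTC : T ≤ C := inf_le_right
  -- the member of the system is `F' T`
  have hle' : F' ⊔ T ≤ K p := sup_le hF'K inf_le_left
  obtain ⟨b, hb⟩ := hR p
  set π := QuotientGroup.mk' F
  have h1 : (F ⊔ T).index ∣ (p : ℕ) ^ b := by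
    have e : (T.map π).comap π = F ⊔ T := by rw [comap_map_eq, QuotientGroup.ker_mk', sup_comm]
    rw [← e, index_comap_of_surjective _ (QuotientGroup.mk'_surjective F)]
    have e2 : (T.map π).index = (T.map π).relIndex (C.map π) := by
      have := congrArg (Subgroup.map π) (sup_eq_top hC F)
      rw [Subgroup.map_sup, QuotientGroup.map_mk'_self, sup_bot_eq, ← MonoidHom.range_eq_map,
        MonoidHom.range_eq_top.2 (QuotientGroup.mk'_surjective F)] at this
      rw [this, relIndex_top_right]
    rw [e2, ← hb]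
    refine (relIndex_map_dvd π T C).trans ?_
    rw [hT, inf_relIndex_right]
  have h2 : (F' ⊔ T).relIndex (F ⊔ T) ∣ (p : ℕ) ^ c := by
    have e : F ⊔ T = (F' ⊔ T) ⊔ F :=
      le_antisymm (sup_le le_sup_right (le_sup_of_le_left le_sup_right))
        (sup_le (sup_le (hF'F.trans le_sup_left) le_sup_right) le_sup_left)
    rw [e, relIndex_sup_left_normal, ← hc]
    refine (relIndex_dvd_of_le_left F (le_sup_left : F' ≤ F' ⊔ T)).trans ?_
    rw [hF', relIndex, subgroupOf, comap_map_eq_self_of_injective F.subtype_injective]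
  obtain ⟨j, -, hj⟩ := (Nat.dvd_prime_pow p.2).1
    (show (F' ⊔ T).index ∣ (p : ℕ) ^ (c + b) by
      rw [← relIndex_mul_index (sup_le (hF'F.trans le_sup_left) le_sup_right : F' ⊔ T ≤ F ⊔ T), pow_add]
      exact mul_dvd_mul h2 h1)
  have hKeq : K p = F' ⊔ T := (pow_dvd_of_le p.2 (hK p) hle' hj).symm
  -- `C` normalizes `T`
  have hTn : C ≤ normalizer (T : Set G) := by
    refine (normal_subgroupOf_iff_le_normalizer hTC).1 ?_
    have hTp : T.subgroupOf C = Cfsg.pResidual (p : ℕ) C := by
      refine eq_of_le_of_card_ge (fun x hx => ?_) ?_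
      · refine Cfsg.Lib.Transfer.coprime_orderOf_mem_pResidual ?_
        refine Nat.Coprime.coprime_dvd_left ?_ ((p.2.coprime_iff_not_dvd.2
          (not_dvd_card_complement p.2 (hK p))).symm)
        rw [← Subgroup.orderOf_coe]
        exact Subgroup.orderOf_dvd_natCard _ (mem_subgroupOf.1 hx).1
      · refine Nat.le_of_dvd Nat.card_pos ?_
        have h1 : Nat.card (Cfsg.pResidual (p : ℕ) C) ∣ Nat.card (T.subgroupOf C) * (p : ℕ) ^ b := by
          rw [← hb, ← inf_relIndex_right, ← hT, relIndex, card_mul_index]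
          exact card_subgroup_dvd_card _
        exact ((coprime_pResidual_of_nilpotent (p : ℕ)).pow_right b).dvd_of_dvd_mul_right h1
    rw [hTp]; exact Cfsg.Lib.Transfer.pResidual_normal _
  intro x hx
  rw [← conj_smul_eq_self_iff, hKeq, Subgroup.smul_sup]
  rw [conj_smul_normal, conj_smul_eq_self_iff.2 (hTn hx)]

end Cfsg.Lib.Solv.Carter
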