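import Mathlib
import Cfsg.Agent.Lib.Solv.Coprime2
import Cfsg.Agent.Lib.Solv.Coprime3

/-!
# Factorizations detected on the centralizers of a noncyclic abelian group
-/

set_option autoImplicit false
set_option linter.style.haveILetI false

namespace Cfsg.Lib.Solv

open Subgroup
open scoped Pointwise commutatorElement

universe u

variable {G : Type u} [Group G]

theorem ncard_setMul [Finite G] (H K : Subgroup G) :
    Nat.card ↥((H : Set G) * K) * Nat.card ↥(H ⊓ K) = Nat.card H * Nat.card K := by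
  classical
  rw [← Nat.card_prod, ← Nat.card_prod]
  have hsel : ∀ z : ↥((H : Set G) * K), ∃ a ∈ H, ∃ b ∈ K, a * b = (z : G) := fun z => z.2
  choose a ha b hb hab using hsel
  refine Nat.card_congr
    { toFun := fun x => (⟨a x.1 * x.2, H.mul_mem (ha x.1) x.2.2.1⟩,
        ⟨(x.2 : G)⁻¹ * b x.1, K.mul_mem (K.inv_mem x.2.2.2) (hb x.1)⟩)
      invFun := fun y => (⟨(y.1 : G) * y.2, Set.mul_mem_mul y.1.2 y.2.2⟩,
        ⟨(a ⟨(y.1 : G) * y.2, Set.mul_mem_mul y.1.2 y.2.2⟩)⁻¹ * y.1,
          H.mul_mem (H.inv_mem (ha _)) y.1.2, ?_⟩)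
      left_inv := ?_
      right_inv := ?_ }
  · set z : ↥((H : Set G) * K) := ⟨(y.1 : G) * y.2, Set.mul_mem_mul y.1.2 y.2.2⟩
    have h1 : (a z)⁻¹ * (y.1 : G) = b z * (y.2 : G)⁻¹ := by
      have h2 := hab z
      change a z * b z = (y.1 : G) * y.2 at h2
      rw [inv_mul_eq_iff_eq_mul, ← mul_assoc, h2, mul_inv_cancel_right]
    rw [h1]
    exact K.mul_mem (hb z) (K.inv_mem y.2.2)
  · rintro ⟨z, d⟩
    have h1 : (⟨a z * (d : G) * ((d : G)⁻¹ * b z),
        Set.mul_mem_mul (H.mul_mem (ha z) d.2.1) (K.mul_mem (K.inv_mem d.2.2) (hb z))⟩ :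
          ↥((H : Set G) * K)) = z := by
      refine Subtype.ext ?_
      show a z * (d : G) * ((d : G)⁻¹ * b z) = z
      rw [mul_assoc, mul_inv_cancel_left]
      exact hab z
    refine Prod.ext h1 (Subtype.ext ?_)
    show (a _)⁻¹ * (a z * (d : G)) = d
    rw [h1, inv_mul_cancel_left]
  · rintro ⟨u, v⟩
    set z : ↥((H : Set G) * K) := ⟨(u : G) * v, Set.mul_mem_mul u.2 v.2⟩
    refine Prod.ext (Subtype.ext ?_) (Subtype.ext ?_)
    · show a z * ((a z)⁻¹ * (u : G)) = u
      rw [mul_inv_cancel_left]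
    · show ((a z)⁻¹ * (u : G))⁻¹ * b z = v
      rw [mul_inv_rev, inv_inv, mul_assoc, hab z]
      exact inv_mul_cancel_left _ _

/-- Nilpotent groups: a factorization seen on the centralizers is global. -/
theorem factor_of_nilpotent [Finite G] (A K X Y : Subgroup G) [IsMulCommutative A]
    (hA : ¬ IsCyclic A) (hAK : A ≤ normalizer (K : Set G))
    (hcop : (Nat.card A).Coprime (Nat.card K)) (hnil : Group.IsNilpotent K) (hX : X ≤ K) (hY : Y ≤ K)
    (h : ∀ a ∈ A, a ≠ 1 → ∀ k ∈ K ⊓ centralizer {a}, ∃ x ∈ X, ∃ y ∈ Y, x * y = k) :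
    ∀ k ∈ K, ∃ x ∈ X, ∃ y ∈ Y, x * y = k := by
  set Z : ℕ → Subgroup G := fun i => (Subgroup.upperCentralSeries K i).map K.subtype with hZ
  have hZn : ∀ i, A ≤ normalizer (Z i : Set G) := by
    intro i a ha
    rw [← conj_smul_eq_self_iff]
    refine eq_of_le_of_card_ge ?_ (card_conj_smul _ _).ge
    rintro _ ⟨_, ⟨z, hz, rfl⟩, rfl⟩
    let φ : ↥K ≃* ↥K :=
      { toFun := fun k => ⟨a * k * a⁻¹, (mem_normalizer_iff.1 (hAK ha) k).1 k.2⟩
        invFun := fun k => ⟨a⁻¹ * k * a, (mem_normalizer_iff''.1 (hAK ha) k).1 k.2⟩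
        left_inv := fun k => Subtype.ext (by simp; group)
        right_inv := fun k => Subtype.ext (by simp; group)
        map_mul' := fun k l => Subtype.ext (by simp [mul_assoc]) }
    refine ⟨φ z, ?_, rfl⟩
    exact (characteristic_iff_map_eq.1 (inferInstance : (Subgroup.upperCentralSeries K i).Characteristic) φ).le
      ⟨z, hz, rfl⟩
  have hcomm : ∀ i, ∀ z ∈ Z (i + 1), ∀ g ∈ K, z * g * z⁻¹ * g⁻¹ ∈ Z i := by
    rintro i _ ⟨z, hz, rfl⟩ g hg
    exact ⟨⁅z, (⟨g, hg⟩ : K)⁆, Subgroup.mem_upperCentralSeries_succ_iff.1 hz _,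
      by simp [commutatorElement_def]⟩
  have hZK : ∀ i, Z i ≤ K := fun i => map_subtype_le _
  have hZconj : ∀ i, ∀ z ∈ Z i, ∀ g ∈ K, g⁻¹ * z * g ∈ Z i := by
    rintro i _ ⟨z, hz, rfl⟩ g hg
    refine ⟨(⟨g, hg⟩ : K)⁻¹ * z * ⟨g, hg⟩, ?_, by simp⟩
    have := (inferInstance : (Subgroup.upperCentralSeries K i).Normal).conj_mem z hz (⟨g, hg⟩ : K)⁻¹
    simpa using this
  have key : ∀ i, ∀ z ∈ Z i, ∃ x ∈ X, ∃ y ∈ Y, x * y = z := by
    intro i
    induction i with
    | zero =>
      rintro _ ⟨z, hz, rfl⟩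
      rw [Subgroup.upperCentralSeries_zero, SetLike.mem_coe, Subgroup.mem_bot] at hz
      exact ⟨1, X.one_mem, 1, Y.one_mem, by simp [hz]⟩
    | succ i ih =>
      set S : Set G := {z | z ∈ Z (i + 1) ∧ ∃ x ∈ X, ∃ y ∈ Y, x * y = z} with hS
      have hmul : ∀ z1 ∈ S, ∀ z2 ∈ S, z1 * z2 ∈ S := by
        rintro z1 ⟨hz1, x1, hx1, y1, hy1, rfl⟩ z2 ⟨hz2, x2, hx2, y2, hy2, rfl⟩
        refine ⟨mul_mem hz1 hz2, ?_⟩
        have hw : (y1 * (x2 * y2) * y1⁻¹ * (x2 * y2)⁻¹) ∈ Z i := by
          have h1 := inv_mem (hcomm i _ hz2 y1 (hY hy1))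
          have : y1 * (x2 * y2) * y1⁻¹ * (x2 * y2)⁻¹
              = ((x2 * y2) * y1 * (x2 * y2)⁻¹ * y1⁻¹)⁻¹ := by group
          rwa [this]
        obtain ⟨x3, hx3, y3, hy3, e3⟩ := ih _ (hZconj i _ hw x2 (hX hx2))
        refine ⟨x1 * x2 * x3, mul_mem (mul_mem hx1 hx2) hx3, y3 * y2 * y1,
          mul_mem (mul_mem hy3 hy2) hy1, ?_⟩
        calc x1 * x2 * x3 * (y3 * y2 * y1) = x1 * x2 * (x3 * y3) * y2 * y1 := by group
          _ = _ := by rw [e3]; group
      let W : Subgroup G :=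
        { carrier := S
          one_mem' := ⟨one_mem _, 1, X.one_mem, 1, Y.one_mem, one_mul 1⟩
          mul_mem' := fun {a b} ha hb => hmul a ha b hb
          inv_mem' := by
            intro a ha
            have hp : ∀ n : ℕ, a ^ (n + 1) ∈ S := by
              intro n
              induction n with
              | zero => rw [zero_add, pow_one]; exact ha
              | succ n ihn => rw [pow_succ]; exact hmul _ ihn _ ha
            rcases Nat.exists_eq_succ_of_ne_zero (orderOf_pos a).ne' with ⟨m, hm⟩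
            have h1 : a⁻¹ = a ^ m := by
              refine (eq_inv_of_mul_eq_one_left ?_).symm
              rw [← pow_succ, ← Nat.succ_eq_add_one, ← hm, pow_orderOf_eq_one]
            rw [h1]
            rcases m with _ | m
            · rw [pow_zero]; exact ⟨one_mem _, 1, X.one_mem, 1, Y.one_mem, one_mul 1⟩
            · exact hp m }
      have hW : Z (i + 1) ≤ W := by
        refine le_of_fixed_le A (Z (i + 1)) W hA (hZn _)
          (hcop.coprime_dvd_right (card_dvd_of_le (hZK _))) fun a ha ha1 k hk => ?_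
        exact ⟨hk.1, h a ha ha1 k ⟨hZK _ hk.1, hk.2⟩⟩
      exact fun z hz => (hW hz).2
  obtain ⟨n, hn⟩ := hnil.nilpotent'
  intro k hk
  exact key n k ⟨⟨k, hk⟩, by rw [hn]; exact mem_top _, rfl⟩

/-- The `q`-part of the order of a subgroup. -/
noncomputable def qPart (q : ℕ) (H : Subgroup G) : ℕ := q ^ (Nat.card H).factorization q

variable {q : ℕ} [hq : Fact q.Prime]

theorem card_dvd_qPart [Finite G] {U H : Subgroup G} (hUH : U ≤ H) (hU : IsPGroup q U) :
    Nat.card U ∣ qPart q H := by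
  obtain ⟨k, hk⟩ := IsPGroup.iff_card.1 hU
  have h := card_dvd_of_le hUH
  rw [hk] at h ⊢
  exact pow_dvd_pow q ((hq.out.pow_dvd_iff_le_factorization Nat.card_pos.ne').1 h)

theorem card_sylow_map [Finite G] {H : Subgroup G} (S : Sylow q H) :
    Nat.card ((S : Subgroup H).map H.subtype) = qPart q H := by
  rw [card_map_subtype', S.card_eq_multiplicity, qPart]

theorem le_of_card_qPart [Finite G] {U V H : Subgroup G} (hVU : V ≤ U) (hUH : U ≤ H) (hU : IsPGroup q U)
    (hV : Nat.card V = qPart q H) : U = V := by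
  refine (eq_of_le_of_card_ge hVU ?_).symm
  rw [hV]
  exact Nat.le_of_dvd (pow_pos hq.out.pos _) (card_dvd_qPart hUH hU)

theorem normalizes_centralizer {A : Subgroup G} [IsMulCommutative A] {a : G} (ha : a ∈ A) :
    A ≤ normalizer ((centralizer {a} : Subgroup G) : Set G) := by
  intro b hb
  have hab : a * b = b * a := congrArg Subtype.val (IsMulCommutative.is_comm.comm (⟨a, ha⟩ : A) ⟨b, hb⟩)
  exact le_normalizer (mem_centralizer_singleton_iff.2 hab.symm)

theorem inf_normalizes {A H K : Subgroup G} (h1 : A ≤ normalizer (H : Set G))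
    (h2 : A ≤ normalizer (K : Set G)) : A ≤ normalizer ((H ⊓ K : Subgroup G) : Set G) := fun a ha => by
  rw [← conj_smul_eq_self_iff, smul_inf, conj_smul_eq_self_iff.2 (h1 ha),
    conj_smul_eq_self_iff.2 (h2 ha)]

/-- An invariant Sylow subgroup meets each centralizer in a Sylow subgroup. -/
theorem card_inf_centralizer_of_sylow [Finite G] (A K S : Subgroup G) [IsMulCommutative A]
    (hAK : A ≤ normalizer (K : Set G)) (hcop : (Nat.card A).Coprime (Nat.card K)) (hSK : S ≤ K)
    (hS : IsPGroup q S) (hSA : A ≤ normalizer (S : Set G)) (hSc : Nat.card S = qPart q K) {a : G}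
    (ha : a ∈ A) : Nat.card ↥(S ⊓ centralizer {a}) = qPart q (K ⊓ centralizer {a}) := by
  have hAs : Group.IsSolvable A := Group.isSolvable_of_comm fun x y => IsMulCommutative.is_comm.comm x y
  set Kb := K ⊓ centralizer {a} with hKb
  obtain ⟨R, hR⟩ := exists_invariant_sylow A Kb (inf_normalizes hAK (normalizes_centralizer ha))
    (hcop.coprime_dvd_right (card_dvd_of_le inf_le_left)) (Or.inl hAs) q
  set R' := (R : Subgroup Kb).map Kb.subtype with hR'
  have hRKb : R' ≤ Kb := map_subtype_le _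
  obtain ⟨S', hRS', hS'⟩ := invariant_pgroup_le_sylow A K hAK hcop (Or.inl hAs) q R'
    (hRKb.trans inf_le_left) (R.isPGroup'.map _) hR
  obtain ⟨S₀, hS₀⟩ := exists_sylow_map_eq hSK S'
    (by rw [hSc, ← card_map_subtype' (S' : Subgroup K), card_sylow_map])
  obtain ⟨c, hc, hcS⟩ := invariant_sylow_conj A K hAK hcop (Or.inl hAs) S' S₀ hS' (hS₀ ▸ hSA)
  have hca : (c : G) * a = a * c := (mem_centralizer_iff.1 hc a ha).symm
  have hle : MulAut.conj (c : G) • R' ≤ S ⊓ centralizer {a} := by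
    refine le_inf ?_ ?_
    · refine (smul_le_smul_left _ hRS').trans (le_of_eq ?_)
      rw [← hS₀, ← hcS]
      exact (map_conj_smul K.subtype c _).symm
    · refine (smul_le_smul_left _ (hRKb.trans inf_le_right)).trans (le_of_eq ?_)
      exact conj_smul_eq_self_iff.2 (le_normalizer (mem_centralizer_singleton_iff.2 hca))
  refine Nat.dvd_antisymm (card_dvd_qPart (inf_le_inf_right _ hSK) hS.to_inf_left) ?_
  have h := card_dvd_of_le hle
  rwa [card_conj_smul, card_sylow_map] at h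

/-- A coprime factorization seen on all centralizers is global. -/
theorem factor_of_centralizers [Finite G] (A K X Y : Subgroup G) [IsMulCommutative A]
    (hA : ¬ IsCyclic A) (hAK : A ≤ normalizer (K : Set G))
    (hcop : (Nat.card A).Coprime (Nat.card K)) (hX : X ≤ K) (hY : Y ≤ K)
    (hAX : A ≤ normalizer (X : Set G)) (hAY : A ≤ normalizer (Y : Set G))
    (hfac : ∀ a ∈ A, a ≠ 1 → ((K ⊓ centralizer {a} : Subgroup G) : Set G)
      = ((X ⊓ centralizer {a} : Subgroup G) : Set G) * ((Y ⊓ centralizer {a} : Subgroup G) : Set G)) :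
    (K : Set G) = (X : Set G) * (Y : Set G) := by
  classical
  have hAs : Group.IsSolvable A := Group.isSolvable_of_comm fun x y => IsMulCommutative.is_comm.comm x y
  obtain ⟨a₀, ha₀, ha₀1⟩ : ∃ a ∈ A, a ≠ 1 := by
    by_contra hcon
    push Not at hcon
    refine hA ?_
    have : A = ⊥ := (eq_bot_iff_forall A).2 hcon
    subst this
    infer_instance
  set D := X ⊓ Y with hD
  have hAD : A ≤ normalizer (D : Set G) := inf_normalizes hAX hAY
  have hcent : ∀ a ∈ A, a ≠ 1 → Nat.card ↥(K ⊓ centralizer {a}) * Nat.card ↥(D ⊓ centralizer {a})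
      = Nat.card ↥(X ⊓ centralizer {a}) * Nat.card ↥(Y ⊓ centralizer {a}) := by
    intro a ha ha1
    rw [← ncard_setMul (X ⊓ centralizer {a}) (Y ⊓ centralizer {a})]
    congr 1
    · exact Nat.card_congr (Equiv.setCongr (hfac a ha ha1))
    · rw [show (X ⊓ centralizer {a}) ⊓ (Y ⊓ centralizer {a}) = D ⊓ centralizer {a} by
        rw [hD]; ext z; simp only [mem_inf]; tauto]
  have hmain : ∀ q : ℕ, q.Prime →
      qPart q K * qPart q D = qPart q X * qPart q Y := by
    intro q hqp
    have hq : Fact q.Prime := ⟨hqp⟩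
    have hsolv : Group.IsSolvable A ∨ Group.IsSolvable K := Or.inl hAs
    obtain ⟨SX, hSX⟩ := exists_invariant_sylow A X hAX (hcop.coprime_dvd_right (card_dvd_of_le hX))
      (Or.inl hAs) q
    obtain ⟨SY, hSY⟩ := exists_invariant_sylow A Y hAY (hcop.coprime_dvd_right (card_dvd_of_le hY))
      (Or.inl hAs) q
    obtain ⟨Q1, hQ1le, hQ1⟩ := invariant_pgroup_le_sylow A K hAK hcop hsolv q _
      ((map_subtype_le _).trans hX) (SX.isPGroup'.map X.subtype) hSX
    obtain ⟨Q2, hQ2le, hQ2⟩ := invariant_pgroup_le_sylow A K hAK hcop hsolv q _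
      ((map_subtype_le _).trans hY) (SY.isPGroup'.map Y.subtype) hSY
    obtain ⟨c, hc, hcQ⟩ := invariant_sylow_conj A K hAK hcop hsolv Q1 Q2 hQ1 hQ2
    set P1 := (Q1 : Subgroup K).map K.subtype with hP1
    set P2 := (Q2 : Subgroup K).map K.subtype with hP2
    have hP12 : MulAut.conj (c : G) • P1 = P2 := by
      rw [hP1, hP2, ← hcQ]
      exact (map_conj_smul K.subtype c _).symm
    obtain ⟨x, hx, y, hy, hxy⟩ : ∃ x ∈ X ⊓ centralizer (A : Set G), ∃ y ∈ Y ⊓ centralizer (A : Set G),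
        x * y = (c : G)⁻¹ := by
      have h1 : (c : G)⁻¹ ∈ ((K ⊓ centralizer {a₀} : Subgroup G) : Set G) :=
        ⟨K.inv_mem c.2, (centralizer {a₀}).inv_mem (centralizer_le (Set.singleton_subset_iff.2 ha₀) hc)⟩
      rw [hfac a₀ ha₀ ha₀1, Set.mem_mul] at h1
      obtain ⟨x, hx, y, hy, e⟩ := h1
      obtain ⟨x', hx', y', hy', e'⟩ := fixed_product A K X Y hAK hcop hsolv hX hAX hAY hx.1 hy.1
        (by rw [e]; exact inv_mem hc)
      exact ⟨x', hx', y', hy', e'.symm.trans e⟩
    set Q := MulAut.conj x⁻¹ • P1 with hQ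
    have hQ' : Q = MulAut.conj y • P2 := by
      have e : x⁻¹ = y * (c : G) := by
        calc x⁻¹ = y * (x * y)⁻¹ := by group
          _ = y * (c : G) := by rw [hxy, inv_inv]
      rw [hQ, e, map_mul, mul_smul, hP12]
    have hQK : Q ≤ K := (smul_le_smul_left _ (map_subtype_le _)).trans
      (conj_smul_eq_self_iff.2 (le_normalizer (K.inv_mem (hX hx.1)))).le
    have hQp : IsPGroup q Q := by
      rw [hQ, conj_smul_eq_map]
      exact (Q1.isPGroup'.map _).map _
    have hQc : Nat.card Q = qPart q K := by rw [hQ, card_conj_smul, hP1, card_sylow_map]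
    have hQA : A ≤ normalizer (Q : Set G) := by
      intro a ha
      have hax : a * x⁻¹ = x⁻¹ * a := mem_centralizer_iff.1 (inv_mem hx.2) a ha
      rw [← conj_smul_eq_self_iff, hQ, ← mul_smul, ← map_mul, hax, map_mul, mul_smul,
        conj_smul_eq_self_iff.2 (hQ1 ha)]
    have hQX : Nat.card ↥(Q ⊓ X) = qPart q X := by
      refine Nat.dvd_antisymm (card_dvd_qPart inf_le_right hQp.to_inf_left) ?_
      rw [← card_sylow_map SX, ← card_conj_smul x⁻¹ ((SX : Subgroup X).map X.subtype)]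
      refine card_dvd_of_le (le_inf (smul_le_smul_left _ hQ1le) ?_)
      exact (smul_le_smul_left _ (map_subtype_le _)).trans
        (conj_smul_eq_self_iff.2 (le_normalizer (X.inv_mem hx.1))).le
    have hQY : Nat.card ↥(Q ⊓ Y) = qPart q Y := by
      refine Nat.dvd_antisymm (card_dvd_qPart inf_le_right hQp.to_inf_left) ?_
      rw [← card_sylow_map SY, ← card_conj_smul y ((SY : Subgroup Y).map Y.subtype)]
      refine card_dvd_of_le (le_inf ?_ ?_)
      · rw [hQ']; exact smul_le_smul_left _ hQ2le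
      · exact (smul_le_smul_left _ (map_subtype_le _)).trans
          (conj_smul_eq_self_iff.2 (le_normalizer hy.1)).le
    -- the centralizers inside `Q`
    have hloc : ∀ a ∈ A, a ≠ 1 →
        ((Q ⊓ centralizer {a} : Subgroup G) : Set G) ⊆ ((Q ⊓ X : Subgroup G) : Set G) * ((Q ⊓ Y : Subgroup G) : Set G)
        ∧ Nat.card ↥((Q ⊓ D) ⊓ centralizer {a}) = qPart q (D ⊓ centralizer {a}) := by
      intro a ha ha1
      set C := centralizer ({a} : Set G) with hC
      have cX := card_inf_centralizer_of_sylow A X (Q ⊓ X) hAX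
        (hcop.coprime_dvd_right (card_dvd_of_le hX)) inf_le_right hQp.to_inf_left
        (inf_normalizes hQA hAX) hQX ha
      have cY := card_inf_centralizer_of_sylow A Y (Q ⊓ Y) hAY
        (hcop.coprime_dvd_right (card_dvd_of_le hY)) inf_le_right hQp.to_inf_left
        (inf_normalizes hQA hAY) hQY ha
      have hprod := congrArg (fun n => q ^ n.factorization q) (hcent a ha ha1)
      simp only [Nat.factorization_mul Nat.card_pos.ne' Nat.card_pos.ne', Finsupp.add_apply,
        pow_add] at hprod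
      have hm := ncard_setMul ((Q ⊓ X) ⊓ C) ((Q ⊓ Y) ⊓ C)
      have hinf : ((Q ⊓ X) ⊓ C) ⊓ ((Q ⊓ Y) ⊓ C) = (Q ⊓ D) ⊓ C := by
        rw [hD]; ext z; simp only [mem_inf]; tauto
      rw [hinf, cX, cY] at hm
      set P : Set G := ((((Q ⊓ X) ⊓ C : Subgroup G) : Set G) * (((Q ⊓ Y) ⊓ C : Subgroup G) : Set G))
        with hP
      have hsub : P ⊆ ((Q ⊓ C : Subgroup G) : Set G) := by
        rintro _ ⟨u, hu, v, hv, rfl⟩
        exact (Q ⊓ C).mul_mem ⟨hu.1.1, hu.2⟩ ⟨hv.1.1, hv.2⟩
      have h1 : Nat.card P ≤ qPart q (K ⊓ C) :=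
        (Nat.card_mono (Set.toFinite _) hsub).trans
          (Nat.le_of_dvd (pow_pos hqp.pos _) (card_dvd_qPart (inf_le_inf_right _ hQK) hQp.to_inf_left))
      have h2 : Nat.card ↥((Q ⊓ D) ⊓ C) ≤ qPart q (D ⊓ C) :=
        Nat.le_of_dvd (pow_pos hqp.pos _)
          (card_dvd_qPart (inf_le_inf_right _ inf_le_right) (hQp.to_inf_left).to_inf_left)
      have h3 : qPart q (K ⊓ C) * qPart q (D ⊓ C) = Nat.card P * Nat.card ↥((Q ⊓ D) ⊓ C) := by
        rw [hm]; exact hprod
      have hPpos : 0 < qPart q (K ⊓ C) := pow_pos hqp.pos _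
      have hDpos : 0 < qPart q (D ⊓ C) := pow_pos hqp.pos _
      have h4 : Nat.card ↥((Q ⊓ D) ⊓ C) = qPart q (D ⊓ C) := by
        refine le_antisymm h2 (Nat.le_of_mul_le_mul_left ?_ hPpos)
        rw [h3]; exact Nat.mul_le_mul_right _ h1
      have h5 : Nat.card P = qPart q (K ⊓ C) := by
        rw [h4] at h3
        exact (Nat.eq_of_mul_eq_mul_right hDpos h3).symm
      refine ⟨?_, h4⟩
      have heq : P = ((Q ⊓ C : Subgroup G) : Set G) := by
        refine Set.eq_of_subset_of_ncard_le hsub ?_ (Set.toFinite _)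
        rw [← Nat.card_coe_set_eq, ← Nat.card_coe_set_eq, h5]
        exact Nat.le_of_dvd (pow_pos hqp.pos _) (card_dvd_qPart (inf_le_inf_right _ hQK) hQp.to_inf_left)
      rw [← heq, hP]
      exact Set.mul_subset_mul inf_le_left inf_le_left
    have hQD : Nat.card ↥(Q ⊓ D) = qPart q D := by
      obtain ⟨S, hle, hS⟩ := invariant_pgroup_le_sylow A D hAD
        (hcop.coprime_dvd_right (card_dvd_of_le (inf_le_left.trans hX))) (Or.inl hAs) q (Q ⊓ D)
        inf_le_right hQp.to_inf_left (inf_normalizes hQA hAD)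
      rw [← card_sylow_map S]
      have : (S : Subgroup D).map D.subtype ≤ Q ⊓ D := by
        refine le_of_fixed_le A _ (Q ⊓ D) hA hS
          (hcop.coprime_dvd_right (card_dvd_of_le
            ((map_subtype_le _).trans (inf_le_left.trans hX)))) fun a ha ha1 => ?_
        rw [le_of_card_qPart (inf_le_inf_right (centralizer {a}) hle)
          (inf_le_inf_right _ (map_subtype_le _)) (S.isPGroup'.map _).to_inf_left (hloc a ha ha1).2]
        exact inf_le_left
      rw [le_antisymm hle this]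
    have hQnil : Group.IsNilpotent Q := hQp.isNilpotent
    have hcover := factor_of_nilpotent A Q (Q ⊓ X) (Q ⊓ Y) hA hQA
      (hcop.coprime_dvd_right (card_dvd_of_le hQK)) hQnil inf_le_left inf_le_left
      (fun a ha ha1 k hk => by
        obtain ⟨u, hu, v, hv, e⟩ := (hloc a ha ha1).1 hk
        exact ⟨u, hu, v, hv, e⟩)
    have hset : ((Q ⊓ X : Subgroup G) : Set G) * ((Q ⊓ Y : Subgroup G) : Set G) = (Q : Set G) := by
      refine Set.Subset.antisymm ?_ fun k hk => ?_
      · rintro _ ⟨u, hu, v, hv, rfl⟩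
        exact Q.mul_mem hu.1 hv.1
      · obtain ⟨u, hu, v, hv, e⟩ := hcover k hk
        exact ⟨u, hu, v, hv, e⟩
    have h6 := ncard_setMul (Q ⊓ X) (Q ⊓ Y)
    rw [show (Q ⊓ X) ⊓ (Q ⊓ Y) = Q ⊓ D by rw [hD]; ext z; simp only [mem_inf]; tauto, hQD, hQX, hQY,
      Nat.card_congr (Equiv.setCongr hset)] at h6
    rw [← h6, ← hQc]
    rfl
  have htot : Nat.card K * Nat.card D = Nat.card X * Nat.card Y := by
    refine Nat.eq_of_factorization_eq (mul_ne_zero Nat.card_pos.ne' Nat.card_pos.ne')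
      (mul_ne_zero Nat.card_pos.ne' Nat.card_pos.ne') fun q => ?_
    rw [Nat.factorization_mul Nat.card_pos.ne' Nat.card_pos.ne',
      Nat.factorization_mul Nat.card_pos.ne' Nat.card_pos.ne', Finsupp.add_apply, Finsupp.add_apply]
    by_cases hqp : q.Prime
    · have h := hmain q hqp
      rw [qPart, qPart, qPart, qPart, ← pow_add, ← pow_add] at h
      exact Nat.pow_right_injective hqp.two_le h
    · simp [Nat.factorization_eq_zero_of_not_prime, hqp]
  have h7 := ncard_setMul X Y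
  rw [← hD, ← htot] at h7
  have h8 := Nat.eq_of_mul_eq_mul_right Nat.card_pos h7
  refine (Set.eq_of_subset_of_ncard_le ?_ ?_ (Set.toFinite _)).symm
  · rintro _ ⟨u, hu, v, hv, rfl⟩
    exact K.mul_mem (hX hu) (hY hv)
  · rw [← Nat.card_coe_set_eq, ← Nat.card_coe_set_eq, h8]
    rfl

end Cfsg.Lib.Solv
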