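import Mathlib
import Cfsg.Agent.Lib.Solv.Coprime2

/-!
# Generation by centralizers of subgroups with cyclic quotient
-/

set_option autoImplicit false
set_option linter.style.haveILetI false

namespace Cfsg.Lib.Solv

open Subgroup
open scoped Pointwise commutatorElement

universe u

variable {X : Type u} [Group X]

/-- An abelian group acting coprimely: the group is generated by the centralizers of the subgroups
with cyclic quotient. -/
theorem le_iSup_cyclic_quotient [Finite X] (A : Subgroup X) [IsMulCommutative A] (H : Subgroup X)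
    (hAH : A ≤ normalizer (H : Set X)) (hcop : (Nat.card A).Coprime (Nat.card H)) :
    H ≤ ⨆ B ∈ {B : Subgroup X | B ≤ A ∧ ∃ a ∈ A, B ⊔ zpowers a = A}, H ⊓ centralizer (B : Set X) := by
  induction H using (wellFounded_lt (α := Subgroup X)).induction with
  | _ H ih =>
    set S := {B : Subgroup X | B ≤ A ∧ ∃ a ∈ A, B ⊔ zpowers a = A} with hS
    set W := ⨆ B ∈ S, H ⊓ centralizer (B : Set X) with hW
    set K := A ⊓ centralizer (H : Set X) with hK
    have hcomm : ∀ a ∈ A, ∀ b ∈ A, a * b = b * a := fun a ha b hb =>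
      congrArg Subtype.val (IsMulCommutative.is_comm.comm (⟨a, ha⟩ : A) ⟨b, hb⟩)
    by_cases hcy : ∃ a ∈ A, K ⊔ zpowers a = A
    · refine le_trans ?_ (le_iSup₂ (f := fun B (_ : B ∈ S) => H ⊓ centralizer (B : Set X)) K ⟨inf_le_left, hcy⟩)
      exact le_inf le_rfl (le_centralizer_iff.1 inf_le_right)
    set T := A ⊔ H with hT
    have hAT : A ≤ T := le_sup_left
    have hHT : H ≤ T := le_sup_right
    have hTK : T ≤ centralizer (K : Set X) :=
      sup_le (fun a ha => mem_centralizer_iff.2 fun k hk => hcomm k hk.1 a ha)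
        (le_centralizer_iff.1 inf_le_right)
    have : (K.subgroupOf T).Normal := ⟨fun k hk t => by
      rw [mem_subgroupOf] at hk ⊢
      have h := mem_centralizer_iff.1 (hTK t.2) _ hk
      simp only [coe_mul, coe_inv]
      rw [← h, mul_inv_cancel_right]
      exact hk⟩
    set π := QuotientGroup.mk' (K.subgroupOf T) with hπ
    set A' := (A.subgroupOf T).map π with hA'
    set H' := (H.subgroupOf T).map π with hH'
    have hA'c : IsMulCommutative A' := by
      refine ⟨⟨?_⟩⟩
      rintro ⟨_, x, hx, rfl⟩ ⟨_, y, hy, rfl⟩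
      apply Subtype.ext
      show π x * π y = π y * π x
      rw [← map_mul, ← map_mul]
      exact congrArg π (Subtype.ext (hcomm x hx y hy))
    have hA'nc : ¬ IsCyclic A' := by
      intro hc
      obtain ⟨g, hg⟩ := (Subgroup.isCyclic_iff_exists_zpowers_eq_top (H := A')).1 hc
      obtain ⟨a, ha, rfl⟩ : g ∈ A' := hg ▸ mem_zpowers g
      refine hcy ⟨a, ha, le_antisymm (sup_le inf_le_left (zpowers_le.2 ha)) fun x hx => ?_⟩
      obtain ⟨i, hi⟩ := mem_zpowers_iff.1 (hg.ge ⟨⟨x, hAT hx⟩, hx, rfl⟩ : π ⟨x, hAT hx⟩ ∈ zpowers (π a))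
      rw [← map_zpow, hπ, QuotientGroup.mk'_apply, QuotientGroup.mk'_apply, QuotientGroup.eq,
        mem_subgroupOf] at hi
      have h2 := mul_mem (mem_sup_right (S := K) (zpow_mem (mem_zpowers (a : X)) i))
        (mem_sup_left (T := zpowers (a : X)) hi)
      simpa using h2
    have hn : A' ≤ normalizer (H' : Set (↥T ⧸ K.subgroupOf T)) := by
      rintro _ ⟨a, ha, rfl⟩
      refine le_normalizer_map π ⟨a, ?_, rfl⟩
      rw [SetLike.mem_coe, mem_normalizer_iff]
      intro x
      exact mem_normalizer_iff.1 (hAH ha) x.1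
    have hcop' : (Nat.card A').Coprime (Nat.card H') := by
      refine ((hcop.coprime_dvd_left ?_).coprime_dvd_right ?_)
      · exact (card_map_dvd (A.subgroupOf T) π).trans (card_subgroupOf hAT).dvd
      · exact (card_map_dvd (H.subgroupOf T) π).trans (card_subgroupOf hHT).dvd
    have key : H' ≤ (W.subgroupOf T).map π := by
      refine le_of_fixed_le A' H' _ hA'nc hn hcop' ?_
      rintro _ ⟨a, ha, rfl⟩ ha1 _ ⟨⟨h, hh, rfl⟩, hfix⟩
      replace hfix : π h ∈ centralizer {π a} := hfix
      rw [mem_centralizer_singleton_iff, ← map_mul, ← map_mul, hπ,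
        QuotientGroup.mk'_apply, QuotientGroup.mk'_apply, QuotientGroup.eq, mem_subgroupOf] at hfix
      have haK : (a : X) ∉ K := fun hc => ha1 ((QuotientGroup.eq_one_iff a).2 hc)
      have hcomm' : (h : X) * a = a * h := by
        have h2 : ((h : X) * a)⁻¹ * (a * h) ∈ H := by
          have h3 : ((h : X) * a)⁻¹ * (a * h) = ((a : X)⁻¹ * (h : X)⁻¹ * a) * h := by group
          rw [h3]
          exact mul_mem ((mem_normalizer_iff''.1 (hAH ha) _).1 (H.inv_mem hh)) hh
        have hfix' : ((h : X) * a)⁻¹ * (a * h) ∈ K := by simpa using hfix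
        have h4 : K ⊓ H = ⊥ := inf_eq_bot_of_coprime_card (hcop.coprime_dvd_left (card_dvd_of_le inf_le_left))
        have h5 : ((h : X) * a)⁻¹ * (a * h) ∈ K ⊓ H := ⟨hfix', h2⟩
        rw [h4, mem_bot, inv_mul_eq_one] at h5
        exact h5
      set H₁ := H ⊓ centralizer {(a : X)} with hH1
      have hlt : H₁ < H := lt_of_le_of_ne inf_le_left fun e => haK ⟨ha, mem_centralizer_iff.2 fun y hy =>
        mem_centralizer_singleton_iff.1 ((e.ge hy).2)⟩
      have hAH1 : A ≤ normalizer (H₁ : Set X) := fun b hb => by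
        rw [← conj_smul_eq_self_iff, hH1, smul_inf, conj_smul_eq_self_iff.2 (hAH hb),
          conj_smul_eq_self_iff.2 (le_normalizer (mem_centralizer_singleton_iff.2 (hcomm b hb a ha)))]
      refine ⟨h, ?_, rfl⟩
      show (h : X) ∈ W
      have h6 := ih H₁ hlt hAH1 (hcop.coprime_dvd_right (card_dvd_of_le inf_le_left))
        ⟨hh, mem_centralizer_singleton_iff.2 hcomm'⟩
      refine (iSup₂_le fun B hB => ?_ : (⨆ B ∈ S, H₁ ⊓ centralizer (B : Set X)) ≤ W) h6
      exact (inf_le_inf_right _ inf_le_left).trans (le_iSup₂ (f := fun B (_ : B ∈ S) => H ⊓ centralizer (B : Set X)) B hB)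
    intro x hx
    obtain ⟨w, hw, hwx⟩ := key ⟨⟨x, hHT hx⟩, hx, rfl⟩
    rw [hπ, QuotientGroup.mk'_apply, QuotientGroup.mk'_apply, QuotientGroup.eq, mem_subgroupOf] at hwx
    have hwH : (w : X) ∈ H := (iSup₂_le fun B _ => inf_le_left : W ≤ H) hw
    have h4 : K ⊓ H = ⊥ := inf_eq_bot_of_coprime_card (hcop.coprime_dvd_left (card_dvd_of_le inf_le_left))
    have h5 : (w : X)⁻¹ * x ∈ K ⊓ H := ⟨by simpa using hwx, H.mul_mem (H.inv_mem hwH) hx⟩
    rw [h4, mem_bot, inv_mul_eq_one] at h5
    exact h5 ▸ hw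

end Cfsg.Lib.Solv
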