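import Cfsg.Agent.Lib.Solv.MinNormal
import Cfsg.Agent.Lib.Solv.Coprime
import Cfsg.Agent.Lib.Transfer.Action

/-!
Fixed-point-free automorphisms with fourth power one: the derived subgroup is nilpotent.
-/

set_option autoImplicit false

namespace Cfsg.Lib.Solv.FpfFour

open Subgroup
open scoped commutatorElement

universe u

/-- The linear part: `a`, `b` commuting, rotated by `s` as `a ↦ b ↦ a⁻¹`. -/
theorem linear_aux : ∀ (n : ℕ) (W : Type u) [AddCommGroup W] [Finite W], Nat.card W ≤ n →
    ∀ (s a b : AddMonoid.End W) (k : ℕ), s ^ 4 = 1 → (∀ w, s w = w → w = 0) → a * b = b * a →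
      s * a = b * s → s * b = a ^ (k - 1) * s → a ^ k = 1 → Odd k → k.Coprime (Nat.card W) →
      a = 1 := by
  intro n
  induction n with
  | zero => intro W _ _ hn; exact absurd hn (Nat.not_le.2 Nat.card_pos)
  | succ n ih =>
    intro W _ _ hn s a b k hs hfpf hab hsa hsb hak hodd hcop
    have hk1 : k - 1 + 1 = k := Nat.sub_add_cancel hodd.pos
    have happ : ∀ (f g : AddMonoid.End W) (w : W), (f * g) w = f (g w) := fun f g w => rfl
    have hsinv : ∀ f g : AddMonoid.End W, f * s = g * s → f = g := fun f g h => by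
      have h2 := congrArg (· * s ^ 3) h
      simp only [mul_assoc, ← pow_succ'] at h2
      rwa [show (3 + 1 : ℕ) = 4 from rfl, hs, mul_one, mul_one] at h2
    have hpow : ∀ (f g : AddMonoid.End W), s * f = g * s → ∀ i : ℕ, s * f ^ i = g ^ i * s := by
      intro f g h i
      induction i with
      | zero => simp
      | succ i ih => rw [pow_succ, ← mul_assoc, ih, mul_assoc, h, ← mul_assoc, ← pow_succ]
    have hbk : b ^ k = 1 := hsinv _ _ (by rw [← hpow a b hsa, hak, mul_one, one_mul])
    -- reduction to no proper invariant subgroup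
    by_cases hred : ∃ U : AddSubgroup W, U ≠ ⊥ ∧ U ≠ ⊤ ∧ (∀ w ∈ U, s w ∈ U) ∧ (∀ w ∈ U, a w ∈ U) ∧
        ∀ w ∈ U, b w ∈ U
    · obtain ⟨U, hUb, hUt, hUs, hUa, hUb'⟩ := hred
      let res : ∀ f : AddMonoid.End W, (∀ w ∈ U, f w ∈ U) → AddMonoid.End U := fun f hf =>
        (f.comp U.subtype).codRestrict U fun x => hf x x.2
      let quo : ∀ f : AddMonoid.End W, (∀ w ∈ U, f w ∈ U) → AddMonoid.End (W ⧸ U) := fun f hf =>
        QuotientAddGroup.map U U f fun x hx => hf x hx
      have hres : ∀ f hf (x : U), ((res f hf x : U) : W) = f x := fun f hf x => rfl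
      have hquo : ∀ f hf (x : W), quo f hf (x : W ⧸ U) = ((f x : W) : W ⧸ U) := fun f hf x => rfl
      have hresp : ∀ f hf (i : ℕ) (x : U), (((res f hf) ^ i) x : W) = (f ^ i) x := by
        intro f hf i
        induction i with
        | zero => intro x; rfl
        | succ i ih =>
          intro x
          rw [pow_succ', pow_succ']
          show ((res f hf (((res f hf) ^ i) x) : U) : W) = f ((f ^ i) x)
          rw [hres, ih]
      have hquop : ∀ f hf (i : ℕ) (x : W), ((quo f hf) ^ i) (x : W ⧸ U) = (((f ^ i) x : W) : W ⧸ U) := by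
        intro f hf i
        induction i with
        | zero => intro x; rfl
        | succ i ih =>
          intro x
          rw [pow_succ', pow_succ']
          show quo f hf (((quo f hf) ^ i) (x : W ⧸ U)) = ((f ((f ^ i) x) : W) : W ⧸ U)
          rw [ih, hquo]
      have hUcard : Nat.card U * U.index = Nat.card W := U.card_mul_index
      have hU2 : 2 ≤ Nat.card U := (AddSubgroup.one_lt_card_iff_ne_bot U).2 hUb
      have hI2 : 2 ≤ U.index := by
        have h1 : U.index ≠ 1 := fun h => hUt (AddSubgroup.index_eq_one.1 h)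
        have h2 : U.index ≠ 0 := AddSubgroup.index_ne_zero_of_finite
        omega
      have hUn : Nat.card U ≤ n := by nlinarith
      have hQn : Nat.card (W ⧸ U) ≤ n := by
        rw [← AddSubgroup.index_eq_card]; nlinarith
      have hev : ∀ {f g : AddMonoid.End W}, f = g → ∀ w, f w = g w := fun h w => h ▸ rfl
      have h1 : res a hUa = 1 := ih U hUn (res s hUs) (res a hUa) (res b hUb') k
        (AddMonoidHom.ext fun x => Subtype.ext ((hresp s hUs 4 x).trans (by rw [hs]; rfl)))
        (fun x hx => Subtype.ext (hfpf x (congrArg Subtype.val hx)))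
        (AddMonoidHom.ext fun x => Subtype.ext (hev hab (x : W)))
        (AddMonoidHom.ext fun x => Subtype.ext (hev hsa (x : W)))
        (AddMonoidHom.ext fun x => Subtype.ext (by
          show s (b x) = ((((res a hUa) ^ (k - 1)) (res s hUs x) : U) : W)
          rw [hresp]; exact hev hsb (x : W)))
        (AddMonoidHom.ext fun x => Subtype.ext ((hresp a hUa k x).trans (by rw [hak]; rfl))) hodd
        (hcop.coprime_dvd_right ⟨U.index, hUcard.symm⟩)
      have h2 : quo a hUa = 1 := ih (W ⧸ U) hQn (quo s hUs) (quo a hUa) (quo b hUb') k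
        (AddMonoidHom.ext fun x => by
          obtain ⟨x, rfl⟩ := QuotientAddGroup.mk_surjective x
          exact (hquop s hUs 4 x).trans (by rw [hs]; rfl))
        (fun x hx => by
          obtain ⟨x, rfl⟩ := QuotientAddGroup.mk_surjective x
          rw [hquo, QuotientAddGroup.eq] at hx
          have hinj : Function.Injective (fun u : U => (⟨s u - u, U.sub_mem (hUs u u.2) u.2⟩ : U)) := by
            intro u v huv
            have e : s (u : W) - u = s (v : W) - v := congrArg Subtype.val huv
            refine Subtype.ext (sub_eq_zero.1 (hfpf _ ?_))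
            rw [map_sub, ← sub_eq_zero]
            rw [← sub_eq_zero] at e
            rw [← e]; abel
          obtain ⟨u, hu⟩ := Finite.injective_iff_surjective.1 hinj
            ⟨-(s x) + x, hx⟩
          have e : s (u : W) - u = -(s x) + x := congrArg Subtype.val hu
          have h0 : x + u = 0 := hfpf _ (by
            rw [map_add, ← sub_eq_zero]
            rw [← sub_eq_zero] at e
            rw [← e]; abel)
          rw [QuotientAddGroup.eq_zero_iff, eq_neg_of_add_eq_zero_left h0]
          exact U.neg_mem u.2)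
        (AddMonoidHom.ext fun x => by
          obtain ⟨x, rfl⟩ := QuotientAddGroup.mk_surjective x
          show quo a hUa (quo b hUb' x) = quo b hUb' (quo a hUa x)
          rw [hquo, hquo, hquo, hquo, ← happ, hab, happ])
        (AddMonoidHom.ext fun x => by
          obtain ⟨x, rfl⟩ := QuotientAddGroup.mk_surjective x
          show quo s hUs (quo a hUa x) = quo b hUb' (quo s hUs x)
          rw [hquo, hquo, hquo, hquo, ← happ, hsa, happ])
        (AddMonoidHom.ext fun x => by
          obtain ⟨x, rfl⟩ := QuotientAddGroup.mk_surjective x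
          show quo s hUs (quo b hUb' x) = ((quo a hUa) ^ (k - 1)) (quo s hUs x)
          rw [hquo, hquo, hquo, hquop, ← happ, hsb, happ])
        (AddMonoidHom.ext fun x => by
          obtain ⟨x, rfl⟩ := QuotientAddGroup.mk_surjective x
          exact (hquop a hUa k x).trans (by rw [hak]; rfl)) hodd
        (hcop.coprime_dvd_right ⟨Nat.card U, by rw [← AddSubgroup.index_eq_card, mul_comm, hUcard]⟩)
      refine AddMonoidHom.ext fun w => ?_
      have hd : a w - w ∈ U := by
        have h3 := hev' h2 (w : W ⧸ U)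
        have h4 : ((a w : W) : W ⧸ U) = (w : W ⧸ U) := h3
        exact (QuotientAddGroup.eq_iff_sub_mem).1 h4
      have hu : a (a w - w) = a w - w := by
        have h3 := hev' h1 ⟨a w - w, hd⟩
        exact congrArg Subtype.val h3
      have hiter : ∀ i : ℕ, (a ^ i) w = w + i • (a w - w) := by
        intro i
        induction i with
        | zero => simp
        | succ i ih =>
          rw [pow_succ', happ, ih, map_add, map_nsmul, hu, succ_nsmul]
          abel
      have h5 := hiter k
      rw [hak] at h5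
      have h6 : k • (a w - w) = 0 := by
        have h7 : w = w + k • (a w - w) := h5
        exact left_eq_add.1 h7
      have h8 : addOrderOf (a w - w) = 1 := Nat.eq_one_of_dvd_coprimes hcop
        (addOrderOf_dvd_of_nsmul_eq_zero h6) (addOrderOf_dvd_natCard _)
      rw [AddMonoid.addOrderOf_eq_one_iff, sub_eq_zero] at h8
      exact h8
    push Not at hred
    by_contra ha
    have hfixinv : ∀ (h f : AddMonoid.End W), f * h = h * f → ∀ w, h w = w → h (f w) = f w :=
      fun h f hc w hw => by rw [← happ, ← hc, happ, hw]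
    -- either trivial or without fixed points
    have dich : ∀ h g : AddMonoid.End W, a * h = h * a → b * h = h * b → a * g = g * a →
        b * g = g * b → h ^ k = 1 → s * h = g * s → s * g = h ^ (k - 1) * s →
        h = 1 ∨ ∀ w, h w = w → w = 0 := by
      intro h g hah hbh hag hbg hhk hsh hsg
      by_cases hX : ∀ w, h w = w → w = 0
      · exact Or.inr hX
      left
      push Not at hX
      obtain ⟨x, hx, hx0⟩ := hX
      let X : AddSubgroup W :=
        { carrier := {w | h w = w}
          zero_mem' := map_zero h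
          add_mem' := fun {u v} hu hv => by
            show h (u + v) = u + v
            rw [map_add, hu, hv]
          neg_mem' := fun {u} hu => by
            show h (-u) = -u
            rw [map_neg, hu] }
      let Y : AddSubgroup W :=
        { carrier := {w | g w = w}
          zero_mem' := map_zero g
          add_mem' := fun {u v} hu hv => by
            show g (u + v) = u + v
            rw [map_add, hu, hv]
          neg_mem' := fun {u} hu => by
            show g (-u) = -u
            rw [map_neg, hu] }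
      have hsX : ∀ w ∈ X, s w ∈ Y := fun w (hw : h w = w) => by
        show g (s w) = s w
        rw [← happ, ← hsh, happ, hw]
      have hsY : ∀ w ∈ Y, s w ∈ X := fun w (hw : g w = w) => by
        have h1 : (h ^ (k - 1)) (s w) = s w := by rw [← happ, ← hsg, happ, hw]
        show h (s w) = s w
        conv_lhs => rw [← h1]
        rw [← happ, ← pow_succ', hk1, hhk]
        rfl
      have hXa : ∀ w ∈ X, a w ∈ X := fun w hw => hfixinv h a hah w hw
      have hXb : ∀ w ∈ X, b w ∈ X := fun w hw => hfixinv h b hbh w hw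
      have hYa : ∀ w ∈ Y, a w ∈ Y := fun w hw => hfixinv g a hag w hw
      have hYb : ∀ w ∈ Y, b w ∈ Y := fun w hw => hfixinv g b hbg w hw
      by_cases hinf : X ⊓ Y = ⊥
      swap
      · by_cases ht : X ⊓ Y = ⊤
        · exact AddMonoidHom.ext fun w => (ht.ge (AddSubgroup.mem_top w)).1
        · obtain ⟨w, hw, hnw⟩ := hred (X ⊓ Y) hinf ht (fun w hw => ⟨hsY w hw.2, hsX w hw.1⟩)
            (fun w hw => ⟨hXa w hw.1, hYa w hw.2⟩)
          exact absurd ⟨hXb w hw.1, hYb w hw.2⟩ hnw
      have hsup : X ⊔ Y = ⊤ := by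
        by_contra hne
        obtain ⟨w, hw, hnw⟩ := hred (X ⊔ Y) (fun e => hx0 (by
            have : x ∈ X ⊔ Y := AddSubgroup.mem_sup_left hx
            rwa [e, AddSubgroup.mem_bot] at this)) hne
          (fun w hw => by
            obtain ⟨u, hu, v, hv, rfl⟩ := AddSubgroup.mem_sup.1 hw
            rw [map_add, add_comm]
            exact AddSubgroup.mem_sup.2 ⟨_, hsY v hv, _, hsX u hu, rfl⟩)
          (fun w hw => by
            obtain ⟨u, hu, v, hv, rfl⟩ := AddSubgroup.mem_sup.1 hw
            rw [map_add]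
            exact AddSubgroup.mem_sup.2 ⟨_, hXa u hu, _, hYa v hv, rfl⟩)
        refine hnw ?_
        obtain ⟨u, hu, v, hv, rfl⟩ := AddSubgroup.mem_sup.1 hw
        rw [map_add]
        exact AddSubgroup.mem_sup.2 ⟨_, hXb u hu, _, hYb v hv, rfl⟩
      have hs4 : ∀ w, s (s (s (s w))) = w := fun w => by
        have h1 : (s ^ 4) w = w := by rw [hs]; rfl
        exact h1
      have hnegX : ∀ w ∈ X, s (s w) = -w := by
        intro w hw
        set u := w + s (s w) with hu
        have huX : u ∈ X := X.add_mem hw (hsY _ (hsX _ hw))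
        have hfix : u + s u = 0 := hfpf _ (by
          rw [hu]; simp only [map_add, hs4]; abel)
        have huY : u ∈ Y := by
          rw [eq_neg_of_add_eq_zero_left hfix]
          exact Y.neg_mem (hsX _ huX)
        have h0 : u ∈ X ⊓ Y := ⟨huX, huY⟩
        rw [hinf, AddSubgroup.mem_bot] at h0
        exact eq_neg_of_add_eq_zero_right h0
      have hneg : ∀ w, s (s w) = -w := by
        intro w
        obtain ⟨u, hu, v, hv, rfl⟩ := AddSubgroup.mem_sup.1 (hsup.ge (AddSubgroup.mem_top w))
        have hv' : s (s v) = -v := by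
          have h1 := hnegX (s v) (hsY v hv)
          calc s (s v) = s (s (s (s (s (s v))))) := (hs4 _).symm
            _ = s (s (s (-(s v)))) := by rw [h1]
            _ = _ := by rw [map_neg, map_neg, map_neg, hs4]
        rw [map_add, map_add, hnegX u hu, hv', neg_add]
      have hinvol : h ^ (k - 1) = h := by
        refine AddMonoidHom.ext fun w => neg_injective ?_
        have e1 : s (s (h w)) = (h ^ (k - 1)) (s (s w)) := by
          rw [← happ s h, hsh, happ, ← happ s g, hsg, happ]
        rw [hneg, hneg, map_neg] at e1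
        exact e1.symm
      have h2 : h ^ 2 = 1 := by rw [pow_two]; nth_rw 1 [← hinvol]; rw [← pow_succ, hk1, hhk]
      obtain ⟨j, hj⟩ := hodd
      rw [hj, pow_succ, pow_mul, h2, one_pow, one_mul] at hhk
      exact hhk
    set a' := a ^ (k - 1) with ha'
    set b' := b ^ (k - 1) with hb'
    have haa' : a * a' = 1 := by rw [ha', ← pow_succ', hk1, hak]
    have ha'a : a' * a = 1 := by rw [ha', ← pow_succ, hk1, hak]
    have hbb' : b * b' = 1 := by rw [hb', ← pow_succ', hk1, hbk]
    have hb'b : b' * b = 1 := by rw [hb', ← pow_succ, hk1, hbk]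
    have hsa' : s * a' = b' * s := hpow a b hsa _
    have cab : Commute a b := hab
    have hW : ∃ w : W, w ≠ 0 := by
      by_contra h; push Not at h
      exact ha (AddMonoidHom.ext fun w => (h _).trans (h _).symm)
    have hsqrt : ∀ w, a (a w) = w → a w = w := fun w hw => by
      obtain ⟨j, hj⟩ := hodd
      have h1 : ∀ i : ℕ, (a ^ (2 * i)) w = w := by
        intro i
        induction i with
        | zero => rfl
        | succ i ih =>
          rw [Nat.mul_succ, pow_add, happ, pow_two, happ, hw, ih]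
      have h2 : (a ^ k) (a w) = a w := by rw [hak]; rfl
      rw [hj, ← happ, ← pow_succ, show 2 * j + 1 + 1 = 2 * (j + 1) by ring, h1] at h2
      exact h2.symm
    have hA : ∀ w, a w = w → w = 0 := (dich a b rfl hab.symm hab rfl hak hsa hsb).resolve_left ha
    have hAB : ∀ w, (a * b) w = w → w = 0 := by
      refine (dich (a * b) (b * a') ((Commute.refl a).mul_right cab).eq
        (cab.symm.mul_right (Commute.refl b)).eq
        (cab.mul_right ((Commute.refl a).pow_right _)).eq
        ((Commute.refl b).mul_right (cab.symm.pow_right _)).eq ?_ ?_ ?_).resolve_left fun h1 => ?_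
      · rw [cab.mul_pow, hak, hbk, one_mul]
      · rw [← mul_assoc, hsa, mul_assoc, hsb, ← mul_assoc]
      · rw [← mul_assoc, hsb, mul_assoc, hsa', ← mul_assoc, cab.mul_pow]
      · have e : b = a' := by
          calc b = (a' * a) * b := by rw [ha'a, one_mul]
            _ = a' := by rw [mul_assoc, h1, mul_one]
        have e2 : a' = b' := hsinv _ _ (by
          calc a' * s = s * b := hsb.symm
            _ = s * a' := by rw [e]
            _ = b' * s := hsa')
        obtain ⟨w, hw⟩ := hW
        refine hw (hA w (hsqrt w ?_))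
        have e3 : a * a = 1 := by
          calc a * a = a * a * (b' * b) := by rw [hb'b, mul_one]
            _ = a * (a * a') * b := by rw [← e2]; simp only [mul_assoc]
            _ = 1 := by rw [haa', mul_one]; exact h1
        rw [← happ, e3]; rfl
    have hBA : ∀ w, (b * a') w = w → w = 0 := fun w hw => by
      have h1 : ((a * b) ^ (k - 1)) (s w) = s w := by
        have hsg : s * (b * a') = (a * b) ^ (k - 1) * s := by
          rw [← mul_assoc, hsb, mul_assoc, hsa', ← mul_assoc, cab.mul_pow]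
        rw [← happ, ← hsg, happ, hw]
      have h2 : (a * b) (s w) = s w := by
        conv_lhs => rw [← h1]
        rw [← happ, ← pow_succ', hk1, cab.mul_pow, hak, hbk, one_mul]
        rfl
      have h3 := hAB _ h2
      exact hfpf w (h3.trans (by
        have h4 : (s ^ 4) w = w := by rw [hs]; rfl
        have h5 : s (s (s (s w))) = w := h4
        rw [← h5, h3, map_zero, map_zero, map_zero]))
    have hZ : ∀ m : ℕ, a ^ m + b ^ m * s + a' ^ m * (s * s) + b' ^ m * (s * s * s) = 0 := by
      intro m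
      have hN : (1 + s + s * s + s * s * s : AddMonoid.End W) = 0 := AddMonoidHom.ext fun w => by
        have h4 : (s ^ 4) w = w := by rw [hs]; rfl
        have h5 : s (s (s (s w))) = w := h4
        refine hfpf _ ?_
        show s (w + s w + s (s w) + s (s (s w))) = w + s w + s (s w) + s (s (s w))
        simp only [map_add, h5]
        abel
      have h1 := congrArg (· * a ^ m) hN
      simp only [zero_mul, add_mul, one_mul] at h1
      have e1 := hpow a b hsa m
      have e2 : (s * s) * a ^ m = a' ^ m * (s * s) := by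
        rw [mul_assoc, e1, ← mul_assoc, hpow b a' hsb m, mul_assoc]
      have e3 : (s * s * s) * a ^ m = b' ^ m * (s * s * s) := by
        rw [mul_assoc (s * s), e1, ← mul_assoc, mul_assoc s s, hpow b a' hsb m, ← mul_assoc,
          hpow a' b' hsa' m, mul_assoc, mul_assoc]
        simp only [mul_assoc]
      rwa [e1, e2, e3] at h1
    have hfinal : (a - b) * (a - a') * (a - b') = 0 := by
      let S : Set (AddMonoid.End W) := {a, b, a', b'}
      have hS : ∀ x ∈ S, ∀ y ∈ S, x * y = y * x := by
        intro x hx y hy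
        have hc : ∀ z ∈ S, Commute a z ∧ Commute b z := by
          intro z hz
          rcases hz with rfl | rfl | rfl | rfl
          exacts [⟨Commute.refl _, cab.symm⟩, ⟨cab, Commute.refl _⟩,
            ⟨(Commute.refl a).pow_right _, cab.symm.pow_right _⟩,
            ⟨cab.pow_right _, (Commute.refl b).pow_right _⟩]
        rcases hx with rfl | rfl | rfl | rfl
        exacts [(hc y hy).1, (hc y hy).2, ((hc y hy).1).pow_left _, ((hc y hy).2).pow_left _]
      let R := Subring.closure S
      letI := Subring.closureCommRingOfComm hS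
      let A : R := ⟨a, Subring.subset_closure (Or.inl rfl)⟩
      let B : R := ⟨b, Subring.subset_closure (Or.inr (Or.inl rfl))⟩
      let A' : R := ⟨a', Subring.subset_closure (Or.inr (Or.inr (Or.inl rfl)))⟩
      let B' : R := ⟨b', Subring.subset_closure (Or.inr (Or.inr (Or.inr rfl)))⟩
      let c₀ : R := -(B * A' * B')
      let c₁ : R := B * A' + B * B' + A' * B'
      let c₂ : R := -(B + A' + B')
      have hP : ∀ X : R, ((c₀ + c₁ * X + c₂ * X ^ 2 + X ^ 3 : R) : AddMonoid.End W) =
          (((X - B) * (X - A') * (X - B') : R) : AddMonoid.End W) := fun X => by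
        congr 1; simp only [c₀, c₁, c₂]; ring
      have hb0 : (c₀ : AddMonoid.End W) + c₁ * b + c₂ * b ^ 2 + b ^ 3 = 0 := by
        refine ((hP B).trans ?_)
        rw [sub_self, zero_mul, zero_mul]; rfl
      have ha0 : (c₀ : AddMonoid.End W) + c₁ * a' + c₂ * a' ^ 2 + a' ^ 3 = 0 := by
        refine ((hP A').trans ?_)
        rw [sub_self, mul_zero, zero_mul]; rfl
      have hb'0 : (c₀ : AddMonoid.End W) + c₁ * b' + c₂ * b' ^ 2 + b' ^ 3 = 0 := by
        refine ((hP B').trans ?_)
        rw [sub_self, mul_zero]; rfl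
      have haA : (c₀ : AddMonoid.End W) + c₁ * a + c₂ * a ^ 2 + a ^ 3 = (a - b) * (a - a') * (a - b') :=
        hP A
      have hsum : (c₀ : AddMonoid.End W) * (a ^ 0 + b ^ 0 * s + a' ^ 0 * (s * s) + b' ^ 0 * (s * s * s)) +
          c₁ * (a ^ 1 + b ^ 1 * s + a' ^ 1 * (s * s) + b' ^ 1 * (s * s * s)) +
          c₂ * (a ^ 2 + b ^ 2 * s + a' ^ 2 * (s * s) + b' ^ 2 * (s * s * s)) +
          (a ^ 3 + b ^ 3 * s + a' ^ 3 * (s * s) + b' ^ 3 * (s * s * s)) = 0 := by
        rw [hZ, hZ, hZ, hZ, mul_zero, mul_zero, mul_zero, add_zero, add_zero, add_zero]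
      have hsum2 : ((c₀ : AddMonoid.End W) + c₁ * a + c₂ * a ^ 2 + a ^ 3) +
          ((c₀ : AddMonoid.End W) + c₁ * b + c₂ * b ^ 2 + b ^ 3) * s +
          ((c₀ : AddMonoid.End W) + c₁ * a' + c₂ * a' ^ 2 + a' ^ 3) * (s * s) +
          ((c₀ : AddMonoid.End W) + c₁ * b' + c₂ * b' ^ 2 + b' ^ 3) * (s * s * s) = 0 := by
        rw [← hsum]
        simp only [pow_zero, pow_one, one_mul, mul_one, mul_add, add_mul, mul_assoc]
        abel
      rw [hb0, ha0, hb'0, haA, zero_mul, zero_mul, zero_mul, add_zero, add_zero, add_zero] at hsum2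
      exact hsum2
    obtain ⟨w, hw⟩ := hW
    have h0 : (a - b) ((a - a') ((a - b') w)) = 0 := hev' hfinal w
    have i1 : ∀ v, (a - b) v = 0 → v = 0 := fun v hv => by
      refine hBA v ?_
      have e : a v = b v := sub_eq_zero.1 hv
      have hc : b * a' = a' * b := (cab.symm.pow_right _).eq
      rw [hc, happ, ← e, ← happ, ha'a]
      rfl
    have i2 : ∀ v, (a - a') v = 0 → v = 0 := fun v hv => by
      refine hA v (hsqrt v ?_)
      have e : a v = a' v := sub_eq_zero.1 hv
      rw [e, ← happ, haa']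
      rfl
    have i3 : ∀ v, (a - b') v = 0 → v = 0 := fun v hv => by
      refine hAB v ?_
      have e : a v = b' v := sub_eq_zero.1 hv
      rw [cab.eq, happ, e, ← happ, hbb']
      rfl
    exact hw (i3 w (i2 _ (i1 _ h0)))
where
  hev' {W : Type u} [AddCommGroup W] {f g : AddMonoid.End W} (h : f = g) (w : W) : f w = g w := by
    rw [h]

variable {G : Type u} [Group G]

theorem pow_four_apply {σ : MulAut G} (hσ : σ ^ 4 = 1) (x : G) : σ (σ (σ (σ x))) = x := by
  have h : (σ ^ 4) x = x := by rw [hσ]; rfl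
  exact h

theorem fpf_odd [Finite G] {σ : MulAut G} (hσ : σ ^ 4 = 1) (hfpf : ∀ g : G, σ g = g → g = 1) :
    Odd (Nat.card G) := by
  have := Fact.mk Nat.prime_two
  obtain ⟨i, -, hi⟩ := (Nat.dvd_prime_pow Nat.prime_two).1
    (show orderOf σ ∣ 2 ^ 2 from orderOf_dvd_of_pow_eq_one hσ)
  have hP : IsPGroup 2 ↥(Subgroup.zpowers σ) :=
    IsPGroup.of_card (n := i) (by rw [Nat.card_zpowers, hi])
  have h := hP.card_modEq_card_fixedPoints G
  have h1 : MulAction.fixedPoints ↥(Subgroup.zpowers σ) G = {1} := by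
    ext x
    simp only [MulAction.mem_fixedPoints, Set.mem_singleton_iff]
    refine ⟨fun hx => hfpf x (hx ⟨σ, Subgroup.mem_zpowers σ⟩), ?_⟩
    rintro rfl ⟨m, -⟩
    exact map_one m
  rw [h1, Nat.card_eq_fintype_card (α := ({1} : Set G))] at h
  rw [Nat.odd_iff]
  simpa [Nat.ModEq] using h

theorem fpf_surj [Finite G] {σ : MulAut G} (hfpf : ∀ g : G, σ g = g → g = 1) (N : Subgroup G)
    (hN : ∀ x ∈ N, σ x ∈ N) {y : G} (hy : y ∈ N) : ∃ x ∈ N, x⁻¹ * σ x = y := by
  have hinj : Function.Injective (fun x : N => (⟨(x : G)⁻¹ * σ x, N.mul_mem (N.inv_mem x.2) (hN x x.2)⟩ : N)) := by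
    intro u v huv
    have e : (u : G)⁻¹ * σ u = (v : G)⁻¹ * σ v := congrArg Subtype.val huv
    have h1 : (v : G) * (u : G)⁻¹ = 1 := hfpf _ (by
      rw [map_mul, map_inv]
      calc σ (v : G) * (σ (u : G))⁻¹ = (v : G) * ((v : G)⁻¹ * σ v) * (σ (u : G))⁻¹ := by group
        _ = (v : G) * ((u : G)⁻¹ * σ u) * (σ (u : G))⁻¹ := by rw [e]
        _ = _ := by group)
    exact Subtype.ext (mul_inv_eq_one.1 h1).symm
  obtain ⟨x, hx⟩ := Finite.injective_iff_surjective.1 hinj ⟨y, hy⟩
  exact ⟨x, x.2, congrArg Subtype.val hx⟩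

theorem map_eq_of_invariant [Finite G] {σ : MulAut G} {N : Subgroup G} (hN : ∀ x ∈ N, σ x ∈ N) :
    N.map (σ : G →* G) = N := by
  refine Subgroup.eq_of_le_of_card_ge ?_ (Subgroup.card_map_of_injective σ.injective).ge
  rintro _ ⟨x, hx, rfl⟩
  exact hN x hx

/-- The induced automorphism of a quotient. -/
theorem exists_quotient_aut [Finite G] {σ : MulAut G} (hσ : σ ^ 4 = 1)
    (hfpf : ∀ g : G, σ g = g → g = 1) (N : Subgroup G) [N.Normal] (hN : ∀ x ∈ N, σ x ∈ N) :
    ∃ σ' : MulAut (G ⧸ N), (∀ x : G, σ' (QuotientGroup.mk' N x) = QuotientGroup.mk' N (σ x)) ∧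
      σ' ^ 4 = 1 ∧ ∀ g, σ' g = g → g = 1 := by
  let σ' : MulAut (G ⧸ N) := QuotientGroup.congr N N σ (map_eq_of_invariant hN)
  have hs : ∀ x : G, σ' (QuotientGroup.mk' N x) = QuotientGroup.mk' N (σ x) := fun x => rfl
  refine ⟨σ', hs, MulEquiv.ext fun y => ?_, fun y hy => ?_⟩
  · obtain ⟨x, rfl⟩ := QuotientGroup.mk'_surjective N y
    show σ' (σ' (σ' (σ' (QuotientGroup.mk' N x)))) = _
    rw [hs, hs, hs, hs, pow_four_apply hσ]
    rfl
  · obtain ⟨x, rfl⟩ := QuotientGroup.mk'_surjective N y
    rw [hs] at hy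
    obtain ⟨n, hn, e⟩ := fpf_surj hfpf N hN (QuotientGroup.eq.1 hy.symm)
    have h1 : x * n⁻¹ = 1 := hfpf _ (by
      rw [map_mul, map_inv]
      calc σ x * (σ n)⁻¹ = x * (x⁻¹ * σ x) * (σ n)⁻¹ := by group
        _ = x * (n⁻¹ * σ n) * (σ n)⁻¹ := by rw [e]
        _ = _ := by group)
    rw [mul_inv_eq_one.1 h1]
    exact (QuotientGroup.eq_one_iff n).2 hn

/-- Inverted elements commuting with their image centralize. -/
theorem mem_centralizer_of_key [Finite G] {σ : MulAut G} (hσ : σ ^ 4 = 1)
    (hfpf : ∀ g : G, σ g = g → g = 1) (V : Subgroup G) [hV : V.Normal] [IsMulCommutative V]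
    (hVσ : ∀ x ∈ V, σ x ∈ V) (h : G) (h1 : σ (σ h) * h ∈ centralizer (V : Set G))
    (h2 : ⁅h, σ h⁆ ∈ centralizer (V : Set G)) {k : ℕ} (hk : h ^ k ∈ centralizer (V : Set G))
    (hodd : Odd k) (hcop : k.Coprime (Nat.card V)) : h ∈ centralizer (V : Set G) := by
  let W := Additive V
  have hcm : ∀ x y : V, x * y = y * x := fun x y => IsMulCommutative.is_comm.comm x y
  let _ : AddCommGroup W :=
    { (inferInstance : AddGroup W) with add_comm := fun x y => hcm x.toMul y.toMul }
  let cj : G → AddMonoid.End W := fun g => AddMonoidHom.mk'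
    (fun w => Additive.ofMul (⟨g * (w.toMul : G) * g⁻¹, hV.conj_mem _ w.toMul.2 g⟩ : V)) fun x y => by
      apply Additive.toMul.injective; apply Subtype.ext
      show g * ((x.toMul : G) * y.toMul) * g⁻¹ = (g * x.toMul * g⁻¹) * (g * y.toMul * g⁻¹)
      group
  let s : AddMonoid.End W := AddMonoidHom.mk'
    (fun w => Additive.ofMul (⟨σ (w.toMul : G), hVσ _ w.toMul.2⟩ : V)) fun x y => by
      apply Additive.toMul.injective; apply Subtype.ext
      show σ ((x.toMul : G) * y.toMul) = σ x.toMul * σ y.toMul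
      rw [map_mul]
  have hcj : ∀ g g' : G, cj (g * g') = cj g * cj g' := fun g g' => AddMonoidHom.ext fun w => by
    apply Additive.toMul.injective; apply Subtype.ext
    show (g * g') * (w.toMul : G) * (g * g')⁻¹ = g * (g' * w.toMul * g'⁻¹) * g⁻¹
    group
  have hcj1 : ∀ g ∈ centralizer (V : Set G), cj g = 1 := fun g hg => AddMonoidHom.ext fun w => by
    apply Additive.toMul.injective; apply Subtype.ext
    show g * (w.toMul : G) * g⁻¹ = w.toMul
    rw [← mem_centralizer_iff.1 hg _ w.toMul.2, mul_inv_cancel_right]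
  have hsc : ∀ g, s * cj g = cj (σ g) * s := fun g => AddMonoidHom.ext fun w => by
    apply Additive.toMul.injective; apply Subtype.ext
    show σ (g * (w.toMul : G) * g⁻¹) = σ g * σ w.toMul * (σ g)⁻¹
    rw [map_mul, map_mul, map_inv]
  have hcpow : ∀ i : ℕ, cj (h ^ i) = cj h ^ i := by
    intro i
    induction i with
    | zero => rw [pow_zero, pow_zero]; exact hcj1 1 (one_mem _)
    | succ i ih => rw [pow_succ, pow_succ, hcj, ih]
  have hak : cj h ^ k = 1 := by rw [← hcpow]; exact hcj1 _ hk
  have hk1 : k - 1 + 1 = k := Nat.sub_add_cancel hodd.pos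
  have hτ : cj (σ (σ h)) = cj h ^ (k - 1) := by
    calc cj (σ (σ h)) = cj (σ (σ h)) * cj h ^ k := by rw [hak, mul_one]
      _ = cj (σ (σ h) * h) * cj h ^ (k - 1) := by rw [hcj, mul_assoc, ← pow_succ', hk1]
      _ = _ := by rw [hcj1 _ h1, one_mul]
  have hmain : cj h = 1 := linear_aux _ W le_rfl s (cj h) (cj (σ h)) k
    (AddMonoidHom.ext fun w => by
      apply Additive.toMul.injective; apply Subtype.ext
      show σ (σ (σ (σ (w.toMul : G)))) = w.toMul
      exact pow_four_apply hσ _)
    (fun w hw => by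
      apply Additive.toMul.injective; apply Subtype.ext
      exact hfpf _ (congrArg (fun z : W => ((z.toMul : V) : G)) hw))
    (by
      have e : h * σ h = ⁅h, σ h⁆ * (σ h * h) := by rw [commutatorElement_def]; group
      rw [← hcj, e, hcj, hcj1 _ h2, one_mul, hcj])
    (hsc h) (by rw [hsc, hτ]) hak hodd hcop
  rw [mem_centralizer_iff]
  intro v hv
  have h3 := congrArg (fun f : AddMonoid.End W => (((f (Additive.ofMul (⟨v, hv⟩ : V))).toMul : V) : G)) hmain
  have h4 : h * v * h⁻¹ = v := h3
  exact (mul_inv_eq_iff_eq_mul.1 h4).symm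

/-- `G'` centralizes minimal invariant normal subgroups. -/
theorem commutator_le_centralizer [Finite G] [Group.IsSolvable G] {σ : MulAut G} (hσ : σ ^ 4 = 1)
    (hfpf : ∀ g : G, σ g = g → g = 1) (V : Subgroup G) [hV : V.Normal] [IsMulCommutative V]
    (hVσ : ∀ x ∈ V, σ x ∈ V) {p : ℕ} [hp : Fact p.Prime] (hVp : IsPGroup p V) (hVne : V ≠ ⊥)
    (hmin : ∀ U : Subgroup G, U.Normal → (∀ x ∈ U, σ x ∈ U) → U ≤ V → U = ⊥ ∨ U = V) :
    _root_.commutator G ≤ centralizer (V : Set G) := by
  set C := centralizer (V : Set G) with hC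
  have hodd : Odd (Nat.card G) := fpf_odd hσ hfpf
  have hinv : ∀ {N : Subgroup G}, (∀ x ∈ N, σ x ∈ N) → ∀ y ∈ N, ∃ x ∈ N, σ x = y := fun {N} hN y hy =>
    ⟨σ (σ (σ y)), hN _ (hN _ (hN _ hy)), pow_four_apply hσ y⟩
  have hCσ : ∀ x ∈ C, σ x ∈ C := fun x hx => mem_centralizer_iff.2 fun v hv => by
    obtain ⟨w, hw, rfl⟩ := hinv hVσ v hv
    rw [← map_mul, ← map_mul, mem_centralizer_iff.1 hx w hw]
  set f := QuotientGroup.mk' C with hf
  have hsurj : Function.Surjective f := QuotientGroup.mk'_surjective C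
  obtain ⟨σ', hσf, hσ'4, hfpf'⟩ := exists_quotient_aut hσ hfpf C hCσ
  have hchar : ∀ (N : Subgroup (G ⧸ C)) [N.Characteristic], ∀ x ∈ N, σ' x ∈ N := fun N hN x hx => by
    have h := characteristic_iff_comap_eq.1 hN σ'
    exact h.ge hx
  -- no normal `p`-subgroup in the quotient
  have hOp : Cfsg.pCore p (G ⧸ C) = ⊥ := by
    set N := (Cfsg.pCore p (G ⧸ C)).comap f with hN
    obtain ⟨S⟩ := (inferInstance : Nonempty (Sylow p G))
    have hNS : N ≤ (S : Subgroup G) ⊔ C := by
      have h := comap_mono (f := f) (pCore_le_sylow p (S.mapSurjective hsurj))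
      rwa [Sylow.coe_mapSurjective, comap_map_eq, hf, QuotientGroup.ker_mk'] at h
    set U := V ⊓ centralizer (N : Set G) with hU
    have hUσ : ∀ x ∈ U, σ x ∈ U := fun x hx => ⟨hVσ x hx.1, mem_centralizer_iff.2 fun n hn => by
      have hNσ : ∀ y ∈ N, σ y ∈ N := fun y hy => by
        rw [hN, mem_comap, hf, ← hσf]
        exact hchar _ _ hy
      obtain ⟨w, hw, rfl⟩ := hinv hNσ n hn
      rw [← map_mul, ← map_mul, mem_centralizer_iff.1 hx.2 w hw]⟩
    have hUne : U ≠ ⊥ := by
      have hmod := Cfsg.Lib.Transfer.card_modEq_card_inf_centralizer (p := p) V (S : Subgroup G)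
        S.isPGroup' (by rw [normalizer_eq_top]; exact le_top)
      intro hb
      have h1 : V ⊓ centralizer ((S : Subgroup G) : Set G) ≤ U := by
        refine le_inf inf_le_left (le_centralizer_iff.1 (hNS.trans (sup_le ?_ ?_)))
        · exact le_centralizer_iff.1 inf_le_right
        · exact le_centralizer_iff.1 (inf_le_left.trans (le_centralizer_iff.1 le_rfl))
      rw [hb, le_bot_iff] at h1
      rw [h1, card_bot] at hmod
      obtain ⟨i, hi⟩ := IsPGroup.iff_card.1 hVp
      have hi0 : i ≠ 0 := fun h0 => hVne (eq_bot_of_card_eq V (by rw [hi, h0, pow_zero]))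
      rw [hi, Nat.ModEq, Nat.mod_eq_zero_of_dvd (dvd_pow_self p hi0),
        Nat.one_mod_eq_one.2 hp.out.ne_one] at hmod
      exact zero_ne_one hmod
    have hUV : U = V := (hmin U inferInstance hUσ inf_le_left).resolve_left hUne
    have hNC : N ≤ C := le_centralizer_iff.1 (hUV.ge.trans inf_le_right)
    rw [← map_comap_eq_self_of_surjective hsurj (Cfsg.pCore p (G ⧸ C)), ← hN, eq_bot_iff]
    exact (map_mono hNC).trans (le_of_eq (QuotientGroup.map_mk'_self C))
  have hoddq : ∀ x : G ⧸ C, x * x = 1 → x = 1 := fun x hx => by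
    rw [← orderOf_eq_one_iff]
    refine Nat.eq_one_of_dvd_coprimes
      (hodd.coprime_two_right.symm.coprime_dvd_right (card_quotient_dvd_card C))
      (orderOf_dvd_of_pow_eq_one (by rw [pow_two]; exact hx)) (orderOf_dvd_natCard x)
  -- `σ'²` centralizes every `O_q`
  have hQfix : ∀ q : ℕ, q.Prime → ∀ r ∈ Cfsg.pCore q (G ⧸ C), σ' (σ' r) = r := by
    intro q hq
    have := Fact.mk hq
    by_cases hqp : q = p
    · subst hqp
      intro r hr
      rw [hOp, mem_bot] at hr
      rw [hr, map_one, map_one]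
    set Q := Cfsg.pCore q (G ⧸ C) with hQ
    by_contra hbad
    let S : Set (Subgroup (G ⧸ C)) :=
      {R | R ≤ Q ∧ (∀ x ∈ R, σ' x ∈ R) ∧ ¬ ∀ x ∈ R, σ' (σ' x) = x}
    obtain ⟨R, ⟨hRQ, hRσ, hRbad⟩, hRmin⟩ :=
      (Set.toFinite S).exists_minimal ⟨Q, le_rfl, hchar Q, hbad⟩
    have hR4 : ∀ x, σ' (σ' (σ' (σ' x))) = x := pow_four_apply hσ'4
    set T := closure {y : G ⧸ C | ∃ r ∈ R, r⁻¹ * σ' (σ' r) = y} with hT
    have hTR : T ≤ R := (closure_le R).2 (by
      rintro _ ⟨r, hr, rfl⟩; exact R.mul_mem (R.inv_mem hr) (hRσ _ (hRσ _ hr)))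
    have hTσ : ∀ x ∈ T, σ' x ∈ T := by
      have h1 : T ≤ T.comap (σ' : (G ⧸ C) →* (G ⧸ C)) := (closure_le _).2 (by
        rintro _ ⟨r, hr, rfl⟩
        rw [SetLike.mem_coe, mem_comap]
        refine subset_closure ⟨σ' r, hRσ r hr, ?_⟩
        show (σ' r)⁻¹ * σ' (σ' (σ' r)) = σ' (r⁻¹ * σ' (σ' r))
        rw [map_mul, map_inv])
      exact fun x hx => h1 hx
    have hTR' : T = R := by
      by_contra hne
      have hnS : ¬ T ∈ S := fun h => hne (le_antisymm hTR (hRmin h hTR))
      have hTfix : ∀ x ∈ T, σ' (σ' x) = x := by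
        by_contra hcon
        exact hnS ⟨hTR.trans hRQ, hTσ, hcon⟩
      refine hRbad fun r hr => ?_
      have hy : r⁻¹ * σ' (σ' r) ∈ T := subset_closure ⟨r, hr, rfl⟩
      have h1 := hTfix _ hy
      rw [map_mul, map_mul, map_inv, map_inv, hR4] at h1
      have h2 : r⁻¹ * σ' (σ' r) * (r⁻¹ * σ' (σ' r)) = 1 := by
        nth_rw 1 [← h1]
        group
      exact (inv_mul_eq_one.1 (hoddq _ h2)).symm
    have hRp : IsPGroup q R := (isPGroup_pCore q).to_le hRQ
    set D := ⁅R, R⁆ with hD
    have hDR : D ≤ R := commutator_le_self R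
    have hDσ : ∀ x ∈ D, σ' x ∈ D := by
      have h1 : D.map (σ' : (G ⧸ C) →* (G ⧸ C)) ≤ D := by
        rw [hD, map_commutator]
        refine commutator_mono ?_ ?_ <;>
          (rintro _ ⟨x, hx, rfl⟩; exact hRσ x hx)
      exact fun x hx => h1 ⟨x, hx, rfl⟩
    have hRne : R ≠ ⊥ := fun e => hRbad fun x hx => by
      rw [e, mem_bot] at hx; rw [hx, map_one, map_one]
    have hDne : D ≠ R := by
      have := hRp.isNilpotent
      exact (commutator_self_ne_of_solvable hRne inferInstance).ne
    have hDfix : ∀ x ∈ D, σ' (σ' x) = x := by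
      by_contra hcon
      exact hDne (le_antisymm hDR (hRmin ⟨hDR.trans hRQ, hDσ, hcon⟩ hDR))
    have hDc : ∀ c ∈ D, ∀ r ∈ R, Commute c r := by
      intro c hc r hr
      have hR' : R ≤ centralizer ({c} : Set (G ⧸ C)) := by
        rw [← hTR', hT, closure_le]
        rintro _ ⟨r, hr, rfl⟩
        rw [SetLike.mem_coe, mem_centralizer_singleton_iff]
        have hc' : r * c * r⁻¹ ∈ D := (mem_normalizer_iff.1
          (le_normalizer_commutator_left R R hr) c).1 hc
        have h1 := hDfix _ hc'
        rw [map_mul, map_mul, map_mul, map_mul, map_inv, map_inv, hDfix c hc] at h1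
        calc r⁻¹ * σ' (σ' r) * c = r⁻¹ * (σ' (σ' r) * c * (σ' (σ' r))⁻¹) * σ' (σ' r) := by group
          _ = r⁻¹ * (r * c * r⁻¹) * σ' (σ' r) := by rw [h1]
          _ = _ := by group
      exact (mem_centralizer_singleton_iff.1 (hR' hr)).symm
    refine hRbad fun r hr => ?_
    set y := r⁻¹ * σ' (σ' r) with hy
    have hyR : y ∈ R := R.mul_mem (R.inv_mem hr) (hRσ _ (hRσ _ hr))
    have hτy : σ' (σ' y) = y⁻¹ := by
      rw [hy, map_mul, map_mul, map_inv, map_inv, hR4]; group
    set c := ⁅y, σ' y⁆ with hcdef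
    have hcD : c ∈ D := commutator_mem_commutator hyR (hRσ _ hyR)
    have hc1 : c = 1 := hfpf' c (by
      rw [hcdef, map_commutatorElement, hτy]
      calc ⁅σ' y, y⁻¹⁆ = y⁻¹ * (⁅y, σ' y⁆ * y) := by
            rw [commutatorElement_def, commutatorElement_def]; group
        _ = _ := by rw [(hDc _ hcD y hyR).eq, inv_mul_cancel_left])
    obtain ⟨g, hg⟩ := hsurj y
    obtain ⟨i, hi⟩ := IsPGroup.iff_orderOf.1 hRp ⟨y, hyR⟩
    rw [Subgroup.orderOf_mk] at hi
    have hgC : g ∈ C := by
      refine mem_centralizer_of_key hσ hfpf V hVσ g ?_ ?_ (k := orderOf y) ?_ ?_ ?_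
      · refine (QuotientGroup.eq_one_iff _).1 ?_
        show f (σ (σ g) * g) = 1
        rw [map_mul, hf, ← hσf, ← hσf, ← hf, hg, hτy, inv_mul_cancel]
      · refine (QuotientGroup.eq_one_iff _).1 ?_
        show f ⁅g, σ g⁆ = 1
        rw [map_commutatorElement, hf, ← hσf, ← hf, hg, ← hcdef, hc1]
      · refine (QuotientGroup.eq_one_iff _).1 ?_
        show f (g ^ orderOf y) = 1
        rw [map_pow, hg, pow_orderOf_eq_one]
      · exact hodd.of_dvd_nat ((orderOf_dvd_natCard y).trans (card_quotient_dvd_card C))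
      · obtain ⟨j, hj⟩ := IsPGroup.iff_card.1 hVp
        rw [hi, hj]
        exact Nat.Coprime.pow _ _ ((Nat.coprime_primes hq hp.out).2 hqp)
    have hy1 : r⁻¹ * σ' (σ' r) = 1 := by
      rw [← hy, ← hg]; exact (QuotientGroup.eq_one_iff g).2 hgC
    exact (inv_mul_eq_one.1 hy1).symm
  -- hence on the Fitting subgroup
  let τ : (G ⧸ C) →* (G ⧸ C) := (σ' : (G ⧸ C) →* (G ⧸ C)).comp (σ' : (G ⧸ C) →* (G ⧸ C))
  have hF : Cfsg.fittingSubgroup (G ⧸ C) ≤ τ.eqLocus (MonoidHom.id _) := by
    rw [fitting_eq_iSup_pCore]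
    exact iSup_le fun q x hx => hQfix q q.2 x hx
  have hall : ∀ x : G ⧸ C, σ' (σ' x) = x := by
    intro x
    set y := x⁻¹ * σ' (σ' x) with hy
    have hyC : y ∈ centralizer (Cfsg.fittingSubgroup (G ⧸ C) : Set (G ⧸ C)) := by
      rw [mem_centralizer_iff]
      intro z hz
      have hzx : x * z * x⁻¹ ∈ Cfsg.fittingSubgroup (G ⧸ C) :=
        (inferInstance : (Cfsg.fittingSubgroup (G ⧸ C)).Normal).conj_mem z hz x
      have e1 : σ' (σ' z) = z := hF hz
      have e2 : σ' (σ' (x * z * x⁻¹)) = x * z * x⁻¹ := hF hzx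
      rw [map_mul, map_mul, map_mul, map_mul, map_inv, map_inv, e1] at e2
      calc z * y = x⁻¹ * (x * z * x⁻¹) * σ' (σ' x) := by rw [hy]; group
        _ = x⁻¹ * (σ' (σ' x) * z * (σ' (σ' x))⁻¹) * σ' (σ' x) := by rw [e2]
        _ = _ := by rw [hy]; group
    have hyF := centralizer_fitting_le hyC
    have h1 : σ' (σ' y) = y := hF hyF
    rw [hy, map_mul, map_mul, map_inv, map_inv, pow_four_apply hσ'4] at h1
    have h2 : x⁻¹ * σ' (σ' x) * (x⁻¹ * σ' (σ' x)) = 1 := by
      nth_rw 1 [← h1]
      group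
    exact (inv_mul_eq_one.1 (hoddq _ h2)).symm
  have hinv' : ∀ x : G ⧸ C, σ' x = x⁻¹ := by
    intro x
    obtain ⟨z, -, hz⟩ := fpf_surj hfpf' (⊤ : Subgroup (G ⧸ C)) (fun _ _ => mem_top _) (mem_top x)
    rw [← hz, map_mul, map_inv, hall, mul_inv_rev, inv_inv]
  rw [_root_.commutator_def, commutator_le]
  intro u _ v _
  refine (QuotientGroup.eq_one_iff _).1 ?_
  show f ⁅u, v⁆ = 1
  rw [map_commutatorElement, commutatorElement_eq_one_iff_commute]
  show f u * f v = f v * f u
  have e := hinv' ((f u)⁻¹ * (f v)⁻¹)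
  rw [map_mul, map_inv, map_inv, hinv', hinv', inv_inv, inv_inv, mul_inv_rev, inv_inv, inv_inv] at e
  exact e

/-- The derived subgroup is nilpotent. -/
theorem derived_nilpotent : ∀ (n : ℕ) (G : Type u) [Group G] [Finite G] [Group.IsSolvable G],
    Nat.card G ≤ n → ∀ σ : MulAut G, σ ^ 4 = 1 → (∀ g : G, σ g = g → g = 1) →
      Group.IsNilpotent ↥(_root_.commutator G) := by
  intro n
  induction n with
  | zero => intro G _ _ _ hn; exact absurd hn (Nat.not_le.2 Nat.card_pos)
  | succ n ih =>
    intro G _ _ _ hn σ hσ hfpf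
    by_cases hs : Subsingleton G
    · infer_instance
    have : Nontrivial G := not_subsingleton_iff_nontrivial.1 hs
    let S : Set (Subgroup G) := {U | U.Normal ∧ (∀ x ∈ U, σ x ∈ U) ∧ U ≠ ⊥}
    obtain ⟨V, ⟨hVn, hVσ, hVne⟩, hVmin⟩ :=
      (Set.toFinite S).exists_minimal ⟨⊤, inferInstance, fun _ _ => mem_top _, top_ne_bot⟩
    have hmin : ∀ U : Subgroup G, U.Normal → (∀ x ∈ U, σ x ∈ U) → U ≤ V → U = ⊥ ∨ U = V :=
      fun U hU hUσ hle => or_iff_not_imp_left.2 fun hne =>
        le_antisymm hle (hVmin ⟨hU, hUσ, hne⟩ hle)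
    have hVs : Group.IsSolvable V := inferInstance
    have hVc : IsMulCommutative V := by
      rcases hmin ⁅V, V⁆ inferInstance (fun x hx => by
        have h1 : (⁅V, V⁆ : Subgroup G).map (σ : G →* G) ≤ ⁅V, V⁆ := by
          rw [map_commutator]
          refine commutator_mono ?_ ?_ <;> (rintro _ ⟨z, hz, rfl⟩; exact hVσ z hz)
        exact h1 ⟨x, hx, rfl⟩) (commutator_le_self V) with h | h
      · exact ⟨⟨fun a b => Subtype.ext
          (mem_centralizer_iff.1 (commutator_eq_bot_iff_le_centralizer.1 h b.2) a a.2)⟩⟩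
      · exact absurd h (commutator_self_ne_of_solvable hVne hVs).ne
    obtain ⟨p, hp, hpd⟩ := Nat.exists_prime_and_dvd ((one_lt_card_iff_ne_bot V).2 hVne).ne'
    have := Fact.mk hp
    let K : Subgroup G :=
      { carrier := {x | x ∈ V ∧ x ^ p = 1}
        one_mem' := ⟨V.one_mem, one_pow p⟩
        inv_mem' := fun {x} hx => ⟨V.inv_mem hx.1, by rw [inv_pow, hx.2, inv_one]⟩
        mul_mem' := fun {x y} hx hy => ⟨V.mul_mem hx.1 hy.1, by
          rw [(show Commute x y from setLike_mul_comm hx.1 hy.1).mul_pow, hx.2, hy.2, one_mul]⟩ }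
    have hKn : K.Normal := ⟨fun x hx g => ⟨hVn.conj_mem x hx.1 g, by
      rw [← MulAut.conj_apply, ← map_pow, hx.2, map_one]⟩⟩
    have hKV : K = V := (hmin K hKn (fun x hx => ⟨hVσ x hx.1, by rw [← map_pow, hx.2, map_one]⟩)
      (fun x hx => hx.1)).resolve_left fun hb => by
        obtain ⟨x, hx⟩ := exists_prime_orderOf_dvd_card' p hpd
        have hxK : (x : G) ∈ K := ⟨x.2, orderOf_dvd_iff_pow_eq_one.1
          (dvd_of_eq (by rw [Subgroup.orderOf_coe, hx]))⟩
        rw [hb, mem_bot, OneMemClass.coe_eq_one] at hxK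
        rw [hxK, orderOf_one] at hx
        exact hp.ne_one hx.symm
    have hVp : IsPGroup p V := fun x => ⟨1, Subtype.ext (by
      rw [pow_one]; exact (hKV.ge x.2).2)⟩
    have hcent := commutator_le_centralizer hσ hfpf V hVσ hVp hVne hmin
    obtain ⟨σ', -, h4, hf'⟩ := exists_quotient_aut hσ hfpf V hVσ
    have hlt : Nat.card (G ⧸ V) < Nat.card G := by
      have h1 := card_eq_card_quotient_mul_card_subgroup V
      have h2 : 1 < Nat.card V := (one_lt_card_iff_ne_bot V).2 hVne
      have h3 : 0 < Nat.card (G ⧸ V) := Nat.card_pos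
      nlinarith
    have hnil := ih (G ⧸ V) (by omega) σ' h4 hf'
    set f := QuotientGroup.mk' V with hf
    have hmap : (_root_.commutator G).map f = _root_.commutator (G ⧸ V) := by
      rw [_root_.commutator_def, _root_.commutator_def, map_commutator,
        map_top_of_surjective f (QuotientGroup.mk'_surjective V)]
    rw [← hmap] at hnil
    refine Subgroup.isNilpotent_of_ker_le_center (f.subgroupMap (_root_.commutator G)) ?_
    intro x hx
    rw [mem_center_iff]
    intro y
    have hxV : (x : G) ∈ V := (QuotientGroup.eq_one_iff _).1 (congrArg Subtype.val hx)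
    exact Subtype.ext ((mem_centralizer_iff.1 (hcent y.2)) _ hxV).symm

end Cfsg.Lib.Solv.FpfFour
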