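import Mathlib
import Cfsg.Prelude.Def_Solvable
import Cfsg.Agent.Lib.Solv.Frobenius

/-!
Frobenius complements are exactly the groups with an integral fixed point free representation.
-/

set_option autoImplicit false
set_option linter.style.haveILetI false
set_option linter.unusedVariables false

open scoped Classical Kronecker

namespace Cfsg.Lib.Solv.FrobRep

universe u v

variable {X : Type u} [Group X]

/-- A matrix representation killing the sums over the powers of each element of prime order. -/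
def IntFpf (X : Type u) [Group X] : Prop :=
  ∃ (n : ℕ) (ρ : X →* Matrix (Fin n) (Fin n) ℤ), 0 < n ∧
    ∀ a : X, (orderOf a).Prime → ∑ i ∈ Finset.range (orderOf a), ρ (a ^ i) = 0

/-- The kernel of reduction of a unit modulo `q` is a `q`-element. -/
theorem pow_eq_one_of_congr {q k : ℕ} {R : Type*} [Ring R] (hR : ((q : R) ^ (k + 1)) = 0) {u : R}
    (hu : ∃ w : R, u - 1 = q * w) : u ^ q ^ k = 1 := by
  have key : ∀ j : ℕ, ∃ w : R, u ^ q ^ j - 1 = (q : R) ^ (j + 1) * w := by
    intro j
    induction j with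
    | zero => simpa using hu
    | succ j ih =>
      obtain ⟨w, hw⟩ := ih
      set c := u ^ q ^ j with hc
      have h1 : ∀ i : ℕ, ∃ t : R, c ^ i = 1 + (q : R) * t := by
        intro i
        induction i with
        | zero => exact ⟨0, by simp⟩
        | succ i ihi =>
          obtain ⟨t, ht⟩ := ihi
          obtain ⟨s, hs⟩ : ∃ s : R, c = 1 + (q : R) * s := ⟨(q : R) ^ j * w, by
            rw [← mul_assoc, ← pow_succ', ← hw, add_sub_cancel]⟩
          refine ⟨t + s + t * ((q : R) * s), ?_⟩
          rw [pow_succ, ht]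
          conv_lhs => rw [hs]
          simp only [add_mul, mul_add, one_mul, mul_one, mul_assoc]
          abel
      choose t ht using h1
      refine ⟨w * (1 + ∑ i ∈ Finset.range q, t i), ?_⟩
      rw [pow_succ, pow_mul, ← hc, ← mul_geom_sum, hw, Finset.sum_congr rfl fun i _ => ht i,
        Finset.sum_add_distrib, Finset.sum_const, Finset.card_range, nsmul_one, ← Finset.mul_sum,
        show (q : R) + (q : R) * ∑ i ∈ Finset.range q, t i = (q : R) * (1 + ∑ i ∈ Finset.range q, t i)
          by rw [mul_add, mul_one]]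
      rw [mul_assoc, ← mul_assoc w, (Nat.cast_commute q w).symm.eq, mul_assoc, ← mul_assoc,
        ← pow_succ]
  obtain ⟨w, hw⟩ := key k
  rwa [hR, zero_mul, sub_eq_zero] at hw

/-- A fixed point free representation over a prime field lifts modulo every power of the prime. -/
theorem exists_lift [Finite X] {q : ℕ} [hq : Fact q.Prime] (hcop : (Nat.card X).Coprime q) {n : ℕ}
    (ρ : X →* Matrix (Fin n) (Fin n) (ZMod q))
    (hσ : ∀ a : X, (orderOf a).Prime → ∑ i ∈ Finset.range (orderOf a), ρ (a ^ i) = 0) (k : ℕ) :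
    ∃ ψ : X →* Matrix (Fin n) (Fin n) (ZMod (q ^ (k + 1))),
      ∀ a : X, (orderOf a).Prime → ∑ i ∈ Finset.range (orderOf a), ψ (a ^ i) = 0 := by
  haveI : NeZero (q ^ (k + 1)) := ⟨pow_ne_zero _ hq.out.ne_zero⟩
  set M := Matrix (Fin n) (Fin n) (ZMod (q ^ (k + 1)))
  have hdvd : q ∣ q ^ (k + 1) := dvd_pow_self q (Nat.succ_ne_zero k)
  let f : ZMod (q ^ (k + 1)) →+* ZMod q := ZMod.castHom hdvd (ZMod q)
  let π : M →+* Matrix (Fin n) (Fin n) (ZMod q) := f.mapMatrix
  have hsurj : Function.Surjective π := by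
    intro A
    refine ⟨A.map fun x => (x.val : ZMod (q ^ (k + 1))), ?_⟩
    ext i j
    show f ((A i j).val : ZMod (q ^ (k + 1))) = A i j
    rw [map_natCast, ZMod.natCast_zmod_val]
  have hker : ∀ A : M, π A = 0 → ∃ W : M, A = (q : M) * W := by
    intro A hA
    have h : ∀ i j, ∃ w : ZMod (q ^ (k + 1)), A i j = (q : ZMod (q ^ (k + 1))) * w := fun i j => by
      have h1 : f (A i j) = 0 := congrFun (congrFun hA i) j
      rw [← ZMod.natCast_zmod_val (A i j), map_natCast, ZMod.natCast_eq_zero_iff] at h1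
      obtain ⟨c, hc⟩ := h1
      exact ⟨(c : ZMod (q ^ (k + 1))), by rw [← Nat.cast_mul, ← hc, ZMod.natCast_zmod_val]⟩
    choose w hw using h
    refine ⟨Matrix.of w, ?_⟩
    rw [← nsmul_eq_mul]
    ext i j
    rw [Matrix.smul_apply, nsmul_eq_mul, hw i j]
    rfl
  have hR : ((q : M) ^ (k + 1)) = 0 := by
    rw [← Nat.cast_pow, ← map_natCast (Matrix.scalar (Fin n)), ZMod.natCast_self, map_zero]
  have hnil : ∀ W : M, IsNilpotent ((q : M) * W) := fun W =>
    ⟨k + 1, by rw [(Nat.cast_commute q W).mul_pow, hR, zero_mul]⟩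
  -- the group of pairs
  let ρ' : X →* (Matrix (Fin n) (Fin n) (ZMod q))ˣ := ρ.toHomUnits
  let π' : Mˣ →* (Matrix (Fin n) (Fin n) (ZMod q))ˣ := Units.map π.toMonoidHom
  have hπ' : Function.Surjective π' := by
    intro u
    obtain ⟨A, hA⟩ := hsurj u
    obtain ⟨B, hB⟩ := hsurj ((u⁻¹ : (Matrix (Fin n) (Fin n) (ZMod q))ˣ) : Matrix (Fin n) (Fin n) (ZMod q))
    have hAB : IsUnit (A * B) := by
      obtain ⟨W, hW⟩ := hker (A * B - 1) (by rw [map_sub, map_mul, hA, hB, map_one, Units.mul_inv, sub_self])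
      rw [← sub_add_cancel (A * B) 1, hW]
      exact (hnil W).isUnit_add_one
    have hAu : IsUnit A := by
      rw [Matrix.isUnit_iff_isUnit_det] at hAB ⊢
      rw [Matrix.det_mul] at hAB
      exact isUnit_of_mul_isUnit_left hAB
    exact ⟨hAu.unit, Units.ext hA⟩
  let E : Subgroup (Mˣ × X) :=
    MonoidHom.eqLocus (π'.comp (MonoidHom.fst _ _)) (ρ'.comp (MonoidHom.snd _ _))
  haveI : Finite (Mˣ × X) := inferInstance
  let p2 : E →* X := (MonoidHom.snd _ _).comp E.subtype
  have hp2 : Function.Surjective p2 := fun a => by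
    obtain ⟨w, hw⟩ := hπ' (ρ' a)
    exact ⟨⟨(w, a), hw⟩, rfl⟩
  have hkerp : IsPGroup q p2.ker := by
    rintro ⟨⟨⟨w, a⟩, he⟩, ha⟩
    refine ⟨k, ?_⟩
    have ha1 : a = 1 := ha
    subst ha1
    have he' : π (w : M) = 1 := by
      have := congrArg Units.val (he : π' w = ρ' 1)
      simpa [π', ρ'] using this
    obtain ⟨W, hW⟩ := hker ((w : M) - 1) (by rw [map_sub, he', map_one, sub_self])
    have h1 := pow_eq_one_of_congr hR ⟨W, hW⟩
    refine Subtype.ext (Subtype.ext (Prod.ext (Units.ext ?_) ?_))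
    · simpa using h1
    · simp
  obtain ⟨b, hb⟩ := IsPGroup.iff_card.1 hkerp
  have hidx : p2.ker.index = Nat.card X := by
    rw [Subgroup.index_ker, MonoidHom.range_eq_top.2 hp2, Subgroup.card_top]
  obtain ⟨H, hH⟩ := Subgroup.exists_right_complement'_of_coprime (N := p2.ker) (by
    rw [hb, hidx]; exact hcop.symm.pow_left b)
  have hbij : Function.Bijective (p2.comp H.subtype) := by
    refine ⟨?_, fun a => ?_⟩
    · rw [injective_iff_map_eq_one]
      intro x hx
      exact Subtype.ext (Subgroup.mem_bot.1 (hH.disjoint.le_bot ⟨hx, x.2⟩))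
    · obtain ⟨y, rfl⟩ := hp2 a
      have hy : y ∈ p2.ker ⊔ H := by rw [hH.sup_eq_top]; trivial
      obtain ⟨k1, hk1, h1, hh1, rfl⟩ := Subgroup.mem_sup_of_normal_left.1 hy
      exact ⟨⟨h1, hh1⟩, by simp [MonoidHom.mem_ker.1 hk1]⟩
  let e : H ≃* X := MulEquiv.ofBijective _ hbij
  let ψ : X →* M := (Units.coeHom M).comp
    ((MonoidHom.fst Mˣ X).comp (E.subtype.comp (H.subtype.comp e.symm.toMonoidHom)))
  have hψ : ∀ a : X, π (ψ a) = ρ a := by
    intro a
    have h1 : p2 (e.symm a : H) = a := e.apply_symm_apply a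
    have h2 : π' (((e.symm a : H) : E) : Mˣ × X).1 = ρ' (((e.symm a : H) : E) : Mˣ × X).2 :=
      ((e.symm a : H) : E).2
    have h3 := congrArg Units.val h2
    rw [show (((e.symm a : H) : E) : Mˣ × X).2 = a from h1] at h3
    simpa [π', ρ', ψ] using h3
  refine ⟨ψ, fun a ha => ?_⟩
  set r := orderOf a
  set S := ∑ i ∈ Finset.range r, ψ (a ^ i) with hS
  obtain ⟨W, hW⟩ := hker S (by rw [hS, map_sum]; simp only [hψ]; exact hσ a ha)
  have h1 : ψ a * S = S := by
    rw [hS]
    simp only [map_pow]
    have h3 : (ψ a - 1) * ∑ i ∈ Finset.range r, ψ a ^ i = 0 := by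
      rw [mul_geom_sum, ← map_pow, pow_orderOf_eq_one, map_one, sub_self]
    rwa [sub_mul, one_mul, sub_eq_zero] at h3
  have h2 : ∀ i : ℕ, ψ (a ^ i) * S = S := by
    intro i
    induction i with
    | zero => simp
    | succ i ih => rw [pow_succ a, map_mul, mul_assoc, h1, ih]
  have hSS : S * S = (r : M) * S := by
    nth_rw 1 [hS]
    rw [Finset.sum_mul, Finset.sum_congr rfl fun i _ => h2 i, Finset.sum_const, Finset.card_range,
      nsmul_eq_mul]
  have hru : IsUnit (r : M) := by
    have : IsUnit (r : ZMod (q ^ (k + 1))) := by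
      rw [ZMod.isUnit_iff_coprime]
      exact (Nat.Coprime.coprime_dvd_left (orderOf_dvd_natCard a) hcop).pow_right _
    rw [← map_natCast (Matrix.scalar (Fin n))]
    exact this.map _
  have hu : IsUnit ((r : M) + -S) :=
    IsNilpotent.isUnit_add_left_of_commute ((hW ▸ hnil W : IsNilpotent S).neg) hru
      ((Nat.commute_cast S r).neg_left)
  have h0 : ((r : M) + -S) * S = 0 := by rw [add_mul, neg_mul, hSS, add_neg_cancel]
  exact (IsUnit.mul_right_eq_zero hu).1 h0

theorem sigma_ne_of_lift [Finite X] {q : ℕ} [hq : Fact q.Prime] (hcop : (Nat.card X).Coprime q) {n : ℕ}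
    (hn : 0 < n) (ρ : X →* Matrix (Fin n) (Fin n) (ZMod q))
    (hσ : ∀ a : X, (orderOf a).Prime → ∑ i ∈ Finset.range (orderOf a), ρ (a ^ i) = 0)
    (N : ℤ) (hN : (N : MonoidAlgebra ℤ X) ∈ Ideal.span
      {x : MonoidAlgebra ℤ X | ∃ a : X, (orderOf a).Prime ∧
        x = ∑ i ∈ Finset.range (orderOf a), MonoidAlgebra.of ℤ X (a ^ i)}) : N = 0 := by
  by_contra hN0
  set k := N.natAbs
  obtain ⟨ψ, hψ⟩ := exists_lift hcop ρ hσ k
  haveI : NeZero n := ⟨hn.ne'⟩
  let Ψ : MonoidAlgebra ℤ X →ₐ[ℤ] Matrix (Fin n) (Fin n) (ZMod (q ^ (k + 1))) :=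
    MonoidAlgebra.lift ℤ _ X ψ
  have hle : Ideal.span {x : MonoidAlgebra ℤ X | ∃ a : X, (orderOf a).Prime ∧
        x = ∑ i ∈ Finset.range (orderOf a), MonoidAlgebra.of ℤ X (a ^ i)} ≤ RingHom.ker Ψ := by
    rw [Ideal.span_le]
    rintro _ ⟨a, ha, rfl⟩
    rw [SetLike.mem_coe, RingHom.mem_ker, map_sum]
    simpa [Ψ, MonoidAlgebra.lift_of] using hψ a ha
  have h0 : Ψ (N : MonoidAlgebra ℤ X) = 0 := hle hN
  rw [map_intCast] at h0
  have h1 := congrFun (congrFun h0 ⟨0, hn⟩) ⟨0, hn⟩
  rw [← map_intCast (Matrix.scalar (Fin n) : ZMod (q ^ (k + 1)) →+* Matrix (Fin n) (Fin n) (ZMod (q ^ (k + 1)))), Matrix.scalar_apply, Matrix.diagonal_apply_eq,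
    Matrix.zero_apply, ZMod.intCast_zmod_eq_zero_iff_dvd] at h1
  have h2 : q ^ (k + 1) ≤ k := Nat.le_of_dvd (Int.natAbs_pos.2 hN0) (Int.natCast_dvd.1 h1)
  have h3 : k + 1 < q ^ (k + 1) := Nat.lt_pow_self hq.out.one_lt
  omega

/-- An integral representation from one over a prime field. -/
theorem intFpf_of_modular [Finite X] {q : ℕ} [hq : Fact q.Prime] (hcop : (Nat.card X).Coprime q)
    {n : ℕ} (hn : 0 < n) (ρ : X →* Matrix (Fin n) (Fin n) (ZMod q))
    (hσ : ∀ a : X, (orderOf a).Prime → ∑ i ∈ Finset.range (orderOf a), ρ (a ^ i) = 0) : IntFpf X := by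
  set R := MonoidAlgebra ℤ X
  set J : Ideal R := Ideal.span {x : R | ∃ a : X, (orderOf a).Prime ∧
        x = ∑ i ∈ Finset.range (orderOf a), MonoidAlgebra.of ℤ X (a ^ i)}
  -- the saturation
  let J' : Ideal R :=
    { carrier := {x : R | ∃ N : ℤ, N ≠ 0 ∧ N • x ∈ J}
      add_mem' := by
        rintro a b ⟨N, hN, ha⟩ ⟨M, hM, hb⟩
        refine ⟨N * M, mul_ne_zero hN hM, ?_⟩
        rw [smul_add]
        refine J.add_mem ?_ ?_
        · rw [mul_comm, mul_smul]; exact zsmul_mem ha M
        · rw [mul_smul]; exact zsmul_mem hb N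
      zero_mem' := ⟨1, one_ne_zero, by simp⟩
      smul_mem' := by
        rintro c x ⟨N, hN, hx⟩
        refine ⟨N, hN, ?_⟩
        rw [smul_eq_mul, ← mul_smul_comm]
        exact J.mul_mem_left c hx }
  set Q := R ⧸ J'
  haveI : Module.Finite ℤ R := Module.Finite.of_basis (MonoidAlgebra.basis X ℤ)
  let mk : R →ₗ[ℤ] Q := (Submodule.mkQ J').restrictScalars ℤ
  haveI : Module.Finite ℤ Q := Module.Finite.of_surjective mk (Submodule.mkQ_surjective J')
  haveI : Module.IsTorsionFree ℤ Q := by
    refine Module.IsTorsionFree.of_smul_eq_zero ?_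
    intro c x hcx
    by_contra! hcon
    obtain ⟨y, rfl⟩ := Submodule.mkQ_surjective J' x
    refine hcon.2 ((Submodule.Quotient.mk_eq_zero J').2 ?_)
    have h1 : (Submodule.mkQ J') (c • y) = 0 := by rw [map_zsmul]; exact hcx
    obtain ⟨N, hN, hm⟩ := (Submodule.Quotient.mk_eq_zero J').1 h1
    exact ⟨N * c, mul_ne_zero hN hcon.1, by rw [mul_smul]; exact hm⟩
  haveI : Module.Free ℤ Q := inferInstance
  let b := Module.finBasis ℤ Q
  let act : X →* Module.End ℤ Q :=
    { toFun := fun a =>
        { toFun := fun x => MonoidAlgebra.of ℤ X a • x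
          map_add' := fun x y => smul_add _ _ _
          map_smul' := fun c x => smul_comm _ c x }
      map_one' := LinearMap.ext fun x => by
        show MonoidAlgebra.of ℤ X 1 • x = x
        rw [map_one, one_smul]
      map_mul' := fun a c => LinearMap.ext fun x => by
        show MonoidAlgebra.of ℤ X (a * c) • x = _
        rw [map_mul, mul_smul]; rfl }
  let μ : X →* Matrix (Fin (Module.finrank ℤ Q)) (Fin (Module.finrank ℤ Q)) ℤ :=
    { toFun := fun a => LinearMap.toMatrixAlgEquiv b (act a)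
      map_one' := by rw [map_one]; exact map_one _
      map_mul' := fun a c => by rw [map_mul]; exact map_mul _ _ _ }
  refine ⟨Module.finrank ℤ Q, μ, ?_, fun a ha => ?_⟩
  · rw [Module.finrank_pos_iff]
    refine ⟨Submodule.mkQ J' 1, 0, fun h => ?_⟩
    obtain ⟨N, hN, hm⟩ := (Submodule.Quotient.mk_eq_zero J').1 h
    rw [zsmul_one] at hm
    exact hN (sigma_ne_of_lift hcop hn ρ hσ N hm)
  · show ∑ i ∈ Finset.range (orderOf a), (LinearMap.toMatrixAlgEquiv b) (act (a ^ i)) = 0
    rw [← map_sum]
    have h0 : ∑ i ∈ Finset.range (orderOf a), act (a ^ i) = 0 := by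
      refine LinearMap.ext fun x => ?_
      rw [LinearMap.sum_apply, LinearMap.zero_apply]
      show ∑ i ∈ Finset.range (orderOf a), MonoidAlgebra.of ℤ X (a ^ i) • x = 0
      rw [← Finset.sum_smul]
      obtain ⟨y, rfl⟩ := Submodule.mkQ_surjective J' x
      show (Submodule.mkQ J') ((∑ i ∈ Finset.range (orderOf a), MonoidAlgebra.of ℤ X (a ^ i)) • y) = 0
      refine (Submodule.Quotient.mk_eq_zero J').2 ⟨1, one_ne_zero, ?_⟩
      rw [one_smul, smul_eq_mul]
      -- the left ideal absorbs the right multiplication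
      induction y using MonoidAlgebra.induction_on with
      | of g =>
        have e : (∑ i ∈ Finset.range (orderOf a), MonoidAlgebra.of ℤ X (a ^ i)) * MonoidAlgebra.of ℤ X g =
            MonoidAlgebra.of ℤ X g *
              ∑ i ∈ Finset.range (orderOf a), MonoidAlgebra.of ℤ X ((g⁻¹ * a * g) ^ i) := by
          rw [Finset.sum_mul, Finset.mul_sum]
          refine Finset.sum_congr rfl fun i _ => ?_
          rw [← map_mul, ← map_mul]
          congr 1
          have := conj_pow (i := i) (a := g⁻¹) (b := a)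
          rw [inv_inv] at this
          rw [this]; group
        rw [e]
        refine J.mul_mem_left _ (Ideal.subset_span ⟨g⁻¹ * a * g, ?_, ?_⟩)
        · have := orderOf_injective (MulAut.conj g⁻¹).toMonoidHom (MulAut.conj g⁻¹).injective a
          simp only [MulEquiv.coe_toMonoidHom, MulAut.conj_apply, inv_inv] at this
          rwa [this]
        · have := orderOf_injective (MulAut.conj g⁻¹).toMonoidHom (MulAut.conj g⁻¹).injective a
          simp only [MulEquiv.coe_toMonoidHom, MulAut.conj_apply, inv_inv] at this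
          rw [this]
      | add f g hf hg => rw [mul_add]; exact J.add_mem hf hg
      | smul r f hf => rw [mul_smul_comm]; exact zsmul_mem hf r
    rw [h0, map_zero]

/-- A Frobenius complement has an integral fixed point free representation. -/
theorem intFpf_of_complement {L : Type v} [Group L] [Finite L] {H : Subgroup L}
    (hH : Cfsg.IsFrobeniusComplement H) (e : X →* H) (he : Function.Injective e) : IntFpf X := by
  obtain ⟨K, hKn, hKset, hc⟩ := exists_frobeniusKernel hH
  obtain ⟨V, hVK, hV1, hVc, hN⟩ := exists_invariant_abelian hH hc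
  haveI := hKn; haveI := hVc
  have hfpf : ∀ h ∈ H, h ≠ 1 → V ⊓ Subgroup.centralizer ({h} : Set L) = ⊥ := fun h hh h1 =>
    le_bot_iff.1 ((inf_le_inf_right _ hVK).trans (frob_fpf hH hc.disjoint.eq_bot hh h1).le)
  have hcop := coprime_of_fpf H V hN hfpf
  obtain ⟨q, hq, hqd⟩ := Nat.exists_prime_and_dvd
    (fun h => hV1 (Subgroup.eq_bot_of_card_eq V h) : Nat.card V ≠ 1)
  haveI := Fact.mk hq
  letI : CommGroup V :=
    { (inferInstance : Group V) with mul_comm := fun a b => IsMulCommutative.is_comm.comm a b }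
  let W : Subgroup V := (powMonoidHom q : V →* V).ker
  haveI : Nontrivial W := by
    obtain ⟨v, hv⟩ := exists_prime_orderOf_dvd_card' (G := V) q hqd
    exact ⟨⟨v, show v ^ q = 1 from hv ▸ pow_orderOf_eq_one v⟩, 1, fun h => by
      rw [show v = 1 from congrArg Subtype.val h, orderOf_one] at hv; exact hq.ne_one hv.symm⟩
  have hexp : ∀ x : Additive W, q • x = 0 := fun x => by
    refine Subtype.ext ?_
    exact (Additive.toMul x).2
  haveI : Module (ZMod q) (Additive W) := AddCommGroup.zmodModule hexp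
  haveI : Module.Finite (ZMod q) (Additive W) := Module.Finite.of_finite
  have hmem : ∀ (h : L), h ∈ H → ∀ v : L, v ∈ V → h * v * h⁻¹ ∈ V := fun h hh v hv =>
    (Subgroup.mem_normalizer_iff.1 (hN hh) v).1 hv
  have hW : ∀ (a : X) (w : W), (⟨(e a : L) * ((w : V) : L) * (e a : L)⁻¹, hmem _ (e a).2 _ (w : V).2⟩ : V) ∈ W := by
    intro a w
    refine Subtype.ext ?_
    show ((e a : L) * ((w : V) : L) * (e a : L)⁻¹) ^ q = 1
    rw [conj_pow, show ((w : V) : L) ^ q = 1 from congrArg Subtype.val (w.2 : (w : V) ^ q = 1)]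
    simp
  let f : X → Module.End (ZMod q) (Additive W) := fun a => AddMonoidHom.toZModLinearMap q
    ({ toFun := fun x => Additive.ofMul (⟨_, hW a (Additive.toMul x)⟩ : W)
       map_zero' := by
         refine congrArg Additive.ofMul (Subtype.ext (Subtype.ext ?_))
         simp
       map_add' := fun x y => by
         refine congrArg Additive.ofMul (Subtype.ext (Subtype.ext ?_))
         simp [mul_assoc] } : Additive W →+ Additive W)
  have hfv : ∀ (a : X) (x : Additive W), (((Additive.toMul (f a x) : W) : V) : L) =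
      (e a : L) * (((Additive.toMul x : W) : V) : L) * (e a : L)⁻¹ := fun a x => rfl
  have hext : ∀ x y : Additive W, (((Additive.toMul x : W) : V) : L) = ((Additive.toMul y : W) : V) → x = y :=
    fun x y h => congrArg Additive.ofMul (Subtype.ext (Subtype.ext h))
  let act : X →* Module.End (ZMod q) (Additive W) :=
    { toFun := f
      map_one' := LinearMap.ext fun x => hext _ _ (by
        rw [hfv, Module.End.one_apply]; simp)
      map_mul' := fun a c => LinearMap.ext fun x => hext _ _ (by
        rw [hfv, Module.End.mul_apply, hfv, hfv]; simp [mul_assoc]) }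
  haveI : Finite X := Finite.of_injective e he
  let b := Module.finBasis (ZMod q) (Additive W)
  let μ : X →* Matrix (Fin (Module.finrank (ZMod q) (Additive W))) (Fin (Module.finrank (ZMod q) (Additive W))) (ZMod q) :=
    { toFun := fun a => LinearMap.toMatrixAlgEquiv b (act a)
      map_one' := by rw [map_one]; exact map_one _
      map_mul' := fun a c => by rw [map_mul]; exact map_mul _ _ _ }
  refine intFpf_of_modular (q := q) ?_ (n := Module.finrank (ZMod q) (Additive W)) Module.finrank_pos
    μ fun a ha => ?_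
  · exact (Nat.Coprime.coprime_dvd_left (Subgroup.card_dvd_of_injective e he) hcop).coprime_dvd_right hqd
  · show ∑ i ∈ Finset.range (orderOf a), (LinearMap.toMatrixAlgEquiv b) (act (a ^ i)) = 0
    rw [← map_sum]
    have h0 : ∑ i ∈ Finset.range (orderOf a), act (a ^ i) = 0 := by
      refine LinearMap.ext fun x => ?_
      rw [LinearMap.zero_apply]
      set s := (∑ i ∈ Finset.range (orderOf a), act (a ^ i)) x with hs
      have hfix : act a s = s := by
        rw [hs, ← LinearMap.comp_apply]
        refine congrArg (fun T : Module.End (ZMod q) (Additive W) => T x) ?_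
        show act a * _ = _
        simp only [map_pow]
        have h3 : (act a - 1) * ∑ i ∈ Finset.range (orderOf a), act a ^ i = 0 := by
          rw [mul_geom_sum, ← map_pow, pow_orderOf_eq_one, map_one, sub_self]
        rwa [sub_mul, one_mul, sub_eq_zero] at h3
      have he1 : (e a : L) ≠ 1 := fun h => by
        rw [he (show e a = e 1 by rw [map_one]; exact Subtype.ext h), orderOf_one] at ha
        exact Nat.not_prime_one ha
      have hmem' : (((Additive.toMul s : W) : V) : L) ∈ V ⊓ Subgroup.centralizer ({(e a : L)} : Set L) := by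
        refine ⟨((Additive.toMul s : W) : V).2, Subgroup.mem_centralizer_iff.2 ?_⟩
        rintro _ rfl
        have h4 : (e a : L) * (((Additive.toMul s : W) : V) : L) * (e a : L)⁻¹ =
            (((Additive.toMul s : W) : V) : L) :=
          congrArg (fun z : Additive W => (((Additive.toMul z : W) : V) : L)) hfix
        rw [mul_inv_eq_iff_eq_mul] at h4
        exact h4
      rw [hfpf _ (e a).2 he1, Subgroup.mem_bot] at hmem'
      exact congrArg Additive.ofMul (Subtype.ext (Subtype.ext hmem'))
    rw [h0, map_zero]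

/-- An integral fixed point free representation gives a Frobenius group. -/
theorem complement_of_intFpf [Finite X] [Nontrivial X] (h : IntFpf X) :
    ∃ (L : Type) (_ : Group L) (_ : Finite L) (H : Subgroup L),
      Cfsg.IsFrobeniusComplement H ∧ Nonempty (X ≃* H) := by
  obtain ⟨n, ρ, hn, hσ⟩ := h
  obtain ⟨l, hle, hl⟩ := Nat.exists_infinite_primes (Nat.card X + 1)
  haveI := Fact.mk hl
  let ρl : X →* Matrix (Fin n) (Fin n) (ZMod l) :=
    (Int.castRingHom (ZMod l)).mapMatrix.toMonoidHom.comp ρ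
  have hfix : ∀ (x : X), x ≠ 1 → ∀ v : Fin n → ZMod l, Matrix.mulVec (ρl x) v = v → v = 0 := by
    intro x hx v hv
    obtain ⟨r, hr, hrd⟩ := Nat.exists_prime_and_dvd (mt orderOf_eq_one_iff.1 hx)
    set y := x ^ (orderOf x / r)
    have hy : orderOf y = r := orderOf_pow_orderOf_div (orderOf_pos x).ne' hrd
    have hpow : ∀ k : ℕ, Matrix.mulVec (ρl (x ^ k)) v = v := by
      intro k
      induction k with
      | zero => simp
      | succ k ih => rw [pow_succ, map_mul, ← Matrix.mulVec_mulVec, hv, ih]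
    have h0 : ∑ i ∈ Finset.range r, ρl (y ^ i) = 0 := by
      have := congrArg (Int.castRingHom (ZMod l)).mapMatrix (hσ y (hy.symm ▸ hr))
      rw [map_sum, map_zero, hy] at this
      exact this
    have h1 := congrArg (fun T => Matrix.mulVec T v) h0
    simp only [Matrix.sum_mulVec, Matrix.zero_mulVec] at h1
    rw [Finset.sum_congr rfl fun i _ => show Matrix.mulVec (ρl (y ^ i)) v = v by
      rw [← pow_mul]; exact hpow _, Finset.sum_const, Finset.card_range] at h1
    have hr0 : (r : ZMod l) ≠ 0 := by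
      rw [Ne, ZMod.natCast_eq_zero_iff]
      intro hd
      have h5 := Nat.le_of_dvd (hy ▸ orderOf_pos y : 0 < r) hd
      have h6 : r ≤ Nat.card X := hy ▸ Nat.le_of_dvd Nat.card_pos (orderOf_dvd_natCard y)
      omega
    rw [← Nat.cast_smul_eq_nsmul (ZMod l)] at h1
    exact (smul_eq_zero.1 h1).resolve_left hr0
  let V := Multiplicative (Fin n → ZMod l)
  let ψ : X →* MulAut V :=
    { toFun := fun x => AddEquiv.toMultiplicative
        { toFun := fun v => Matrix.mulVec (ρl x) v
          invFun := fun v => Matrix.mulVec (ρl x⁻¹) v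
          left_inv := fun v => by simp only [Matrix.mulVec_mulVec, ← map_mul, inv_mul_cancel, map_one, Matrix.one_mulVec]
          right_inv := fun v => by simp only [Matrix.mulVec_mulVec, ← map_mul, mul_inv_cancel, map_one, Matrix.one_mulVec]
          map_add' := fun v w => Matrix.mulVec_add _ v w }
      map_one' := MulEquiv.ext fun v => by
        show Multiplicative.ofAdd (Matrix.mulVec (ρl 1) (Multiplicative.toAdd v)) = v
        simp
      map_mul' := fun x y => MulEquiv.ext fun v => by
        show Multiplicative.ofAdd (Matrix.mulVec (ρl (x * y)) (Multiplicative.toAdd v)) =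
          Multiplicative.ofAdd (Matrix.mulVec (ρl x) (Matrix.mulVec (ρl y) (Multiplicative.toAdd v)))
        rw [Matrix.mulVec_mulVec, map_mul] }
  have hψfix : ∀ x : X, x ≠ 1 → ∀ v : V, ψ x v = v → v = 1 := fun x hx v hv =>
    congrArg Multiplicative.ofAdd (hfix x hx (Multiplicative.toAdd v) (congrArg Multiplicative.toAdd hv))
  have hψinj : Function.Injective ψ := by
    rw [injective_iff_map_eq_one]
    intro x hx
    by_contra hx1
    have : (Multiplicative.ofAdd (Function.const (Fin n) (1 : ZMod l)) : V) = 1 :=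
      hψfix x hx1 _ (by rw [hx]; rfl)
    exact one_ne_zero (congrFun (congrArg Multiplicative.toAdd this) ⟨0, hn⟩)
  let Rg := ψ.range
  let L := SemidirectProduct V Rg Rg.subtype
  haveI : Finite L := Finite.of_equiv _ SemidirectProduct.equivProd.symm
  let H : Subgroup L := (SemidirectProduct.inr : Rg →* L).range
  let K : Subgroup L := (SemidirectProduct.inl : V →* L).range
  haveI hKn : K.Normal := by
    show ((SemidirectProduct.inl : V →* L).range).Normal
    rw [SemidirectProduct.range_inl_eq_ker_rightHom]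
    infer_instance
  have hdisj : K ⊓ H = ⊥ := by
    rw [eq_bot_iff]
    rintro x ⟨⟨v, rfl⟩, g, hg⟩
    have h1 := congrArg SemidirectProduct.right hg
    simp only [SemidirectProduct.right_inr, SemidirectProduct.right_inl] at h1
    rw [Subgroup.mem_bot, ← hg, h1, map_one]
  have hc : K.IsComplement' H := by
    refine Subgroup.isComplement'_of_card_mul_and_disjoint ?_ (disjoint_iff.2 hdisj)
    rw [Nat.card_congr SemidirectProduct.equivProd, Nat.card_prod,
      Nat.card_congr (MonoidHom.ofInjective (SemidirectProduct.inl_injective : Function.Injective (SemidirectProduct.inl : V →* L))).toEquiv,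
      Nat.card_congr (MonoidHom.ofInjective (SemidirectProduct.inr_injective : Function.Injective (SemidirectProduct.inr : Rg →* L))).toEquiv]
  have hK : K ≠ ⊥ := fun h => by
    have h1 : (SemidirectProduct.inl (Multiplicative.ofAdd (Function.const (Fin n) (1 : ZMod l))) : L) ∈ K :=
      ⟨_, rfl⟩
    rw [h, Subgroup.mem_bot] at h1
    have h2 := congrArg SemidirectProduct.left h1
    exact one_ne_zero (congrFun (congrArg Multiplicative.toAdd h2) ⟨0, hn⟩)
  have hH : H ≠ ⊥ := fun h => by
    obtain ⟨x, hx⟩ := exists_ne (1 : X)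
    have h1 : (SemidirectProduct.inr (⟨ψ x, x, rfl⟩ : Rg) : L) ∈ H := ⟨_, rfl⟩
    rw [h, Subgroup.mem_bot] at h1
    have h2 := congrArg (fun z : L => (z.right : MulAut V)) h1
    exact hx (hψinj (h2.trans (map_one ψ).symm))
  refine ⟨L, inferInstance, inferInstance, H, isFrobeniusComplement_of_fpf hc hK hH ?_,
    ⟨(MonoidHom.ofInjective hψinj).trans (MonoidHom.ofInjective (SemidirectProduct.inr_injective : Function.Injective (SemidirectProduct.inr : Rg →* L)))⟩⟩
  rintro _ ⟨⟨_, x, rfl⟩, rfl⟩ hne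
  have hx : x ≠ 1 := by
    rintro rfl
    refine hne ?_
    rw [← map_one (SemidirectProduct.inr : Rg →* L)]
    exact congrArg _ (Subtype.ext (map_one ψ))
  rw [eq_bot_iff]
  rintro _ ⟨⟨v, rfl⟩, hcen⟩
  have h1 := Subgroup.mem_centralizer_iff.1 hcen _ (Set.mem_singleton _)
  have h2 := congrArg SemidirectProduct.left h1
  replace h2 : (1 : V) * ψ x v = v * (Rg.subtype 1) 1 := h2
  simp only [one_mul, map_one, MulAut.one_apply, mul_one] at h2
  rw [Subgroup.mem_bot, hψfix x hx v h2, map_one]

/-- Direct products of coprime order. -/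
theorem intFpf_prod {Y : Type v} [Group Y] [Finite X] [Finite Y] (hX : IntFpf X) (hY : IntFpf Y)
    (hcop : (Nat.card X).Coprime (Nat.card Y)) : IntFpf (X × Y) := by
  obtain ⟨n, ρ, hn, hρ⟩ := hX
  obtain ⟨m, τ, hm, hτ⟩ := hY
  let e : Fin n × Fin m ≃ Fin (n * m) := finProdFinEquiv
  let φ : X × Y →* Matrix (Fin (n * m)) (Fin (n * m)) ℤ :=
    (Matrix.reindexAlgEquiv ℤ ℤ e).toMonoidHom.comp
      { toFun := fun z => ρ z.1 ⊗ₖ τ z.2
        map_one' := by simp
        map_mul' := fun z w => by simp [Matrix.mul_kronecker_mul] }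
  refine ⟨n * m, φ, Nat.mul_pos hn hm, fun z hz => ?_⟩
  show ∑ i ∈ Finset.range (orderOf z), (Matrix.reindexAlgEquiv ℤ ℤ e) (ρ (z ^ i).1 ⊗ₖ τ (z ^ i).2) = 0
  rw [← map_sum]
  have hord : orderOf z = Nat.lcm (orderOf z.1) (orderOf z.2) := Prod.orderOf z
  have h0 : ∑ i ∈ Finset.range (orderOf z), ρ (z ^ i).1 ⊗ₖ τ (z ^ i).2 = 0 := by
    rcases (Nat.dvd_prime hz).1 (hord ▸ Nat.dvd_lcm_left (orderOf z.1) (orderOf z.2) : orderOf z.1 ∣ orderOf z) with h1 | h1
    · have hz1 : z.1 = 1 := orderOf_eq_one_iff.1 h1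
      have hz2 : orderOf z.2 = orderOf z := by rw [hord, h1, Nat.lcm_one_left]
      simp only [Prod.pow_fst, Prod.pow_snd, hz1, one_pow, map_one]
      rw [← hz2]
      have hs := hτ z.2 (hz2 ▸ hz)
      ext i j
      have h5 := congrFun (congrFun hs i.2) j.2
      simp only [Matrix.sum_apply, Matrix.zero_apply] at h5 ⊢
      simp only [Matrix.kroneckerMap_apply]
      rw [← Finset.mul_sum, h5, mul_zero]
    · have hz2 : z.2 = 1 := by
        refine orderOf_eq_one_iff.1 (Nat.eq_one_of_dvd_coprimes hcop ?_ (orderOf_dvd_natCard z.2))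
        refine (dvd_trans ?_ (h1 ▸ orderOf_dvd_natCard z.1 : orderOf z ∣ Nat.card X))
        rw [hord]; exact Nat.dvd_lcm_right _ _
      simp only [Prod.pow_fst, Prod.pow_snd, hz2, one_pow, map_one]
      rw [← h1]
      have hs := hρ z.1 (h1 ▸ hz)
      ext i j
      have h5 := congrFun (congrFun hs i.1) j.1
      simp only [Matrix.sum_apply, Matrix.zero_apply] at h5 ⊢
      simp only [Matrix.kroneckerMap_apply]
      rw [← Finset.sum_mul, h5, zero_mul]
  rw [h0, map_zero]

end Cfsg.Lib.Solv.FrobRep
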