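import Mathlib

/-!
# Linear algebra for the Hall–Higman theorem B

* `exists_cyclic`: over an infinite field some vector has annihilator the minimal polynomial.
* `sq_le_centralizer_mul`: the centralizer of an endomorphism of an `N`-dimensional space with
  minimal polynomial of degree `r` has dimension at least `N ^ 2 / r`.
* `centralizer_le_of_monomial`: the centralizer of an endomorphism permuting a basis of the
  endomorphism ring monomially, all orbits but one of size `P`.
-/

set_option autoImplicit false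

namespace Cfsg.Lib.Solv.HH

open Module Polynomial

variable {K : Type*} [Field K] {V : Type*} [AddCommGroup V] [Module K V]

/-- The endomorphisms commuting with `T`. -/
def comm (T : End K V) : Submodule K (End K V) where
  carrier := {X | X * T = T * X}
  add_mem' := fun {a b} (ha : a * T = T * a) (hb : b * T = T * b) => by
    show (a + b) * T = T * (a + b)
    rw [add_mul, mul_add, ha, hb]
  zero_mem' := by simp
  smul_mem' := fun c X (hX : X * T = T * X) => by
    show (c • X) * T = T * (c • X)
    rw [smul_mul_assoc, mul_smul_comm, hX]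

theorem mem_comm {T X : End K V} : X ∈ comm T ↔ ∀ x, X (T x) = T (X x) :=
  ⟨fun h x => congr($h x), fun h => LinearMap.ext h⟩

/-- The orbit of `v` up to `r` is linearly independent. -/
def Indep (T : End K V) (v : V) (r : ℕ) : Prop :=
  LinearIndependent K fun i : Fin r => (T ^ (i : ℕ)) v

/-- Over an infinite field some vector has the minimal polynomial as annihilator. -/
theorem exists_annihilator [Infinite K] [FiniteDimensional K V] (T : End K V) :
    ∃ v : V, ∀ f : K[X], aeval T f v = 0 → minpoly K T ∣ f := by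
  classical
  have hint : IsIntegral K T := Algebra.IsIntegral.isIntegral T
  set μ := minpoly K T with hμ
  have hμ0 : μ ≠ 0 := minpoly.ne_zero hint
  let S := (UniqueFactorizationMonoid.normalizedFactors μ).toFinset
  have hg : ∀ a : S, ∃ g : K[X], μ = a.1 * g ∧ LinearMap.ker (aeval T g) ≠ ⊤ := by
    intro a
    have ha := Multiset.mem_toFinset.1 a.2
    obtain ⟨g, hg⟩ := UniqueFactorizationMonoid.dvd_of_mem_normalizedFactors ha
    refine ⟨g, hg, fun htop => ?_⟩
    have hg0 : aeval T g = 0 := LinearMap.ker_eq_top.1 htop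
    have hgd : μ ∣ g := minpoly.dvd K T hg0
    have hirr := UniqueFactorizationMonoid.irreducible_of_normalized_factor _ ha
    have : a.1 * g ∣ 1 * g := by rwa [one_mul, ← hg]
    have hgne : g ≠ 0 := fun h => hμ0 (by rw [hg, h, mul_zero])
    exact hirr.not_isUnit (isUnit_of_dvd_one ((mul_dvd_mul_iff_right hgne).1 this))
  choose g hg hgt using hg
  obtain ⟨v, hv⟩ := Submodule.exists_forall_notMem_of_forall_ne_top
    (fun a : S => LinearMap.ker (aeval T (g a))) hgt
  refine ⟨v, fun f hf => ?_⟩
  have hd : aeval T (EuclideanDomain.gcd f μ) v = 0 := by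
    rw [EuclideanDomain.gcd_eq_gcd_ab f μ, mul_comm f, mul_comm μ, map_add, map_mul, map_mul,
      LinearMap.add_apply, Module.End.mul_apply, Module.End.mul_apply, hf, map_zero, hμ, minpoly.aeval,
      LinearMap.zero_apply, map_zero, add_zero]
  obtain ⟨e, he⟩ := EuclideanDomain.gcd_dvd_right f μ
  by_cases heu : IsUnit e
  · have : μ ∣ EuclideanDomain.gcd f μ := by
      obtain ⟨u, rfl⟩ := heu
      exact ⟨(↑u⁻¹ : K[X]), by conv_rhs => rw [he, mul_assoc, Units.mul_inv, mul_one]⟩
    exact this.trans (EuclideanDomain.gcd_dvd_left f μ)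
  · have he0 : e ≠ 0 := fun h => hμ0 (by rw [he, h, mul_zero])
    obtain ⟨a, ha, hae⟩ := WfDvdMonoid.exists_irreducible_factor heu he0
    obtain ⟨b, hb, hab⟩ := UniqueFactorizationMonoid.exists_mem_normalizedFactors_of_dvd hμ0 ha
      (hae.trans ⟨EuclideanDomain.gcd f μ, by rw [mul_comm]; exact he⟩)
    obtain ⟨c, hc⟩ : b ∣ e := hab.symm.dvd.trans hae
    let a' : S := ⟨b, Multiset.mem_toFinset.2 hb⟩
    have hga : g a' = c * EuclideanDomain.gcd f μ := by
      have h1 : b * g a' = b * (c * EuclideanDomain.gcd f μ) := by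
        rw [← hg a']
        calc μ = EuclideanDomain.gcd f μ * e := he
          _ = b * (c * EuclideanDomain.gcd f μ) := by rw [hc]; ring
      exact mul_left_cancel₀ (UniqueFactorizationMonoid.irreducible_of_normalized_factor _ hb).ne_zero h1
    refine absurd ?_ (hv a')
    rw [LinearMap.mem_ker, hga, map_mul, Module.End.mul_apply, hd, map_zero]

theorem exists_indep [Infinite K] [FiniteDimensional K V] (T : End K V) :
    ∃ v : V, Indep T v (minpoly K T).natDegree := by
  obtain ⟨v, hv⟩ := exists_annihilator T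
  refine ⟨v, Fintype.linearIndependent_iff.2 fun c hc i => ?_⟩
  set f : K[X] := ∑ k : Fin (minpoly K T).natDegree, C (c k) * X ^ (k : ℕ) with hf
  have h0 : aeval T f v = 0 := by
    rw [hf, map_sum, LinearMap.sum_apply]
    simpa [map_mul, aeval_C, Module.algebraMap_end_apply] using hc
  have hdeg : f.degree < (minpoly K T).degree := by
    rw [degree_eq_natDegree (minpoly.ne_zero (Algebra.IsIntegral.isIntegral T))]
    exact lt_of_le_of_lt (degree_sum_le _ _) ((Finset.sup_lt_iff (WithBot.bot_lt_coe _)).2 fun k _ =>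
      lt_of_le_of_lt (degree_C_mul_X_pow_le _ _) (WithBot.coe_lt_coe.2 k.2))
  have hfz : f = 0 := eq_zero_of_dvd_of_degree_lt (hv f h0) hdeg
  have hi : f.coeff i = c i := by
    rw [hf, finset_sum_coeff, Finset.sum_eq_single i]
    · simp
    · intro k _ hk
      rw [coeff_C_mul_X_pow, if_neg (fun h => hk (Fin.ext h.symm))]
    · simp
  simpa [hfz] using hi.symm

/-- `T ^ r` applied to a vector is a combination of the lower iterates. -/
theorem pow_natDegree_apply [FiniteDimensional K V] (T : End K V) (x : V) :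
    (T ^ (minpoly K T).natDegree) x =
      -∑ i ∈ Finset.range (minpoly K T).natDegree, (minpoly K T).coeff i • (T ^ i) x := by
  have h := congr($(minpoly.aeval K T) x)
  rw [aeval_eq_sum_range, Finset.sum_range_succ, Polynomial.Monic.coeff_natDegree
    (minpoly.monic (Algebra.IsIntegral.isIntegral T))] at h
  simp only [LinearMap.add_apply, LinearMap.sum_apply, LinearMap.smul_apply, one_smul,
    LinearMap.zero_apply] at h
  exact eq_neg_of_add_eq_zero_right h

theorem sq_le_aux [Infinite K] : ∀ (N : ℕ) (V : Type u_2) [AddCommGroup V] [Module K V]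
    [FiniteDimensional K V] (T : End K V), finrank K V = N →
    N ^ 2 ≤ (minpoly K T).natDegree * finrank K (comm T) := by
  intro N
  induction N using Nat.strong_induction_on with
  | _ N IH =>
  intro V _ _ _ T hN
  classical
  rcases Nat.eq_zero_or_pos N with rfl | hN0
  · simp
  haveI : Nontrivial V := finrank_pos_iff.1 (hN ▸ hN0)
  set r := (minpoly K T).natDegree with hr
  have hr0 : 0 < r := minpoly.natDegree_pos (Algebra.IsIntegral.isIntegral T)
  obtain ⟨v, hv⟩ := exists_indep T
  rw [← hr] at hv
  -- a functional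
  obtain ⟨φ, hφ⟩ : ∃ φ : Dual K V, ∀ i : Fin r, φ ((T ^ (i : ℕ)) v) = if (i : ℕ) = r - 1 then 1 else 0 := by
    let b := Basis.span hv
    obtain ⟨φ, hφ⟩ := (b.constr K fun i : Fin r => if (i : ℕ) = r - 1 then (1 : K) else 0).exists_extend
    refine ⟨φ, fun i => ?_⟩
    have h1 : φ ((b i : Submodule.span K (Set.range fun i : Fin r => (T ^ (i : ℕ)) v)) : V) =
        (b.constr K fun i : Fin r => if (i : ℕ) = r - 1 then (1 : K) else 0) (b i) := congr($hφ (b i))
    rw [Basis.constr_basis] at h1
    rwa [show (b i : V) = (T ^ (i : ℕ)) v from Basis.coe_span_apply hv i] at h1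
  -- coordinates
  let χ : V →ₗ[K] (Fin r → K) := LinearMap.pi fun k => φ ∘ₗ (T ^ (k : ℕ))
  have hχ : ∀ x k, χ x k = φ ((T ^ (k : ℕ)) x) := fun x k => rfl
  let emb : (Fin r → K) →ₗ[K] V :=
    { toFun := fun c => ∑ i : Fin r, c i • (T ^ (i : ℕ)) v
      map_add' := fun a b => by simp [add_smul, Finset.sum_add_distrib]
      map_smul' := fun a b => by simp [Finset.smul_sum, mul_smul] }
  have hemb : ∀ c, emb c = ∑ i : Fin r, c i • (T ^ (i : ℕ)) v := fun c => rfl
  have hinj : Function.Injective (χ ∘ₗ emb) := by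
    rw [← LinearMap.ker_eq_bot, LinearMap.ker_eq_bot']
    intro c hc
    by_contra hne
    obtain ⟨i0, hi0⟩ := Function.ne_iff.1 hne
    set S := Finset.univ.filter fun i : Fin r => c i ≠ 0 with hS
    have hSne : S.Nonempty := ⟨i0, by simpa [hS] using hi0⟩
    set k := S.max' hSne with hk
    have hck : c k ≠ 0 := (Finset.mem_filter.1 (S.max'_mem hSne)).2
    have hlt : ∀ i, k < i → c i = 0 := fun i hi => by
      by_contra h
      exact absurd (S.le_max' i (by simpa [hS] using h)) (not_le.2 hi)
    have h := congr_fun hc ⟨r - 1 - k, by omega⟩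
    apply hck
    rw [LinearMap.comp_apply, hχ, hemb, map_sum, map_sum, Pi.zero_apply] at h
    rw [Finset.sum_eq_single k] at h
    · rw [map_smul, map_smul, ← Module.End.mul_apply, ← pow_add] at h
      have hkk := hφ ⟨r - 1, by omega⟩
      simp only [if_pos] at hkk
      rwa [show r - 1 - (k : ℕ) + k = r - 1 by omega, hkk, smul_eq_mul, mul_one] at h
    · intro i _ hik
      rcases lt_or_gt_of_ne hik with hlo | hhi
      · rw [map_smul, map_smul, ← Module.End.mul_apply, ← pow_add]
        have hik' : (i : ℕ) < k := hlo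
        have := hφ ⟨r - 1 - k + i, by omega⟩
        rw [if_neg (by simp only; omega)] at this
        rw [this, smul_zero]
      · rw [hlt i hhi, zero_smul, map_zero, map_zero]
    · simp
  let e : (Fin r → K) ≃ₗ[K] (Fin r → K) := LinearEquiv.ofInjectiveEndo _ hinj
  have he : ∀ c, e c = χ (emb c) := fun c => rfl
  -- the projection onto the cyclic subspace
  let P : End K V := emb ∘ₗ e.symm.toLinearMap ∘ₗ χ
  have hχP : ∀ x, χ (P x) = χ x := fun x => by
    show χ (emb (e.symm (χ x))) = χ x
    rw [← he, LinearEquiv.apply_symm_apply]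
  have hPemb : ∀ c, P (emb c) = emb c := fun c => by
    show emb (e.symm (χ (emb c))) = emb c
    rw [← he, LinearEquiv.symm_apply_apply]
  have hTemb : ∀ c, ∃ d, T (emb c) = emb d := by
    intro c
    have hmem : ∀ i : Fin r, ∃ d, T ((T ^ (i : ℕ)) v) = emb d := by
      intro i
      rw [← Module.End.mul_apply, ← pow_succ']
      by_cases hi : (i : ℕ) + 1 < r
      · refine ⟨Pi.single ⟨i + 1, hi⟩ 1, ?_⟩
        rw [hemb, Finset.sum_eq_single ⟨(i : ℕ) + 1, hi⟩]
        · simp
        · intro j _ hj
          simp [Pi.single_eq_of_ne hj]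
        · simp
      · refine ⟨fun j => -(minpoly K T).coeff j, ?_⟩
        have hp := pow_natDegree_apply T v
        rw [← hr] at hp
        rw [show (i : ℕ) + 1 = r by omega, hp, hemb, ← Finset.sum_neg_distrib,
          ← Fin.sum_univ_eq_sum_range]
        simp only [neg_smul]
    choose d hd using hmem
    refine ⟨∑ i, c i • d i, ?_⟩
    rw [hemb c, map_sum, map_sum]
    exact Finset.sum_congr rfl fun i _ => by rw [map_smul, map_smul, hd]
  have hχT : ∀ x y, χ x = χ y → χ (T x) = χ (T y) := by
    intro x y hxy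
    ext k
    rw [hχ, hχ, ← Module.End.mul_apply, ← Module.End.mul_apply, ← pow_succ]
    by_cases hk : (k : ℕ) + 1 < r
    · exact congr_fun hxy ⟨k + 1, hk⟩
    · rw [show (k : ℕ) + 1 = r by omega, hr, pow_natDegree_apply, pow_natDegree_apply, map_neg, map_neg,
        map_sum, map_sum]
      congr 1
      refine Finset.sum_congr rfl fun i hi => ?_
      rw [map_smul, map_smul]
      congr 1
      exact congr_fun hxy ⟨i, Finset.mem_range.1 hi⟩
  have hPT : ∀ x, P (T x) = T (P x) := by
    intro x
    obtain ⟨d, hd⟩ := hTemb (e.symm (χ x))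
    have h1 : T (P x) = emb d := hd
    show emb (e.symm (χ (T x))) = _
    rw [h1, hχT x (P x) (hχP x).symm, h1, ← he, LinearEquiv.symm_apply_apply]
  set U := LinearMap.ker χ with hU
  have hUT : ∀ u ∈ U, T u ∈ U := fun u hu => by
    rw [hU, LinearMap.mem_ker] at hu ⊢
    rw [hχT u 0 (by rw [hu, map_zero]), map_zero, map_zero]
  let T' : End K U := T.restrict hUT
  let πU : V →ₗ[K] U := (LinearMap.id - P).codRestrict U fun x => by
    rw [hU, LinearMap.mem_ker]
    simp [hχP x]
  have hπU : ∀ x, (πU x : V) = x - P x := fun x => rfl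
  have hπUT : ∀ x, πU (T x) = T' (πU x) := fun x => Subtype.ext (by
    show T x - P (T x) = T (x - P x)
    rw [map_sub, hPT])
  have hπU_incl : ∀ u : U, πU u = u := fun u => Subtype.ext (by
    show (u : V) - P u = u
    have : χ (u : V) = 0 := u.2
    simp [P, this])
  -- the equivariant maps out of the cyclic subspace
  let A : V → End K V := fun w =>
    (Fintype.linearCombination K fun i : Fin r => (T ^ (i : ℕ)) w) ∘ₗ e.symm.toLinearMap ∘ₗ χ
  have hA : ∀ w x, A w x = ∑ i : Fin r, e.symm (χ x) i • (T ^ (i : ℕ)) w := fun w x => by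
    simp [A, Fintype.linearCombination_apply]
  have hAT : ∀ w, A w ∈ comm T := by
    intro w
    rw [mem_comm]
    -- write both sides as polynomials in `T` applied to `w`
    intro x
    set c := e.symm (χ x) with hc
    set d := e.symm (χ (T x)) with hd
    have hZ : emb d = T (emb c) := hPT x
    rw [hA, hA, ← hc, ← hd]
    let f : K[X] := (∑ i : Fin r, C (d i) * X ^ (i : ℕ)) - X * ∑ i : Fin r, C (c i) * X ^ (i : ℕ)
    have hev : ∀ y, aeval T f y = (∑ i : Fin r, d i • (T ^ (i : ℕ)) y) - T (∑ i : Fin r, c i • (T ^ (i : ℕ)) y) := by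
      intro y
      simp only [f, map_sub, map_mul, map_sum, aeval_X, aeval_C, map_pow, LinearMap.sub_apply,
        LinearMap.sum_apply, Module.End.mul_apply, Module.algebraMap_end_apply]
    have hf0 : aeval T f = 0 := by
      -- it kills `v`, so all iterates of `v`; hence divisible by the minimal polynomial
      have hfv : aeval T f v = 0 := by rw [hev, ← hemb, ← hemb, hZ, sub_self]
      set g := f %ₘ minpoly K T with hg
      have hmon := minpoly.monic (Algebra.IsIntegral.isIntegral (R := K) T)
      have hfg : aeval T f = aeval T g := by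
        conv_lhs => rw [← modByMonic_add_div f (minpoly K T)]
        rw [map_add, map_mul, minpoly.aeval, zero_mul, add_zero]
      have hgd : g.degree < (minpoly K T).degree := degree_modByMonic_lt f hmon
      have hgv : ∑ i : Fin r, g.coeff i • (T ^ (i : ℕ)) v = 0 := by
        rw [hfg] at hfv
        rw [← hfv]
        by_cases hg0 : g = 0
        · simp [hg0]
        rw [aeval_eq_sum_range' (natDegree_lt_natDegree hg0 hgd), LinearMap.sum_apply,
          Fin.sum_univ_eq_sum_range (fun i => g.coeff i • (T ^ i) v)]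
        rfl
      have hz := Fintype.linearIndependent_iff.1 hv _ hgv
      rw [hfg, show g = 0 from ext fun i => by
        by_cases hi : i < r
        · simpa using hz ⟨i, hi⟩
        · rw [coeff_zero]
          refine coeff_eq_zero_of_degree_lt (lt_of_lt_of_le hgd ?_)
          rw [degree_eq_natDegree hmon.ne_zero]
          exact WithBot.coe_le_coe.2 (not_lt.1 hi), map_zero]
    have := hev w
    rw [hf0, LinearMap.zero_apply] at this
    exact (sub_eq_zero.1 this.symm)
  -- the equivariant maps into the cyclic subspace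
  let ξ : Dual K U → (U →ₗ[K] (Fin r → K)) := fun ψ =>
    LinearMap.pi fun k : Fin r => ψ ∘ₗ (T' ^ (k : ℕ))
  have hξ : ∀ ψ u k, ξ ψ u k = ψ ((T' ^ (k : ℕ)) u) := fun _ _ _ => rfl
  let B : Dual K U → End K V := fun ψ => emb ∘ₗ e.symm.toLinearMap ∘ₗ ξ ψ ∘ₗ πU
  have hB : ∀ ψ x, χ (B ψ x) = ξ ψ (πU x) := fun ψ x => by
    show χ (emb (e.symm (ξ ψ (πU x)))) = _
    rw [← he, LinearEquiv.apply_symm_apply]
  have hBT : ∀ ψ, B ψ ∈ comm T := by
    intro ψ
    rw [mem_comm]
    intro x
    obtain ⟨d, hd⟩ := hTemb (e.symm (ξ ψ (πU x)))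
    have h1 : T (B ψ x) = emb d := hd
    rw [h1]
    show emb (e.symm (ξ ψ (πU (T x)))) = _
    congr 1
    rw [LinearEquiv.symm_apply_eq, he, ← h1]
    ext k
    rw [hξ, hπUT, hχ, ← Module.End.mul_apply, ← Module.End.mul_apply, ← pow_succ, ← pow_succ]
    by_cases hk : (k : ℕ) + 1 < r
    · have := congr_fun (hB ψ x) ⟨k + 1, hk⟩
      rw [hχ, hξ] at this
      exact this.symm
    · have hTU : (T' ^ r) (πU x) = -∑ i ∈ Finset.range r, (minpoly K T).coeff i • (T' ^ i) (πU x) := by
        apply Subtype.ext
        have hp : ∀ i (u : U), ((T' ^ i) u : V) = (T ^ i) (u : V) := fun i u => by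
          rw [Module.End.pow_restrict i]
          rfl
        rw [Submodule.coe_neg, Submodule.coe_sum, hp, hr, pow_natDegree_apply]
        simp [hp]
      rw [show (k : ℕ) + 1 = r by omega, hTU, hr, pow_natDegree_apply, map_neg, map_neg, map_sum, map_sum]
      congr 1
      refine Finset.sum_congr rfl fun i hi => ?_
      rw [map_smul, map_smul]
      congr 1
      have := congr_fun (hB ψ x) ⟨i, Finset.mem_range.1 hi⟩
      rw [hχ, hξ] at this
      exact this.symm
  -- the embedding
  letI : AddCommGroup (End K U) := LinearMap.addCommGroup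
  letI : AddCommGroup (comm T') := Submodule.addCommGroup _
  let Θ : (V × Dual K U) × comm T' →ₗ[K] comm T :=
    { toFun := fun z => ⟨A z.1.1 + B z.1.2 + U.subtype ∘ₗ (z.2 : End K U) ∘ₗ πU,
        add_mem (add_mem (hAT _) (hBT _)) (by
          rw [mem_comm]
          intro x
          show (((z.2 : End K U) (πU (T x)) : U) : V) = T (((z.2 : End K U) (πU x) : U) : V)
          rw [hπUT, mem_comm.1 z.2.2]
          rfl)⟩
      map_add' := fun a b => Subtype.ext (LinearMap.ext fun x => by
        have hBadd : B (a.1.2 + b.1.2) x = B a.1.2 x + B b.1.2 x := by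
          show emb (e.symm (ξ (a.1.2 + b.1.2) (πU x))) = emb (e.symm (ξ a.1.2 (πU x))) + emb (e.symm (ξ b.1.2 (πU x)))
          rw [← map_add, ← map_add]
          rfl
        simp [hA, hBadd, smul_add, Finset.sum_add_distrib]
        abel)
      map_smul' := fun c a => Subtype.ext (LinearMap.ext fun x => by
        have hBsmul : B (c • a.1.2) x = c • B a.1.2 x := by
          show emb (e.symm (ξ (c • a.1.2) (πU x))) = c • emb (e.symm (ξ a.1.2 (πU x)))
          rw [← map_smul, ← map_smul]
          rfl
        simp [hA, hBsmul, Finset.smul_sum, smul_smul, mul_comm]) }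
  have hΘ : Function.Injective Θ := by
    refine (injective_iff_map_eq_zero Θ).2 ?_
    rintro ⟨⟨w, ψ⟩, Y⟩ hz
    have hzx : ∀ x, A w x + B ψ x + ((Y : End K U) (πU x) : V) = 0 := fun x =>
      congr(($hz : End K V) x)
    -- at `v`
    have hv0 : v = emb (Pi.single ⟨0, hr0⟩ 1) := by
      rw [hemb, Finset.sum_eq_single ⟨0, hr0⟩]
      · simp
      · intro j _ hj; simp [Pi.single_eq_of_ne hj]
      · simp
    have hπv : πU v = 0 := Subtype.ext (by rw [hπU, hv0, hPemb, sub_self]; rfl)
    have hw : w = 0 := by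
      have h := hzx v
      have hBv : B ψ v = 0 := by
        show emb (e.symm (ξ ψ (πU v))) = 0
        rw [hπv, map_zero, map_zero, map_zero]
      rw [hBv, hπv, map_zero, add_zero, Submodule.coe_zero, add_zero, hA] at h
      have hs : e.symm (χ v) = Pi.single ⟨0, hr0⟩ 1 := by
        rw [LinearEquiv.symm_apply_eq, he, ← hv0]
      rw [hs, Finset.sum_eq_single ⟨0, hr0⟩] at h
      · simpa using h
      · intro j _ hj; simp [Pi.single_eq_of_ne hj]
      · simp
    have hψY : ψ = 0 ∧ (Y : End K U) = 0 := by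
      have hu : ∀ u : U, B ψ (u : V) + ((Y : End K U) u : V) = 0 := fun u => by
        have h := hzx u
        rw [hπU_incl] at h
        have hA0 : A w (u : V) = 0 := by rw [hA, hw]; simp
        rwa [hA0, zero_add] at h
      have hψ : ψ = 0 := LinearMap.ext fun u => by
        have h := congr(χ $(hu u) ⟨0, hr0⟩)
        have hYu : χ (((Y : End K U) u : U) : V) = 0 := ((Y : End K U) u).2
        rw [map_add, hYu, add_zero, hB, hπU_incl, hξ, map_zero] at h
        simpa using h
      refine ⟨hψ, LinearMap.ext fun u => Subtype.ext ?_⟩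
      have h := hu u
      have hB0 : B ψ (u : V) = 0 := by
        show emb (e.symm (ξ ψ (πU u))) = 0
        rw [show ξ ψ (πU u) = 0 by ext k; rw [hξ, hψ]; rfl, map_zero, map_zero]
      rwa [hB0, zero_add] at h
    exact Prod.ext (Prod.ext hw hψY.1) (Subtype.ext hψY.2)
  haveI : Module.Free K (comm T') := @Module.Free.of_divisionRing K (comm T') _ (Submodule.addCommGroup _) _
  have hdim := LinearMap.finrank_le_finrank_of_injective hΘ
  rw [Module.finrank_prod, Module.finrank_prod, Subspace.dual_finrank_eq] at hdim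
  have hker := LinearMap.finrank_range_add_finrank_ker χ
  have hχsurj : LinearMap.range χ = ⊤ := LinearMap.range_eq_top.2 fun y => ⟨emb (e.symm y), by
    rw [← he, LinearEquiv.apply_symm_apply]⟩
  rw [hχsurj, finrank_top, Module.finrank_fintype_fun_eq_card, Fintype.card_fin, hN, ← hU] at hker
  have hmp : (minpoly K T').natDegree ≤ r := by
    refine natDegree_le_of_dvd (minpoly.dvd K T' ?_) (minpoly.ne_zero (Algebra.IsIntegral.isIntegral T))
    refine LinearMap.ext fun u => Subtype.ext ?_
    have hp : ∀ i (u : U), ((T' ^ i) u : V) = (T ^ i) (u : V) := fun i u => by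
      rw [Module.End.pow_restrict i]
      rfl
    rw [aeval_eq_sum_range, LinearMap.sum_apply, Submodule.coe_sum]
    have h := congr($(minpoly.aeval K T) (u : V))
    rw [aeval_eq_sum_range, LinearMap.sum_apply] at h
    simpa [hp] using h
  have hIH := IH (finrank K U) (by omega) U T' rfl
  set N' := finrank K U with hN'
  set Cc := finrank K (comm T') with hCc
  have h1 : (minpoly K T').natDegree * Cc ≤ r * Cc := Nat.mul_le_mul_right _ hmp
  calc N ^ 2 = r * (N + N') + N' ^ 2 := by rw [← hker]; ring
    _ ≤ r * (N + N') + r * Cc := by omega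
    _ = r * (N + N' + Cc) := by ring
    _ ≤ r * finrank K (comm T) := Nat.mul_le_mul_left _ (by rw [hN] at hdim; omega)

/-- The centralizer of `T` has dimension at least `N ^ 2 / r`. -/
theorem sq_le_centralizer_mul [Infinite K] [FiniteDimensional K V] (T : End K V) :
    finrank K V ^ 2 ≤ (minpoly K T).natDegree * finrank K (comm T) :=
  sq_le_aux _ V T rfl

/-- The centralizer of an endomorphism permuting monomially a spanning family of the endomorphisms,
with one fixed index and all other orbits regular of size `P`. -/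
theorem centralizer_le_of_monomial [FiniteDimensional K V] {ι : Type*} [Finite ι] (B : ι → End K V)
    (hind : LinearIndependent K B) (hspan : Submodule.span K (Set.range B) = ⊤)
    (T : End K V) (hT : Function.Injective T) (σ : Equiv.Perm ι) (c : ι → K) (hc : ∀ i, c i ≠ 0)
    (hconj : ∀ i, T * B i = c i • (B (σ i) * T)) (i₀ : ι) (hi₀ : σ i₀ = i₀) (P : ℕ) (hP : 0 < P)
    (hper : ∀ i, (σ ^ P) i = i)
    (hfree : ∀ i, i ≠ i₀ → ∀ k, 0 < k → k < P → (σ ^ k) i ≠ i) :
    P * finrank K (comm T) + 1 ≤ P + Nat.card ι := by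
  classical
  haveI := Fintype.ofFinite ι
  let b : Basis ι K (End K V) := Basis.mk hind (by rw [hspan])
  have hb : ∀ i, b i = B i := fun i => Basis.mk_apply _ _ i
  have hrel : ∀ X ∈ comm T, ∀ i, b.repr X (σ i) = c i * b.repr X i := by
    intro X hX i
    have h1 : ∀ Y : End K V, T * Y = (∑ j, (c j * b.repr Y j) • B (σ j)) * T := by
      intro Y
      conv_lhs => rw [← b.sum_repr Y]
      rw [Finset.mul_sum, Finset.sum_mul]
      refine Finset.sum_congr rfl fun j _ => ?_
      rw [hb, mul_smul_comm, hconj, smul_smul, mul_comm, smul_mul_assoc]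
    have hX' : X * T = T * X := hX
    rw [h1 X] at hX'
    have hsurj : Function.Surjective T := LinearMap.injective_iff_surjective.1 hT
    have hXeq : X = ∑ j, (c j * b.repr X j) • B (σ j) := LinearMap.ext fun x => by
      obtain ⟨y, rfl⟩ := hsurj x
      exact congr($hX' y)
    have h2 : ∑ j, (c j * b.repr X j) • B (σ j) = ∑ j, (c (σ.symm j) * b.repr X (σ.symm j)) • b j := by
      rw [← Equiv.sum_comp σ (fun j => (c (σ.symm j) * b.repr X (σ.symm j)) • b j)]
      simp [hb]
    rw [h2] at hXeq
    have := congr(b.repr $hXeq (σ i))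
    rw [b.repr_sum_self] at this
    simpa using this
  -- orbits
  let s : Setoid {i // i ≠ i₀} := (Equiv.Perm.SameCycle.setoid σ).comap Subtype.val
  have hzero : ∀ X ∈ comm T, ∀ i, b.repr X i = 0 → ∀ k : ℕ, b.repr X ((σ ^ k) i) = 0 := by
    intro X hX i hi k
    induction k with
    | zero => simpa using hi
    | succ k ih => rw [pow_succ', Equiv.Perm.mul_apply, hrel X hX, ih, mul_zero]
  let Φ : comm T →ₗ[K] Option (Quotient s) → K :=
    LinearMap.pi fun o => (Finsupp.lapply (o.elim i₀ fun q => (Quotient.out q).1)) ∘ₗ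
      b.repr.toLinearMap ∘ₗ (comm T).subtype
  have hΦ : Function.Injective Φ := by
    rw [← LinearMap.ker_eq_bot, LinearMap.ker_eq_bot']
    intro X hX
    apply Subtype.ext
    apply b.repr.injective
    ext i
    rw [Submodule.coe_zero, map_zero, Finsupp.coe_zero, Pi.zero_apply]
    by_cases hi : i = i₀
    · subst hi
      exact congr_fun hX none
    · obtain ⟨k, hk⟩ : ∃ k : ℕ, (σ ^ k) (Quotient.out (⟦⟨i, hi⟩⟧ : Quotient s)).1 = i := by
        obtain ⟨k, -, hk⟩ := (Quotient.mk_out (s := s) ⟨i, hi⟩).exists_pow_eq'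
        exact ⟨k, hk⟩
      rw [← hk]
      exact hzero _ X.2 _ (congr_fun hX (some ⟦⟨i, hi⟩⟧)) k
  have hdim := LinearMap.finrank_le_finrank_of_injective hΦ
  rw [Module.finrank_fintype_fun_eq_card, Fintype.card_option, Fintype.card_eq_nat_card] at hdim
  -- each orbit has at least `P` elements
  have hfix : ∀ k : ℕ, (σ ^ k) i₀ = i₀ := by
    intro k
    induction k with
    | zero => simp
    | succ k ih => rw [pow_succ, Equiv.Perm.mul_apply, hi₀, ih]
  have hnat : ∀ (i : ι) (k : ℕ), i ≠ i₀ → (σ ^ k) i ≠ i₀ := fun i k hi h =>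
    hi ((σ ^ k).injective (h.trans (hfix k).symm))
  let Ψ : Quotient s × Fin P → {i // i ≠ i₀} := fun z =>
    ⟨(σ ^ (z.2 : ℕ)) (Quotient.out z.1).1, hnat _ _ (Quotient.out z.1).2⟩
  have hΨ : Function.Injective Ψ := by
    rintro ⟨q, k⟩ ⟨q', k'⟩ h
    have h' : (σ ^ (k : ℕ)) (Quotient.out q).1 = (σ ^ (k' : ℕ)) (Quotient.out q').1 := congr_arg Subtype.val h
    have hq : q = q' := by
      rw [← Quotient.out_eq q, ← Quotient.out_eq q']
      refine Quotient.sound ?_
      show σ.SameCycle _ _
      exact (Equiv.Perm.sameCycle_pow_left (n := (k : ℕ))).1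
        (h' ▸ (Equiv.Perm.sameCycle_pow_left (n := (k' : ℕ))).2 (Equiv.Perm.SameCycle.refl σ _))
    subst hq
    refine Prod.ext rfl ?_
    have key : ∀ a b : Fin P, (a : ℕ) < b → (σ ^ (a : ℕ)) (Quotient.out q).1 ≠ (σ ^ (b : ℕ)) (Quotient.out q).1 := by
      intro a b hab heq
      refine hfree _ (Quotient.out q).2 ((b : ℕ) - a) (by omega) (by omega) ?_
      apply (σ ^ (a : ℕ)).injective
      rw [← Equiv.Perm.mul_apply, ← pow_add, show (a : ℕ) + (b - a) = b by omega]
      exact heq.symm
    rcases lt_trichotomy (k : ℕ) k' with hl | he | hg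
    · exact absurd h' (key k k' hl)
    · exact Fin.ext he
    · exact absurd h'.symm (key k' k hg)
  have hcard := Nat.card_le_card_of_injective Ψ hΨ
  rw [Nat.card_prod, Nat.card_fin] at hcard
  have hι : Nat.card {i // i ≠ i₀} + 1 = Nat.card ι := by
    rw [Nat.card_eq_fintype_card, Nat.card_eq_fintype_card, Fintype.card_subtype_compl,
      Fintype.card_subtype_eq]
    have : 0 < Fintype.card ι := Fintype.card_pos_iff.2 ⟨i₀⟩
    omega
  calc P * finrank K (comm T) + 1 ≤ P * (Nat.card (Quotient s) + 1) + 1 :=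
        Nat.add_le_add_right (Nat.mul_le_mul_left _ hdim) 1
    _ = P + (Nat.card (Quotient s) * P + 1) := by ring
    _ ≤ P + Nat.card ι := by omega

/-- The arithmetic of the exceptional case. -/
theorem exceptional_arith {N P r C : ℕ} (hN : 1 < N) (hrN : r ≤ N) (hrP : r < P)
    (h1 : N ^ 2 ≤ r * C) (h2 : P * C + 1 ≤ P + N ^ 2) : N + 1 = P ∧ r = N := by
  have h3 : P * N ^ 2 ≤ r * (P * C) := by
    calc P * N ^ 2 ≤ P * (r * C) := Nat.mul_le_mul_left _ h1
      _ = r * (P * C) := by ring
  have h4 : r * (P * C) + r ≤ r * (P + N ^ 2) := by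
    calc r * (P * C) + r = r * (P * C + 1) := by ring
      _ ≤ r * (P + N ^ 2) := Nat.mul_le_mul_left _ h2
  obtain ⟨d, rfl⟩ : ∃ d, P = r + d := ⟨P - r, by omega⟩
  have hd : 1 ≤ d := by omega
  have h5 : N ^ 2 * d + r ≤ r * (r + d) := by nlinarith
  obtain ⟨a, rfl⟩ : ∃ a, N = r + a := ⟨N - r, by omega⟩
  have ha : a = 0 := by
    by_contra ha
    have h6 : (r + 1) ^ 2 * d ≤ (r + a) ^ 2 * d :=
      Nat.mul_le_mul_right _ (Nat.pow_le_pow_left (by omega) 2)
    nlinarith [Nat.mul_le_mul_left (r ^ 2) hd, Nat.zero_le (r * d)]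
  subst ha
  refine ⟨?_, by omega⟩
  simp only [Nat.add_zero] at *
  have hd1 : d ≤ 1 := by
    by_contra hd2
    obtain ⟨c, rfl⟩ : ∃ c, d = c + 2 := ⟨d - 2, by omega⟩
    nlinarith [Nat.mul_le_mul_right (c + 1) (show 2 * r ≤ r * r by nlinarith)]
  omega

end Cfsg.Lib.Solv.HH
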