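import Mathlib
import Cfsg.Agent.Lib.Solv.HHLinear

/-!
# A simple module of a group that is abelian modulo scalars, twisted by an automorphism

`ρ : Q →* End K U` is irreducible, `χ : Q →* (Q →* K)` gives the commutator pairing and its kernel
acts by scalars. Then `dim U ^ 2 = |Q : ker χ|`, a compatible automorphism is realised by an
intertwiner, and the minimal polynomial of an intertwiner has degree `P` except for `P = dim U + 1`.
-/

set_option autoImplicit false

namespace Cfsg.Lib.Solv.HH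

open Module

variable {K : Type*} [Field K] [IsAlgClosed K] {U : Type*} [AddCommGroup U] [Module K U]
  [FiniteDimensional K U] [Nontrivial U] {Q : Type*} [Group Q] [Finite Q] (ρ : Q →* End K U)

/-- An irreducible representation spans all endomorphisms. -/
theorem span_range_eq_top
    (hirr : ∀ W : Submodule K U, (∀ g, ∀ x ∈ W, ρ g x ∈ W) → W = ⊥ ∨ W = ⊤) :
    Submodule.span K (Set.range ρ) = ⊤ := by
  classical
  let A : Subalgebra K (End K U) := Algebra.adjoin K (Set.range ρ)
  have hbt : ∀ W : Submodule A U, W = ⊥ ∨ W = ⊤ := by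
    intro W
    let W' : Submodule K U :=
      { carrier := W
        add_mem' := fun ha hb => W.add_mem ha hb
        zero_mem' := W.zero_mem
        smul_mem' := fun c x hx => by
          have := W.smul_mem (⟨algebraMap K (End K U) c, A.algebraMap_mem c⟩ : A) hx
          exact this }
    rcases hirr W' (fun g x hx => W.smul_mem (⟨ρ g, Algebra.subset_adjoin ⟨g, rfl⟩⟩ : A) hx) with h | h
    · refine Or.inl (SetLike.ext fun x => ?_)
      exact ⟨fun hx => (Submodule.mem_bot A).2 ((Submodule.mem_bot K).1 (h ▸ (show x ∈ W' from hx))),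
        fun hx => by rw [(Submodule.mem_bot A).1 hx]; exact W.zero_mem⟩
    · refine Or.inr (SetLike.ext fun x => ⟨fun _ => trivial, fun _ => ?_⟩)
      have : x ∈ W' := h ▸ trivial
      exact this
  haveI : IsSimpleModule A U := by
    rw [isSimpleModule_iff]
    haveI : Nontrivial (Submodule A U) := by
      obtain ⟨x, hx⟩ := exists_ne (0 : U)
      exact ⟨⊥, ⊤, fun h => hx ((Submodule.mem_bot A).1 (h ▸ Submodule.mem_top))⟩
    exact { eq_bot_or_eq_top := hbt }
  have hA : ∀ f : End K U, f ∈ A := by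
    intro f
    let f' : End (End A U) U :=
      { toFun := f
        map_add' := f.map_add
        map_smul' := fun e x => by
          obtain ⟨c, rfl⟩ := (IsSimpleModule.algebraMap_end_bijective_of_isAlgClosed K).2 e
          show f (c • x) = c • f x
          exact f.map_smul c x }
    let b := Module.finBasis K U
    obtain ⟨r, hr⟩ := jacobson_density f' (Finset.univ.image b)
    have : f = (r : End K U) := b.ext fun i => hr (b i) (Finset.mem_image_of_mem _ (Finset.mem_univ i))
    rw [this]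
    exact r.2
  have h2 : Subalgebra.toSubmodule A = Submodule.span K (Set.range ρ) := by
    show Subalgebra.toSubmodule (Algebra.adjoin K (Set.range ρ)) = _
    rw [Algebra.adjoin_eq_span]
    congr 1
    rw [show Set.range ρ = (MonoidHom.mrange ρ : Set (End K U)) from rfl, Submonoid.closure_eq]
  rw [eq_top_iff, ← h2]
  exact fun f _ => hA f

variable (χ : Q →* (Q →* K)) (hχ : ∀ a b, ρ b * ρ a = χ a b • (ρ a * ρ b))
  (hirr : ∀ W : Submodule K U, (∀ g, ∀ x ∈ W, ρ g x ∈ W) → W = ⊥ ∨ W = ⊤)
  (μ : χ.ker → K) (hμ : ∀ r : χ.ker, ρ r = μ r • 1)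

theorem rho_inv_left (g : Q) : ρ g⁻¹ * ρ g = 1 := by rw [← map_mul, inv_mul_cancel, map_one]

theorem rho_ne_zero (g : Q) : ρ g ≠ 0 := fun h => by
  have h1 := rho_inv_left ρ g
  rw [h, mul_zero] at h1
  exact one_ne_zero h1.symm

/-- The chosen representatives. -/
noncomputable def basisRep (v : Q ⧸ χ.ker) : End K U := ρ (Quotient.out v)

include hμ in
theorem rep_eq (g : Q) : ∃ c : K, ∃ r : χ.ker, c = μ r ∧
    g = (r : Q) * Quotient.out (g : Q ⧸ χ.ker) ∧ ρ g = c • basisRep ρ χ (g : Q ⧸ χ.ker) := by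
  have hmem : g * (Quotient.out (g : Q ⧸ χ.ker))⁻¹ ∈ χ.ker := by
    refine (QuotientGroup.eq_one_iff _).1 ?_
    rw [QuotientGroup.mk_mul, QuotientGroup.mk_inv, QuotientGroup.out_eq', mul_inv_cancel]
  refine ⟨_, ⟨_, hmem⟩, rfl, by simp, ?_⟩
  have : g = (g * (Quotient.out (g : Q ⧸ χ.ker))⁻¹) * Quotient.out (g : Q ⧸ χ.ker) := by simp
  conv_lhs => rw [this, map_mul, hμ ⟨_, hmem⟩, smul_mul_assoc, one_mul]
  rfl

include hμ hirr in
theorem span_basisRep : Submodule.span K (Set.range (basisRep ρ χ)) = ⊤ := by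
  rw [eq_top_iff, ← span_range_eq_top ρ hirr, Submodule.span_le]
  rintro _ ⟨g, rfl⟩
  obtain ⟨c, r, -, -, h⟩ := rep_eq ρ χ μ hμ g
  rw [h]
  exact Submodule.smul_mem _ _ (Submodule.subset_span ⟨_, rfl⟩)

include hχ in
theorem linearIndependent_basisRep : LinearIndependent K (basisRep ρ χ) := by
  classical
  haveI := Fintype.ofFinite (Q ⧸ χ.ker)
  refine Fintype.linearIndependent_iff.2 fun c hc v => ?_
  have hinj : Function.Injective fun w : Q ⧸ χ.ker => χ (Quotient.out w) := by
    intro w w' h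
    rw [← QuotientGroup.out_eq' w, ← QuotientGroup.out_eq' w']
    exact QuotientGroup.eq.2 (MonoidHom.mem_ker.2 (by
      rw [map_mul, show χ (Quotient.out w') = χ (Quotient.out w) from h.symm, ← map_mul, inv_mul_cancel, map_one]))
  have hli : LinearIndependent K (fun w : Q ⧸ χ.ker => ((χ (Quotient.out w) : Q →* K) : Q → K)) :=
    (linearIndependent_monoidHom Q K).comp _ hinj
  suffices hzero : ∀ ψ : Dual K (End K U), ψ (c v • basisRep ρ χ v) = 0 by
    have := (Module.forall_dual_apply_eq_zero_iff K _).1 hzero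
    exact (smul_eq_zero.1 this).resolve_right (rho_ne_zero ρ _)
  intro ψ
  refine Fintype.linearIndependent_iff.1 hli (fun w => ψ (c w • basisRep ρ χ w)) ?_ v
  funext b
  have h1 : ∑ w, (χ (Quotient.out w) b) • (c w • basisRep ρ χ w) = 0 := by
    have hstep : ρ b * (∑ w, c w • basisRep ρ χ w) * ρ b⁻¹ = 0 := by rw [hc, mul_zero, zero_mul]
    rw [Finset.mul_sum, Finset.sum_mul] at hstep
    rw [← hstep]
    refine Finset.sum_congr rfl fun w _ => ?_
    rw [mul_smul_comm, smul_mul_assoc, basisRep, hχ, smul_mul_assoc, mul_assoc, ← map_mul ρ b,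
      mul_inv_cancel, map_one, mul_one, smul_comm]
  have := congr(ψ $h1)
  rw [map_sum, map_zero] at this
  simp only [map_smul, smul_eq_mul, Finset.sum_apply, Pi.smul_apply, Pi.zero_apply] at this ⊢
  convert this using 1
  exact Finset.sum_congr rfl fun w _ => by ring

include hχ hirr hμ in
theorem finrank_sq : finrank K U ^ 2 = χ.ker.index := by
  classical
  haveI := Fintype.ofFinite (Q ⧸ χ.ker)
  have b := Basis.mk (linearIndependent_basisRep ρ χ hχ) (by rw [span_basisRep ρ χ hirr μ hμ])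
  have h1 := Module.finrank_eq_card_basis b
  rw [Module.finrank_linearMap, Fintype.card_eq_nat_card] at h1
  rw [sq, h1, Subgroup.index]

variable (α : MulAut Q) (hα : ∀ r : χ.ker, ∃ r' : χ.ker, (r' : Q) = α r ∧ μ r' = μ r)

include hχ hirr hμ hα in
/-- The twisted representation is equivalent to the original one. -/
theorem exists_intertwiner : ∃ a : U ≃ₗ[K] U, ∀ g, (a : End K U) * ρ g = ρ (α g) * (a : End K U) := by
  classical
  let b := Basis.mk (linearIndependent_basisRep ρ χ hχ) (by rw [span_basisRep ρ χ hirr μ hμ])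
  let Φ : End K U →ₗ[K] End K U := b.constr K fun v => ρ (α (Quotient.out v))
  have hΦ : ∀ g, Φ (ρ g) = ρ (α g) := by
    intro g
    obtain ⟨c, r, hc, hg, h⟩ := rep_eq ρ χ μ hμ g
    obtain ⟨r', hr', hμr⟩ := hα r
    rw [h, map_smul, ← Basis.mk_apply (linearIndependent_basisRep ρ χ hχ)
      (by rw [span_basisRep ρ χ hirr μ hμ]) (g : Q ⧸ χ.ker), Basis.constr_basis]
    conv_rhs => rw [hg, map_mul, ← hr', map_mul, hμ r', hμr, ← hc, smul_mul_assoc, one_mul]
  have hspan := span_range_eq_top ρ hirr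
  have hmul : ∀ x y, Φ (x * y) = Φ x * Φ y := by
    intro x y
    have hx : x ∈ Submodule.span K (Set.range ρ) := by rw [hspan]; trivial
    have hy : y ∈ Submodule.span K (Set.range ρ) := by rw [hspan]; trivial
    induction hx using Submodule.span_induction with
    | mem x hx =>
      obtain ⟨g, rfl⟩ := hx
      induction hy using Submodule.span_induction with
      | mem y hy =>
        obtain ⟨h, rfl⟩ := hy
        rw [← map_mul ρ, hΦ, hΦ, hΦ, map_mul, map_mul]
      | zero => simp
      | add a b _ _ ha hb => rw [mul_add, map_add, map_add, ha, hb, mul_add]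
      | smul c a _ ha => rw [mul_smul_comm, map_smul, map_smul, ha, mul_smul_comm]
    | zero => simp
    | add a b _ _ ha hb => rw [add_mul, map_add, map_add, ha, hb, add_mul]
    | smul c a _ ha => rw [smul_mul_assoc, map_smul, map_smul, ha, smul_mul_assoc]
  have hsurj : Function.Surjective Φ := by
    rw [← LinearMap.range_eq_top, eq_top_iff, ← hspan, Submodule.span_le]
    rintro _ ⟨g, rfl⟩
    exact ⟨ρ (α.symm g), by rw [hΦ, MulEquiv.apply_symm_apply]⟩
  let f : End K U ≃ₐ[K] End K U := AlgEquiv.ofBijective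
    (AlgHom.ofLinearMap Φ (by rw [← map_one ρ, hΦ, map_one, map_one]) hmul)
    ⟨LinearMap.injective_iff_surjective.2 hsurj, hsurj⟩
  obtain ⟨T, hT⟩ := f.eq_linearEquivConjAlgEquiv
  refine ⟨T, fun g => ?_⟩
  have h := congr($hT (ρ g))
  rw [LinearEquiv.conjAlgEquiv_apply] at h
  have hf : f (ρ g) = ρ (α g) := hΦ g
  rw [hf] at h
  refine LinearMap.ext fun x => ?_
  rw [h]
  simp

include hχ hirr hμ hα in
/-- The minimal polynomial of an intertwiner. -/
theorem minpoly_degree_cases (T : End K U) (hTinj : Function.Injective T)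
    (hT : ∀ g, T * ρ g = ρ (α g) * T) {P : ℕ} (hP : 0 < P)
    (hper : ∀ g, (α ^ P) g * g⁻¹ ∈ χ.ker)
    (hfree : ∀ g, g ∉ χ.ker → ∀ k, 0 < k → k < P → (α ^ k) g * g⁻¹ ∉ χ.ker)
    (hN : 1 < finrank K U) :
    P ≤ (minpoly K T).natDegree ∨ (finrank K U + 1 = P ∧ (minpoly K T).natDegree = finrank K U) := by
  classical
  rcases le_or_gt P (minpoly K T).natDegree with h | hlt
  · exact Or.inl h
  refine Or.inr ?_
  have hker : ∀ r, r ∈ χ.ker → α r ∈ χ.ker := fun r hr => by
    obtain ⟨r', hr', -⟩ := hα ⟨r, hr⟩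
    exact hr' ▸ r'.2
  have hmap : χ.ker.map (α : Q ≃* Q).toMonoidHom = χ.ker := by
    refine Subgroup.eq_of_le_of_card_ge (Subgroup.map_le_iff_le_comap.2 hker) ?_
    rw [Subgroup.card_map_of_injective α.injective]
  let σ' : Q ⧸ χ.ker ≃* Q ⧸ χ.ker := QuotientGroup.congr _ _ (α : Q ≃* Q) hmap
  have hσ : ∀ g : Q, σ' (g : Q ⧸ χ.ker) = ((α g : Q) : Q ⧸ χ.ker) := fun g => rfl
  let σ : Equiv.Perm (Q ⧸ χ.ker) := σ'.toEquiv
  have hσk : ∀ (k : ℕ) (g : Q), (σ ^ k) (g : Q ⧸ χ.ker) = (((α ^ k) g : Q) : Q ⧸ χ.ker) := by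
    intro k
    induction k with
    | zero => simp
    | succ k ih =>
      intro g
      rw [pow_succ', Equiv.Perm.mul_apply, ih, pow_succ', MulAut.mul_apply]
      exact hσ _
  have hrel : ∀ v, ∃ c : K, c ≠ 0 ∧ ρ (α (Quotient.out v)) = c • basisRep ρ χ (σ v) := by
    intro v
    obtain ⟨c, r, -, -, h⟩ := rep_eq ρ χ μ hμ (α (Quotient.out v))
    have hv : σ v = ((α (Quotient.out v) : Q) : Q ⧸ χ.ker) := by
      conv_lhs => rw [← QuotientGroup.out_eq' v]
      exact hσ _
    refine ⟨c, fun h0 => rho_ne_zero ρ _ (by rw [h, h0, zero_smul]), hv ▸ h⟩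
  choose c hc hcρ using hrel
  have hmono := centralizer_le_of_monomial (basisRep ρ χ) (linearIndependent_basisRep ρ χ hχ)
    (span_basisRep ρ χ hirr μ hμ) T hTinj σ c hc
    (fun v => by
      show T * ρ (Quotient.out v) = _
      rw [hT, hcρ, smul_mul_assoc])
    ((1 : Q) : Q ⧸ χ.ker) (by rw [show σ ((1 : Q) : Q ⧸ χ.ker) = _ from hσ 1, map_one]) P hP
    (fun v => by
      rw [← QuotientGroup.out_eq' v, hσk]
      exact QuotientGroup.eq.2 (by
        have := χ.ker.inv_mem (hper (Quotient.out v))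
        rw [mul_inv_rev, inv_inv] at this
        exact (inferInstance : χ.ker.Normal).mem_comm this))
    (fun v hv k hk0 hkP h => by
      rw [← QuotientGroup.out_eq' v, hσk] at h
      refine hfree (Quotient.out v) (fun hmem => hv ?_) k hk0 hkP ?_
      · rw [← QuotientGroup.out_eq' v]
        exact (QuotientGroup.eq_one_iff _).2 hmem
      · rw [← QuotientGroup.eq_one_iff, QuotientGroup.mk_mul, QuotientGroup.mk_inv, h, mul_inv_cancel])
  rw [show Nat.card (Q ⧸ χ.ker) = finrank K U ^ 2 from (finrank_sq ρ χ hχ hirr μ hμ).symm] at hmono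
  refine exceptional_arith hN ?_ hlt (sq_le_centralizer_mul T) hmono
  calc (minpoly K T).natDegree ≤ T.charpoly.natDegree :=
        Polynomial.natDegree_le_of_dvd (LinearMap.minpoly_dvd_charpoly T) T.charpoly_monic.ne_zero
    _ = finrank K U := T.charpoly_natDegree

end Cfsg.Lib.Solv.HH
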