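import Mathlib
import Cfsg.Agent.Lib.Solv.HHLinear

/-!
# Weights of a representation twisted by an automorphism

`wt ρ μ` is the weight space of the linear character `μ`, `shift α μ = μ ∘ α⁻¹`.
-/

set_option autoImplicit false

namespace Cfsg.Lib.Solv.HH

open Module

variable {K : Type*} [Field K] {V : Type*} [AddCommGroup V] [Module K V] {A : Type*} [Group A]
  (ρ : A →* End K V)

/-- The weight space of `μ`. -/
def wt (μ : A →* K) : Submodule K V := ⨅ a : A, End.eigenspace (ρ a) (μ a)

theorem mem_wt {μ : A →* K} {x : V} : x ∈ wt ρ μ ↔ ∀ a, ρ a x = μ a • x := by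
  simp [wt, Submodule.mem_iInf, End.mem_eigenspace_iff]

/-- Vectors of distinct weights adding up to zero are zero. -/
theorem eq_zero_of_sum_eq_zero {ι : Type*} [Fintype ι] (μ : ι → A →* K) (hμ : Function.Injective μ)
    (u : ι → V) (hu : ∀ i, u i ∈ wt ρ (μ i)) (h : ∑ i, u i = 0) (i : ι) : u i = 0 := by
  rw [← Module.forall_dual_apply_eq_zero_iff K]
  intro ψ
  have hli : LinearIndependent K (fun i => ((μ i : A →* K) : A → K)) :=
    (linearIndependent_monoidHom A K).comp μ hμ
  refine Fintype.linearIndependent_iff.1 hli (fun i => ψ (u i)) ?_ i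
  funext a
  have h1 : ∑ j, μ j a • u j = 0 := by
    have := congr(ρ a $h)
    rw [map_sum, map_zero] at this
    rw [← this]
    exact Finset.sum_congr rfl fun j _ => ((mem_wt ρ).1 (hu j) a).symm
  have := congr(ψ $h1)
  rw [map_sum, map_zero] at this
  simpa [mul_comm] using this

/-- A representation with commuting image of a group of order invertible in the algebraically closed
field has a basis of weight vectors. -/
theorem iSup_wt_eq_top [IsAlgClosed K] [FiniteDimensional K V] [Finite A]
    (hcomm : ∀ a b, Commute (ρ a) (ρ b)) (hA : (Nat.card A : K) ≠ 0) : ⨆ μ, wt ρ μ = ⊤ := by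
  classical
  have hss : ∀ a, (ρ a).IsSemisimple := fun a => by
    refine End.isSemisimple_of_squarefree_aeval_eq_zero (p := Polynomial.X ^ Nat.card A - 1)
      ((Polynomial.X_pow_sub_one_separable_iff.2 hA).squarefree) ?_
    rw [map_sub, map_pow, Polynomial.aeval_X, map_one, ← map_pow, pow_card_eq_one', map_one, sub_self]
  have htop : ∀ a, ⨆ ν, (ρ a).maxGenEigenspace ν = ⊤ := fun a =>
    End.iSup_maxGenEigenspace_eq_top (ρ a)
  have hpw : Pairwise fun a b => Commute (ρ a) (ρ b) := fun a b _ => hcomm a b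
  have hj := End.iSup_iInf_maxGenEigenspace_eq_top_of_iSup_maxGenEigenspace_eq_top_of_commute
    (fun a => ρ a) hpw htop
  rw [eq_top_iff, ← hj]
  refine iSup_le fun χ => ?_
  by_cases hbot : (⨅ a, (ρ a).maxGenEigenspace (χ a)) = ⊥
  · rw [hbot]; exact bot_le
  obtain ⟨x, hx, hx0⟩ := Submodule.exists_mem_ne_zero_of_ne_bot hbot
  have heig : ∀ a, (ρ a).maxGenEigenspace (χ a) = End.eigenspace (ρ a) (χ a) := fun a =>
    (hss a).isFinitelySemisimple.maxGenEigenspace_eq_eigenspace _
  have hxe : ∀ a, ρ a x = χ a • x := fun a =>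
    End.mem_eigenspace_iff.1 (heig a ▸ (Submodule.mem_iInf _).1 hx a)
  have hinj : ∀ {s t : K}, s • x = t • x → s = t := fun {s t} h => smul_left_injective K hx0 h
  let μ : A →* K :=
    { toFun := χ
      map_one' := hinj (by rw [← hxe, map_one, one_smul, End.one_apply])
      map_mul' := fun a b => hinj (by
        rw [← hxe, map_mul, End.mul_apply, hxe b, map_smul, hxe a, smul_smul, mul_comm]) }
  refine le_iSup_of_le μ (le_of_eq ?_)
  exact iInf_congr fun a => heig a

/-- If every weight space satisfies an equation of endomorphisms, so does `V`. -/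
theorem eq_of_wt [IsAlgClosed K] [FiniteDimensional K V] [Finite A]
    (hcomm : ∀ a b, Commute (ρ a) (ρ b)) (hA : (Nat.card A : K) ≠ 0) {f g : End K V}
    (h : ∀ μ, ∀ x ∈ wt ρ μ, f x = g x) : f = g := by
  refine LinearMap.ext fun x => ?_
  have hx : x ∈ ⨆ μ, wt ρ μ := by rw [iSup_wt_eq_top ρ hcomm hA]; trivial
  induction hx using Submodule.iSup_induction' with
  | mem μ x hx => exact h μ x hx
  | zero => simp
  | add x y _ _ hx hy => rw [map_add, map_add, hx, hy]

variable (α : MulAut A)

/-- The action of `α` on linear characters. -/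
def shift (μ : A →* K) : A →* K := μ.comp α.symm.toMonoidHom

theorem shift_apply (μ : A →* K) (a : A) : shift α μ a = μ (α.symm a) := rfl

theorem shift_iterate (μ : A →* K) (k : ℕ) (a : A) : ((shift α)^[k] μ) ((α ^ k) a) = μ a := by
  induction k generalizing a with
  | zero => simp
  | succ k ih =>
    rw [Function.iterate_succ_apply', shift_apply, pow_succ', MulAut.mul_apply, MulEquiv.symm_apply_apply, ih]

theorem shift_iterate_pow (μ : A →* K) {N : ℕ} (hα : α ^ N = 1) : (shift α)^[N] μ = μ := by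
  ext a
  have := shift_iterate α μ N a
  rwa [hα, MulAut.one_apply] at this

/-- `μ` is fixed by the `k`-th iterate iff it is invariant under `α ^ k`. -/
theorem shift_fixed_iff (μ : A →* K) (k : ℕ) :
    (shift α)^[k] μ = μ ↔ ∀ a, μ ((α ^ k) a) = μ a := by
  constructor
  · intro h a
    have := shift_iterate α μ k a
    rwa [h] at this
  · intro h
    ext a
    have := shift_iterate α μ k ((α ^ k).symm a)
    rw [MulEquiv.apply_symm_apply] at this
    rw [this, ← h ((α ^ k).symm a), MulEquiv.apply_symm_apply]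

theorem minimalPeriod_dvd (μ : A →* K) {N : ℕ} (hα : α ^ N = 1) :
    Function.minimalPeriod (shift α) μ ∣ N :=
  Function.IsPeriodicPt.minimalPeriod_dvd (shift_iterate_pow α μ hα)

theorem shift_period (μ : A →* K) : ((shift α)^[Function.minimalPeriod (shift α) μ]) μ = μ :=
  Function.isPeriodicPt_minimalPeriod _ _

/-- If the period does not divide `p ^ (n - 1)` it is `p ^ n`. -/
theorem period_cases (μ : A →* K) {p n : ℕ} (hp : p.Prime) (hn : 0 < n) (hα : α ^ p ^ n = 1) :
    Function.minimalPeriod (shift α) μ = p ^ n ∨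
      ∃ j < n, Function.minimalPeriod (shift α) μ = p ^ j ∧ ∀ a, μ ((α ^ p ^ (n - 1)) a) = μ a := by
  obtain ⟨j, hj, hL⟩ := (Nat.dvd_prime_pow hp).1 (minimalPeriod_dvd α μ hα)
  rcases hj.lt_or_eq with hlt | rfl
  · refine Or.inr ⟨j, hlt, hL, (shift_fixed_iff α μ _).1 ?_⟩
    exact Function.isPeriodicPt_iff_minimalPeriod_dvd.2 (hL ▸ pow_dvd_pow p (by omega))
  · exact Or.inl hL

variable (X : End K V) (hX : ∀ a, X * ρ a = ρ (α a) * X)
include hX

theorem mem_wt_shift {μ : A →* K} {x : V} (hx : x ∈ wt ρ μ) : X x ∈ wt ρ (shift α μ) := by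
  rw [mem_wt] at hx ⊢
  intro a
  have h := congr($(hX (α.symm a)) x)
  rw [MulEquiv.apply_symm_apply, End.mul_apply, End.mul_apply, hx, map_smul] at h
  rw [← h, shift_apply]

theorem mem_wt_iterate {μ : A →* K} {x : V} (hx : x ∈ wt ρ μ) (k : ℕ) :
    (X ^ k) x ∈ wt ρ ((shift α)^[k] μ) := by
  induction k with
  | zero => simpa using hx
  | succ k ih =>
    rw [pow_succ', End.mul_apply, Function.iterate_succ_apply']
    exact mem_wt_shift ρ α X hX ih

theorem pow_conj (k : ℕ) (a : A) : X ^ k * ρ a = ρ ((α ^ k) a) * X ^ k := by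
  induction k generalizing a with
  | zero => simp
  | succ k ih =>
    rw [pow_succ, mul_assoc, hX, ← mul_assoc, ih, pow_succ, MulAut.mul_apply, mul_assoc, ← pow_succ]

/-- Orbit vectors over an orbit of weights of length `L`. -/
theorem indep_of_orbit (hXinj : Function.Injective X) {μ : A →* K} {u : V} {r : ℕ} (L : ℕ)
    (hL : L = Function.minimalPeriod (shift α) μ) (hu : u ∈ wt ρ μ) (hr : Indep (X ^ L) u r) :
    Indep X u (L * r) := by
  classical
  refine Fintype.linearIndependent_iff.2 fun c hc => ?_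
  have hmem : ∀ k, ((X ^ L) ^ k) u ∈ wt ρ μ := by
    intro k
    induction k with
    | zero => simpa using hu
    | succ k ih =>
      rw [pow_succ', End.mul_apply]
      have := mem_wt_iterate ρ α X hX ih L
      rwa [hL, shift_period, ← hL] at this
  let e : Fin r × Fin L ≃ Fin (L * r) := finProdFinEquiv.trans (finCongr (mul_comm r L))
  have he : ∀ z, (e z : ℕ) = z.2 + L * z.1 := fun z => rfl
  let w : Fin L → V := fun i => (X ^ (i : ℕ)) (∑ k : Fin r, c (e (k, i)) • ((X ^ L) ^ (k : ℕ)) u)
  have hsum : ∑ i, w i = 0 := by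
    rw [← hc, ← Equiv.sum_comp e, Fintype.sum_prod_type, Finset.sum_comm]
    refine Finset.sum_congr rfl fun i _ => ?_
    simp only [w, map_sum, map_smul, he, pow_add, End.mul_apply, ← pow_mul]
  have hz := eq_zero_of_sum_eq_zero ρ (fun i : Fin L => (shift α)^[(i : ℕ)] μ) (fun a b h =>
    Fin.ext (Function.iterate_injOn_Iio_minimalPeriod (hL ▸ a.2 : (a : ℕ) < _) (hL ▸ b.2 : (b : ℕ) < _) h))
    w (fun i => by
      have hs : ∀ i : Fin L, (∑ k : Fin r, c (e (k, i)) • ((X ^ L) ^ (k : ℕ)) u) ∈ wt ρ μ :=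
        fun i => Submodule.sum_mem _ fun k _ => Submodule.smul_mem _ _ (hmem k)
      exact mem_wt_iterate ρ α X hX (hs i) i) hsum
  intro i
  obtain ⟨⟨k, l⟩, rfl⟩ := e.surjective i
  have h0 : ∑ k : Fin r, c (e (k, l)) • ((X ^ L) ^ (k : ℕ)) u = 0 := by
    have hl := hz l
    have hinj : Function.Injective (X ^ (l : ℕ) : End K V) := by
      rw [End.coe_pow]
      exact hXinj.iterate _
    exact (map_eq_zero_iff _ hinj).1 hl
  exact Fintype.linearIndependent_iff.1 hr _ h0 k

omit hX in
/-- A nonzero vector is an independent orbit of length one. -/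
theorem indep_one (T : End K V) {u : V} (hu : u ≠ 0) : Indep T u 1 := by
  refine Fintype.linearIndependent_iff.2 fun c hc i => ?_
  fin_cases i
  simpa [hu] using hc

end Cfsg.Lib.Solv.HH
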