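import Mathlib
import Cfsg.Agent.Lib.Solv.HHLinear
import Cfsg.Agent.Lib.Solv.HHWeights
import Cfsg.Agent.Lib.Solv.HHSimple

/-!
# The core of the Hall–Higman theorem B

A `q`-group `Q` of class at most two (commutators in the central subgroup `Z`), an automorphism
`α` of order dividing `p ^ n` whose power `α ^ p ^ (n - 1)` fixes no coset of `Z` but `Z` and moves
some operator, and a compatible invertible operator `X`: some orbit of `X` of length `p ^ n` is
linearly independent, unless `p ^ e = q ^ m + 1`, where one has length `p ^ (n - e) * q ^ m`.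
-/

set_option autoImplicit false
set_option maxHeartbeats 800000

namespace Cfsg.Lib.Solv.HH

open Module

section Res

variable {Q : Type*} [Group Q] [Finite Q]

/-- Restriction of an automorphism to an invariant subgroup. -/
noncomputable def resAut (α : MulAut Q) (S : Subgroup Q) (h : ∀ a ∈ S, α a ∈ S) : MulAut S :=
  MulEquiv.ofBijective (((α : Q ≃* Q).toMonoidHom.comp S.subtype).codRestrict S fun a => h a a.2)
    (Finite.injective_iff_bijective.1 fun a b hab => Subtype.ext (α.injective (congr_arg Subtype.val hab)))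

theorem resAut_apply (α : MulAut Q) (S : Subgroup Q) (h : ∀ a ∈ S, α a ∈ S) (a : S) :
    ((resAut α S h a : S) : Q) = α a := rfl

theorem resAut_pow_apply (α : MulAut Q) (S : Subgroup Q) (h : ∀ a ∈ S, α a ∈ S) (k : ℕ) (a : S) :
    (((resAut α S h) ^ k) a : Q) = (α ^ k) a := by
  induction k with
  | zero => simp
  | succ k ih => rw [pow_succ', MulAut.mul_apply, resAut_apply, ih, pow_succ', MulAut.mul_apply]

theorem resAut_pow_eq_one (α : MulAut Q) (S : Subgroup Q) (h : ∀ a ∈ S, α a ∈ S) {N : ℕ} (hN : α ^ N = 1) :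
    resAut α S h ^ N = 1 := by
  ext a
  rw [resAut_pow_apply, hN]
  rfl

theorem pow_mem_of_mem (α : MulAut Q) {S : Subgroup Q} (h : ∀ a ∈ S, α a ∈ S) (k : ℕ) {a : Q} (ha : a ∈ S) :
    (α ^ k) a ∈ S := by
  rw [← resAut_pow_apply α S h k ⟨a, ha⟩]
  exact SetLike.coe_mem _

/-- Fixed cosets modulo a larger invariant subgroup. -/
theorem fpf_mod_larger (τ : MulAut Q) (Z R : Subgroup Q) (hcomm : ∀ a b, a * b * a⁻¹ * b⁻¹ ∈ Z) (hZR : Z ≤ R)
    (hR : ∀ a ∈ R, τ a ∈ R) (hfpf : ∀ a, τ a * a⁻¹ ∈ Z → a ∈ Z) {a : Q} (ha : τ a * a⁻¹ ∈ R) : a ∈ R := by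
  have hn : Z.Normal := ⟨fun z hz g => by
    have := Z.mul_mem (hcomm g z) hz
    simpa [mul_assoc] using this⟩
  let δ : Q →* Q ⧸ Z :=
    { toFun := fun x => ((τ x * x⁻¹ : Q) : Q ⧸ Z)
      map_one' := by simp
      map_mul' := fun x y => by
        rw [map_mul, ← QuotientGroup.mk_mul, QuotientGroup.eq]
        have h1 : (τ x * τ y * (x * y)⁻¹)⁻¹ * (τ x * x⁻¹ * (τ y * y⁻¹)) =
            x * (y * (τ y)⁻¹) * x⁻¹ * (y * (τ y)⁻¹)⁻¹ * 1 := by group
        rw [h1, mul_one]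
        exact hcomm _ _ }
  have hker : δ.ker ≤ Z := fun x hx => hfpf x ((QuotientGroup.eq_one_iff _).1 hx)
  have himg : R.map δ ≤ R.map (QuotientGroup.mk' Z) := by
    rintro _ ⟨x, hx, rfl⟩
    exact ⟨τ x * x⁻¹, R.mul_mem (hR x hx) (R.inv_mem hx), rfl⟩
  have hcard : Nat.card (R.map (QuotientGroup.mk' Z)) ≤ Nat.card (R.map δ) := by
    refine Nat.card_le_card_of_surjective
      (fun y : R.map δ => (⟨QuotientGroup.mk' Z (Classical.choose y.2), ⟨_, (Classical.choose_spec y.2).1, rfl⟩⟩ :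
        R.map (QuotientGroup.mk' Z))) ?_
    rintro ⟨_, x, hx, rfl⟩
    refine ⟨⟨δ x, x, hx, rfl⟩, Subtype.ext ?_⟩
    set y : R.map δ := ⟨δ x, x, hx, rfl⟩ with hy
    have h2 : δ (Classical.choose y.2) = δ x := (Classical.choose_spec y.2).2
    show QuotientGroup.mk' Z (Classical.choose y.2) = QuotientGroup.mk' Z x
    refine QuotientGroup.eq.2 (hker ?_)
    rw [MonoidHom.mem_ker, map_mul, map_inv, h2, inv_mul_cancel]
  have heq : R.map δ = R.map (QuotientGroup.mk' Z) := Subgroup.eq_of_le_of_card_ge himg hcard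
  obtain ⟨x, hx, hxa⟩ : δ a ∈ R.map δ := by rw [heq]; exact ⟨_, ha, rfl⟩
  have h3 : x⁻¹ * a ∈ Z := hker (by rw [MonoidHom.mem_ker, map_mul, map_inv, hxa, inv_mul_cancel])
  simpa using R.mul_mem hx (hZR h3)

end Res

variable {K : Type*} [Field K] {V : Type*} [AddCommGroup V] [Module K V] {Q : Type*} [Group Q]

/-- A representation restricted to an invariant submodule. -/
def resRep (ρ : Q →* End K V) (W : Submodule K V) (h : ∀ g, ∀ x ∈ W, ρ g x ∈ W) : Q →* End K W where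
  toFun g := (ρ g).restrict (h g)
  map_one' := by ext x; simp
  map_mul' a b := by ext x; simp

theorem resRep_apply (ρ : Q →* End K V) (W : Submodule K V) (h : ∀ g, ∀ x ∈ W, ρ g x ∈ W) (g : Q) (x : W) :
    ((resRep ρ W h g x : W) : V) = ρ g x := rfl

theorem indep_restrict {X : End K V} {W : Submodule K V} (h : ∀ x ∈ W, X x ∈ W) {v : W} {r : ℕ}
    (hv : Indep (X.restrict h) v r) : Indep X (v : V) r := by
  have h1 := hv.map' W.subtype (Submodule.ker_subtype W)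
  have h2 : (fun i : Fin r => (X ^ (i : ℕ)) (v : V)) =
      W.subtype ∘ fun i : Fin r => ((X.restrict h) ^ (i : ℕ)) v := by
    funext i
    rw [Function.comp_apply, Module.End.pow_restrict]
    rfl
  unfold Indep
  rw [h2]
  exact h1

variable [IsAlgClosed K] [FiniteDimensional K V] [Finite Q]

theorem hh_core {p q n : ℕ} (hp : p.Prime) (hq : q.Prime) (hn : 0 < n) (hQ : IsPGroup q Q) (hqK : (q : K) ≠ 0)
    (ρ : Q →* End K V) (α : MulAut Q) (hα : α ^ p ^ n = 1) (X : End K V) (hXinj : Function.Injective X)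
    (hX : ∀ g, X * ρ g = ρ (α g) * X) (Z : Subgroup Q) (hZc : Z ≤ Subgroup.center Q)
    (hcomm : ∀ a b, a * b * a⁻¹ * b⁻¹ ∈ Z) (hZinv : ∀ a ∈ Z, α a ∈ Z)
    (hfpf : ∀ a, (α ^ p ^ (n - 1)) a * a⁻¹ ∈ Z → a ∈ Z)
    (hne : ∃ a, ρ ((α ^ p ^ (n - 1)) a) ≠ ρ a) :
    (∃ v, Indep X v (p ^ n)) ∨ ∃ (j e m : ℕ) (lam : Z →* K), j + e ≤ n ∧ 1 ≤ m ∧ 1 ≤ e ∧ p ^ e = q ^ m + 1 ∧
      (∃ v, Indep X v (p ^ (n - e) * q ^ m)) ∧
      Function.minimalPeriod (shift (resAut α Z hZinv)) lam = p ^ j ∧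
      ∃ R : Subgroup Q, Z ≤ R ∧ R.index = q ^ (2 * m) ∧ (∀ a, a ∈ R ↔ ∀ b, lam ⟨_, hcomm b a⟩ = 1) ∧
        ((∀ a ∈ R, α a = a) → e = n) := by
  classical
  haveI := Fact.mk hq
  have hcardK : ∀ S : Subgroup Q, (Nat.card S : K) ≠ 0 := fun S => by
    obtain ⟨k, hk⟩ := (hQ.to_subgroup S).exists_card_eq
    rw [hk, Nat.cast_pow]
    exact pow_ne_zero _ hqK
  set τ := α ^ p ^ (n - 1) with hτ
  -- weights of `Z`
  let ρZ := ρ.comp Z.subtype
  let αZ := resAut α Z hZinv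
  have hXZ : ∀ z : Z, X * ρZ z = ρZ (αZ z) * X := fun z => hX z
  have hZcomm : ∀ a b : Z, Commute (ρZ a) (ρZ b) := fun a b => by
    show ρ a * ρ b = ρ b * ρ a
    rw [← map_mul, ← map_mul]
    exact congr_arg ρ (Subgroup.mem_center_iff.1 (hZc b.2) (a : Q))
  obtain ⟨lam, a₀, x₀, hx₀, hdiff⟩ : ∃ lam : Z →* K, ∃ a, ∃ x ∈ wt ρZ lam, ρ (τ a) x ≠ ρ a x := by
    by_contra hcon
    push Not at hcon
    obtain ⟨a, ha⟩ := hne
    exact ha (eq_of_wt ρZ hZcomm (hcardK Z) fun μ x hx => hcon μ a x hx)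
  have hx0 : x₀ ≠ 0 := fun h => hdiff (by rw [h, map_zero, map_zero])
  rcases period_cases αZ lam hp hn (resAut_pow_eq_one α Z hZinv hα) with hfree | ⟨j, hj, hper, -⟩
  · exact Or.inl ⟨x₀, by
      simpa using indep_of_orbit ρZ αZ X hXZ hXinj (p ^ n) hfree.symm hx₀ (indep_one _ hx0)⟩
  -- the weight space and its data
  set W₁ := wt ρZ lam with hW₁
  have hρW₁ : ∀ g, ∀ x ∈ W₁, ρ g x ∈ W₁ := by
    intro g x hx
    rw [hW₁, mem_wt] at hx ⊢
    intro z
    have hc : (z : Q) * g = g * z := (Subgroup.mem_center_iff.1 (hZc z.2) g).symm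
    show ρ z (ρ g x) = _
    rw [← End.mul_apply, ← map_mul, hc, map_mul, End.mul_apply, show ρ (z : Q) x = lam z • x from hx z, map_smul]
  have hT₁W : ∀ x ∈ W₁, (X ^ p ^ j) x ∈ W₁ := by
    intro x hx
    have h1 := mem_wt_iterate ρZ αZ X hXZ hx (p ^ j)
    rwa [← hper, shift_period, hper] at h1
  let σ := resRep ρ W₁ hρW₁
  let T₁ := (X ^ p ^ j).restrict hT₁W
  let α₁ := α ^ p ^ j
  have hT₁inj : Function.Injective T₁ := fun a b h => Subtype.ext (by
    have hi : Function.Injective (X ^ p ^ j : End K V) := by rw [End.coe_pow]; exact hXinj.iterate _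
    exact hi (congr_arg Subtype.val h))
  have hT₁σ : ∀ g, T₁ * σ g = σ (α₁ g) * T₁ := fun g => LinearMap.ext fun x => Subtype.ext (by
    have := congr($(pow_conj ρ α X hX (p ^ j) g) (x : V))
    exact this)
  obtain ⟨e₀, he₀, hsum⟩ : ∃ e₀, 0 < e₀ ∧ j + e₀ = n := ⟨n - j, by omega, by omega⟩
  have hα₁ : α₁ ^ p ^ e₀ = 1 := by rw [← pow_mul, ← pow_add, hsum, hα]
  have hτ₁ : α₁ ^ p ^ (e₀ - 1) = τ := by
    rw [← pow_mul, ← pow_add, show j + (e₀ - 1) = n - 1 by omega]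
  -- the pairing
  let pair : Q → (Q →* K) := fun a =>
    { toFun := fun b => lam ⟨_, hcomm b a⟩
      map_one' := by
        rw [← map_one lam]
        congr 1
        exact Subtype.ext (show (1 : Q) * a * 1⁻¹ * a⁻¹ = 1 by group)
      map_mul' := fun b b' => by
        rw [← map_mul]
        congr 1
        apply Subtype.ext
        show b * b' * a * (b * b')⁻¹ * a⁻¹ = b * a * b⁻¹ * a⁻¹ * (b' * a * b'⁻¹ * a⁻¹)
        have hz := Subgroup.mem_center_iff.1 (hZc (hcomm b' a))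
        calc b * b' * a * (b * b')⁻¹ * a⁻¹ = (b * (b' * a * b'⁻¹ * a⁻¹)) * (a * b⁻¹ * a⁻¹) := by group
          _ = (b' * a * b'⁻¹ * a⁻¹) * (b * a * b⁻¹ * a⁻¹) := by rw [hz b]; group
          _ = _ := (hz (b * a * b⁻¹ * a⁻¹)).symm }
  have hpair : ∀ a b, pair a b = lam ⟨_, hcomm b a⟩ := fun a b => rfl
  let χ : Q →* (Q →* K) :=
    { toFun := pair
      map_one' := MonoidHom.ext fun b => by
        rw [hpair, MonoidHom.one_apply, ← map_one lam]
        congr 1
        exact Subtype.ext (show b * 1 * b⁻¹ * 1⁻¹ = 1 by group)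
      map_mul' := fun a a' => MonoidHom.ext fun b => by
        rw [hpair, MonoidHom.mul_apply, hpair, hpair, ← map_mul]
        congr 1
        apply Subtype.ext
        show b * (a * a') * b⁻¹ * (a * a')⁻¹ = b * a * b⁻¹ * a⁻¹ * (b * a' * b⁻¹ * a'⁻¹)
        have hz := Subgroup.mem_center_iff.1 (hZc (hcomm b a'))
        calc b * (a * a') * b⁻¹ * (a * a')⁻¹ = b * a * b⁻¹ * ((b * a' * b⁻¹ * a'⁻¹) * a⁻¹) := by group
          _ = b * a * b⁻¹ * a⁻¹ * (b * a' * b⁻¹ * a'⁻¹) := by rw [← hz a⁻¹]; group }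
  have hχapp : ∀ a b, χ a b = lam ⟨_, hcomm b a⟩ := fun a b => rfl
  have hχσ : ∀ a b, σ b * σ a = χ a b • (σ a * σ b) := by
    intro a b
    refine LinearMap.ext fun x => Subtype.ext ?_
    show ρ b (ρ a x) = χ a b • ρ a (ρ b x)
    rw [← End.mul_apply, ← End.mul_apply, ← map_mul, ← map_mul, hχapp]
    have hba : ρ (b * a) = ρ (b * a * b⁻¹ * a⁻¹) * ρ (a * b) := by rw [← map_mul]; congr 1; group
    rw [hba, End.mul_apply]
    exact (mem_wt ρZ).1 (hρW₁ (a * b) x x.2) ⟨_, hcomm b a⟩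
  set R := χ.ker with hR
  have hZR : Z ≤ R := by
    intro z hz
    refine MonoidHom.mem_ker.2 (MonoidHom.ext fun b => ?_)
    rw [hχapp, MonoidHom.one_apply, ← map_one lam]
    congr 1
    apply Subtype.ext
    show b * z * b⁻¹ * z⁻¹ = 1
    rw [Subgroup.mem_center_iff.1 (hZc hz) b]
    group
  have hlam₁ : ∀ z : Z, lam ((αZ ^ p ^ j) z) = lam z := (shift_fixed_iff αZ lam _).1 (by rw [← hper]; exact shift_period αZ lam)
  have hRinv : ∀ a ∈ R, α₁ a ∈ R := by
    intro a ha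
    refine MonoidHom.mem_ker.2 (MonoidHom.ext fun b => ?_)
    have h1 : χ a (α₁.symm b) = 1 := by rw [MonoidHom.mem_ker.1 ha]; rfl
    rw [hχapp] at h1 ⊢
    rw [MonoidHom.one_apply, ← h1, ← hlam₁ ⟨_, hcomm (α₁.symm b) a⟩]
    congr 1
    apply Subtype.ext
    show _ = ((αZ ^ p ^ j) ⟨_, hcomm (α₁.symm b) a⟩ : Q)
    rw [resAut_pow_apply]
    show b * α₁ a * b⁻¹ * (α₁ a)⁻¹ = α₁ (α₁.symm b * a * (α₁.symm b)⁻¹ * a⁻¹)
    simp
  let σR := σ.comp R.subtype
  let αR := resAut α₁ R hRinv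
  have hRone : ∀ r : R, ∀ g, χ (r : Q) g = 1 := fun r g => by
    rw [MonoidHom.mem_ker.1 r.2]; rfl
  have hRc : ∀ r : R, ∀ g, σ g * σ r = σ r * σ g := fun r g => by
    rw [hχσ (r : Q) g, hRone, one_smul]
  have hXR : ∀ r : R, T₁ * σR r = σR (αR r) * T₁ := fun r => hT₁σ r
  by_cases hmove : ∃ (μ : R →* K) (x : W₁), x ∈ wt σR μ ∧ x ≠ 0 ∧ ¬ ∀ r, μ ((αR ^ p ^ (e₀ - 1)) r) = μ r
  · obtain ⟨μ, x, hxμ, hxne, hnot⟩ := hmove
    rcases period_cases αR μ hp he₀ (resAut_pow_eq_one α₁ R hRinv hα₁) with hP | ⟨_, -, -, hfix⟩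
    · refine Or.inl ⟨x, ?_⟩
      have h1 := indep_of_orbit σR αR T₁ hXR hT₁inj (p ^ e₀) hP.symm hxμ (indep_one _ hxne)
      have h2 := indep_restrict hT₁W h1
      have h3 := indep_of_orbit ρZ αZ X hXZ hXinj (p ^ j) hper.symm x.2 h2
      rwa [mul_one, ← pow_add, hsum] at h3
    · exact absurd hfix hnot
  push Not at hmove
  have hRtop : R ≠ ⊤ := by
    intro htop
    refine hdiff ?_
    let a : R := ⟨a₀, htop ▸ Subgroup.mem_top _⟩
    have hEq : σR ((αR ^ p ^ (e₀ - 1)) a) = σR a := by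
      refine eq_of_wt σR (fun r r' => (hRc r' r)) (hcardK R) fun μ x hx => ?_
      by_cases hxz : x = 0
      · simp [hxz]
      rw [(mem_wt σR).1 hx, (mem_wt σR).1 hx, hmove μ x hx hxz a]
    have := congr((($hEq) ⟨x₀, hx₀⟩ : V))
    simp only [σR, MonoidHom.comp_apply, Subgroup.coe_subtype, σ, resRep_apply] at this
    rwa [resAut_pow_apply, hτ₁] at this
  -- a weight of `R`
  haveI : Nontrivial W₁ := ⟨⟨⟨x₀, hx₀⟩, 0, fun h => hx0 (congr_arg Subtype.val h)⟩⟩
  obtain ⟨μ, hμ⟩ : ∃ μ : R →* K, wt σR μ ≠ ⊥ := by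
    by_contra hcon
    push Not at hcon
    have := iSup_wt_eq_top σR (fun r r' => (hRc r' r)) (hcardK R)
    simp [hcon] at this
  obtain ⟨y₀, hy₀, hy0⟩ := Submodule.exists_mem_ne_zero_of_ne_bot hμ
  obtain ⟨j₂, hj₂, hper₂⟩ : ∃ j₂, j₂ < e₀ ∧ Function.minimalPeriod (shift αR) μ = p ^ j₂ := by
    rcases period_cases αR μ hp he₀ (resAut_pow_eq_one α₁ R hRinv hα₁) with h | ⟨j₂, h1, h2, -⟩
    · exfalso
      have hfix := (shift_fixed_iff αR μ _).2 (hmove μ y₀ hy₀ hy0)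
      have h2 : p ^ e₀ ∣ p ^ (e₀ - 1) := h ▸ Function.IsPeriodicPt.minimalPeriod_dvd hfix
      have := (Nat.pow_dvd_pow_iff_le_right hp.one_lt).1 h2
      omega
    · exact ⟨j₂, h1, h2⟩
  set W₂ := wt σR μ with hW₂
  have hσW₂ : ∀ g, ∀ x ∈ W₂, σ g x ∈ W₂ := by
    intro g x hx
    rw [hW₂, mem_wt] at hx ⊢
    intro r
    show σ r (σ g x) = _
    rw [← End.mul_apply, ← hRc r g, End.mul_apply, show σ (r : Q) x = μ r • x from hx r, map_smul]
  have hT₂W : ∀ x ∈ W₂, (T₁ ^ p ^ j₂) x ∈ W₂ := by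
    intro x hx
    have h1 := mem_wt_iterate σR αR T₁ hXR hx (p ^ j₂)
    rwa [← hper₂, shift_period, hper₂] at h1
  let σ₂ := resRep σ W₂ hσW₂
  let T₂ := (T₁ ^ p ^ j₂).restrict hT₂W
  let α₂ := α₁ ^ p ^ j₂
  have hT₂inj : Function.Injective T₂ := fun a b h => Subtype.ext (by
    have hi : Function.Injective (T₁ ^ p ^ j₂ : End K W₁) := by rw [End.coe_pow]; exact hT₁inj.iterate _
    exact hi (congr_arg Subtype.val h))
  have hT₂σ : ∀ g, T₂ * σ₂ g = σ₂ (α₂ g) * T₂ := fun g => LinearMap.ext fun x => Subtype.ext (by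
    have := congr($(pow_conj σ α₁ T₁ hT₁σ (p ^ j₂) g) (x : W₁))
    exact this)
  obtain ⟨e, he, hsum₂⟩ : ∃ e, 0 < e ∧ j₂ + e = e₀ := ⟨e₀ - j₂, by omega, by omega⟩
  have hμ₂ : ∀ r : R, μ ((αR ^ p ^ j₂) r) = μ r := (shift_fixed_iff αR μ _).1 (by rw [← hper₂]; exact shift_period αR μ)
  -- a simple submodule
  haveI : Nontrivial W₂ := ⟨⟨⟨y₀, hy₀⟩, 0, fun h => hy0 (congr_arg Subtype.val h)⟩⟩
  obtain ⟨U, ⟨hUinv, hUne⟩, hUmin⟩ := (wellFounded_lt (α := Submodule K W₂)).has_min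
    {U : Submodule K W₂ | (∀ g, ∀ x ∈ U, σ₂ g x ∈ U) ∧ U ≠ ⊥} ⟨⊤, fun _ _ _ => trivial, top_ne_bot⟩
  haveI : Nontrivial U := Submodule.nontrivial_iff_ne_bot.2 hUne
  let σU := resRep σ₂ U hUinv
  have hirr : ∀ W : Submodule K U, (∀ g, ∀ x ∈ W, σU g x ∈ W) → W = ⊥ ∨ W = ⊤ := by
    intro W hW
    by_cases hWb : W = ⊥
    · exact Or.inl hWb
    refine Or.inr ?_
    have h1 : W.map U.subtype = U := by
      by_contra hne'
      refine hUmin (W.map U.subtype) ⟨?_, ?_⟩ (lt_of_le_of_ne (Submodule.map_subtype_le U W) hne')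
      · rintro g _ ⟨x, hx, rfl⟩
        exact ⟨σU g x, hW g x hx, rfl⟩
      · exact fun h => hWb (Submodule.map_injective_of_injective U.injective_subtype (h.trans (Submodule.map_bot _).symm))
    refine Submodule.map_injective_of_injective U.injective_subtype ?_
    rw [h1, Submodule.map_top, Submodule.range_subtype]
  have hχU : ∀ a b, σU b * σU a = χ a b • (σU a * σU b) := fun a b =>
    LinearMap.ext fun x => Subtype.ext (Subtype.ext (congr($(hχσ a b) ((x : W₂) : W₁))))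
  let μ' : χ.ker → K := fun r => μ r
  have hμU : ∀ r : χ.ker, σU r = μ' r • 1 := fun r => LinearMap.ext fun x => Subtype.ext (Subtype.ext (by
    exact (mem_wt σR).1 (x : W₂).2 r))
  have hα₂ : ∀ r : χ.ker, ∃ r' : χ.ker, (r' : Q) = α₂ r ∧ μ' r' = μ' r := fun r =>
    ⟨(αR ^ p ^ j₂) r, resAut_pow_apply α₁ R hRinv _ r, hμ₂ r⟩
  obtain ⟨a, ha⟩ := exists_intertwiner (K := K) (U := U) σU χ hχU hirr μ' hμU α₂ hα₂
  -- transport the intertwiner into `W₂`
  let M : Submodule K (U →ₗ[K] W₂) :=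
    { carrier := {φ | ∀ g x, φ (σU g x) = σ₂ g (φ x)}
      add_mem' := fun {f f'} hf hf' g x => by
        show f _ + f' _ = σ₂ g (f x + f' x)
        rw [hf, hf', map_add]
      zero_mem' := fun g x => by simp
      smul_mem' := fun c f hf g x => by
        show c • f _ = σ₂ g (c • f x)
        rw [hf, map_smul] }
  letI : AddCommGroup (U →ₗ[K] W₂) := LinearMap.addCommGroup
  letI : AddCommGroup M := Submodule.addCommGroup M
  let F : End K M :=
    { toFun := fun φ => ⟨T₂ ∘ₗ (φ : U →ₗ[K] W₂) ∘ₗ (a.symm : U →ₗ[K] U), fun g x => by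
        have h1 : a.symm (σU g x) = σU (α₂.symm g) (a.symm x) := by
          rw [LinearEquiv.symm_apply_eq]
          have := congr($(ha (α₂.symm g)) (a.symm x))
          rw [MulEquiv.apply_symm_apply] at this
          simpa using this.symm
        show T₂ ((φ : U →ₗ[K] W₂) (a.symm (σU g x))) = σ₂ g (T₂ ((φ : U →ₗ[K] W₂) (a.symm x)))
        rw [h1, φ.2]
        have := congr($(hT₂σ (α₂.symm g)) ((φ : U →ₗ[K] W₂) (a.symm x)))
        rw [MulEquiv.apply_symm_apply] at this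
        exact this⟩
      map_add' := fun f f' => Subtype.ext (LinearMap.ext fun x => by simp)
      map_smul' := fun c f => Subtype.ext (LinearMap.ext fun x => by simp) }
  haveI : Nontrivial M := ⟨⟨⟨U.subtype, fun g x => rfl⟩, 0, fun h => by
    obtain ⟨u, hu⟩ := exists_ne (0 : U)
    exact hu (Subtype.ext congr(($h : U →ₗ[K] W₂) u))⟩⟩
  obtain ⟨ν, hν⟩ := Module.End.exists_eigenvalue F
  obtain ⟨φ, hφ⟩ := hν.exists_hasEigenvector
  have hφ0 : (φ : U →ₗ[K] W₂) ≠ 0 := fun h => hφ.2 (Subtype.ext h)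
  have hφker : LinearMap.ker (φ : U →ₗ[K] W₂) = ⊥ := by
    refine (hirr _ fun g x hx => ?_).resolve_right fun h => hφ0 (LinearMap.ker_eq_top.1 h)
    rw [LinearMap.mem_ker, φ.2, LinearMap.mem_ker.1 hx, map_zero]
  have hφinj : Function.Injective (φ : U →ₗ[K] W₂) := fun x y hxy => by
    have h0 := LinearMap.ker_eq_bot'.1 hφker (x + (-1 : K) • y) (by
      rw [map_add, map_smul, hxy]
      apply Subtype.ext
      apply Subtype.ext
      simp)
    apply Subtype.ext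
    apply Subtype.ext
    apply Subtype.ext
    have h1 := congr(((((($h0 : U) : W₂) : W₁)) : V))
    simpa [add_neg_eq_zero] using h1
  have heig : ∀ x, T₂ ((φ : U →ₗ[K] W₂) (a.symm x)) = ν • (φ : U →ₗ[K] W₂) x := fun x =>
    congr((($(hφ.apply_eq_smul) : M) : U →ₗ[K] W₂) x)
  let S : End K U := ν • (a : End K U)
  have hcompat : ∀ x, T₂ ((φ : U →ₗ[K] W₂) x) = (φ : U →ₗ[K] W₂) (S x) := fun x => by
    have := heig (a x)
    rw [LinearEquiv.symm_apply_apply] at this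
    simpa [S] using this
  have hν0 : ν ≠ 0 := by
    intro h0
    obtain ⟨u, hu⟩ := exists_ne (0 : U)
    have := hcompat u
    rw [show S u = 0 by simp [S, h0], map_zero, ← map_zero T₂] at this
    exact hu (hφinj (by rw [hT₂inj this, map_zero]))
  have hSinj : Function.Injective S := fun x y h => a.injective (smul_right_injective U hν0 h)
  have hSσ : ∀ g, S * σU g = σU (α₂ g) * S := fun g => by
    show (ν • (a : End K U)) * σU g = σU (α₂ g) * (ν • (a : End K U))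
    rw [smul_mul_assoc, mul_smul_comm, ha]
  -- the dimension
  have hsq := finrank_sq (K := K) (U := U) σU χ hχU hirr μ' hμU
  rw [← hR] at hsq
  haveI : R.Normal := MonoidHom.normal_ker χ
  obtain ⟨k, hk⟩ := hQ.index R
  have hN1 : 1 < finrank K U := by
    by_contra hle
    have h01 : finrank K U = 1 := by
      have := Module.finrank_pos (R := K) (M := U)
      omega
    rw [h01, one_pow] at hsq
    exact hRtop (Subgroup.index_eq_one.1 hsq.symm)
  obtain ⟨m, -, hm⟩ := (Nat.dvd_prime_pow hq).1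
    (show finrank K U ∣ q ^ k from hk ▸ hsq ▸ dvd_pow_self _ two_ne_zero)
  have hm1 : 1 ≤ m := by
    by_contra h
    rw [show m = 0 by omega, pow_zero] at hm
    omega
  -- orbit lifting
  have hlift : ∀ (u : U) (r : ℕ), Indep S u r → ∃ v, Indep X v (p ^ j * (p ^ j₂ * r)) := by
    intro u r hur
    have h1 : Indep T₂ ((φ : U →ₗ[K] W₂) u) r := by
      have h0 := hur.map' (φ : U →ₗ[K] W₂) hφker
      have hpw : ∀ (t : ℕ) (x : U), (T₂ ^ t) ((φ : U →ₗ[K] W₂) x) = (φ : U →ₗ[K] W₂) ((S ^ t) x) := by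
        intro t
        induction t with
        | zero => simp
        | succ t ih =>
          intro x
          rw [pow_succ', End.mul_apply, ih, pow_succ', End.mul_apply]
          exact hcompat _
      have h2 : (fun i : Fin r => (T₂ ^ (i : ℕ)) ((φ : U →ₗ[K] W₂) u)) =
          (φ : U →ₗ[K] W₂) ∘ fun i : Fin r => (S ^ (i : ℕ)) u := funext fun i => hpw i u
      unfold Indep
      rw [h2]
      exact h0
    have h2 := indep_of_orbit σR αR T₁ hXR hT₁inj (p ^ j₂) hper₂.symm ((φ : U →ₗ[K] W₂) u).2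
      (indep_restrict hT₂W h1)
    exact ⟨_, indep_of_orbit ρZ αZ X hXZ hXinj (p ^ j) hper.symm ((((φ : U →ₗ[K] W₂) u : W₂) : W₁)).2
      (indep_restrict hT₁W h2)⟩
  -- regularity of the orbits on `Q / R`
  have hP : α₂ ^ p ^ e = 1 := by rw [← pow_mul, ← pow_add, hsum₂, hα₁]
  have hτ₂ : α₂ ^ p ^ (e - 1) = τ := by rw [← pow_mul, ← pow_add, show j₂ + (e - 1) = e₀ - 1 by omega, hτ₁]
  have hR₂ : ∀ b ∈ R, α₂ b ∈ R := fun b hb => pow_mem_of_mem α₁ hRinv _ hb
  have hfree : ∀ g, g ∉ R → ∀ t, 0 < t → t < p ^ e → (α₂ ^ t) g * g⁻¹ ∉ R := by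
    intro g hg t ht htP hmem
    haveI := hR
    have hmap : R.map (α₂ : Q ≃* Q).toMonoidHom = R := by
      refine Subgroup.eq_of_le_of_card_ge (Subgroup.map_le_iff_le_comap.2 hR₂) ?_
      rw [Subgroup.card_map_of_injective α₂.injective]
    let f : Q ⧸ R → Q ⧸ R := QuotientGroup.congr R R (α₂ : Q ≃* Q) hmap
    have hf : ∀ (i : ℕ) (b : Q), f^[i] (b : Q ⧸ R) = (((α₂ ^ i) b : Q) : Q ⧸ R) := by
      intro i
      induction i with
      | zero => simp
      | succ i ih =>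
        intro b
        rw [Function.iterate_succ_apply', ih, pow_succ', MulAut.mul_apply]
        rfl
    have hper' : ∀ i, f^[i] (g : Q ⧸ R) = (g : Q ⧸ R) ↔ (α₂ ^ i) g * g⁻¹ ∈ R := by
      intro i
      rw [hf, ← QuotientGroup.eq_one_iff, QuotientGroup.mk_mul, QuotientGroup.mk_inv, mul_inv_eq_one]
    have h1 : Function.minimalPeriod f (g : Q ⧸ R) ∣ p ^ e :=
      Function.IsPeriodicPt.minimalPeriod_dvd ((hper' _).2 (by rw [hP]; simp))
    have h2 : Function.minimalPeriod f (g : Q ⧸ R) ∣ t :=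
      Function.IsPeriodicPt.minimalPeriod_dvd ((hper' _).2 hmem)
    obtain ⟨i, hi, hi'⟩ := (Nat.dvd_prime_pow hp).1 h1
    rcases hi.lt_or_eq with hlt | rfl
    · refine hg (fpf_mod_larger τ Z R hcomm hZR (fun b hb => hτ₂ ▸ pow_mem_of_mem α₂ hR₂ _ hb) hfpf ?_)
      rw [← hτ₂, ← hper']
      exact Function.isPeriodicPt_iff_minimalPeriod_dvd.2 (hi' ▸ pow_dvd_pow p (by omega))
    · rw [hi'] at h2
      exact absurd (Nat.le_of_dvd ht h2) (by omega)
  obtain ⟨u, hu⟩ := exists_indep (V := U) S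
  rcases minpoly_degree_cases (K := K) (U := U) σU χ hχU hirr μ' hμU α₂ hα₂ S hSinj hSσ (pow_pos hp.pos e)
    (fun g => by rw [hP]; simp) hfree hN1 with hbig | ⟨hNP, hr⟩
  · have hu' : Indep S u (p ^ e) := hu.comp (fun i : Fin (p ^ e) => ⟨i, by omega⟩) (fun a b h => Fin.ext (by simpa using h))
    obtain ⟨v, hv⟩ := hlift u _ hu'
    refine Or.inl ⟨v, ?_⟩
    rwa [← pow_add, ← pow_add, show j + (j₂ + e) = n by omega] at hv
  · rw [hr, hm] at hu
    obtain ⟨v, hv⟩ := hlift u _ hu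
    refine Or.inr ⟨j, e, m, lam, by omega, hm1, he, by rw [← hm]; omega, ⟨v, ?_⟩, hper, R, hZR, ?_, ?_, fun hfix => ?_⟩
    · rwa [show p ^ (n - e) * q ^ m = p ^ j * (p ^ j₂ * q ^ m) by
        rw [← mul_assoc, ← pow_add]; congr 2; omega]
    · rw [← hsq, hm, ← pow_mul]; ring_nf
    · intro b
      rw [hR, MonoidHom.mem_ker]
      exact ⟨fun h c => by rw [← hχapp, h]; rfl, fun h => MonoidHom.ext fun c => h c⟩
    · have hj0 : j = 0 := by
        have h1 : (shift αZ)^[1] lam = lam := (shift_fixed_iff αZ lam 1).2 fun z => by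
          congr 1
          exact Subtype.ext (by rw [pow_one, resAut_apply, hfix _ (hZR z.2)])
        have h2 := Function.IsPeriodicPt.minimalPeriod_dvd (h1 : Function.IsPeriodicPt (shift αZ) 1 lam)
        rw [hper, Nat.dvd_one, Nat.pow_eq_one] at h2
        exact h2.resolve_left hp.one_lt.ne'
      have hj20 : j₂ = 0 := by
        have h1 : (shift αR)^[1] μ = μ := (shift_fixed_iff αR μ 1).2 fun r => by
          congr 1
          apply Subtype.ext
          rw [pow_one, resAut_apply]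
          show (α ^ p ^ j) (r : Q) = r
          rw [hj0, pow_zero, pow_one, hfix _ r.2]
        have h2 := Function.IsPeriodicPt.minimalPeriod_dvd (h1 : Function.IsPeriodicPt (shift αR) 1 μ)
        rw [hper₂, Nat.dvd_one, Nat.pow_eq_one] at h2
        exact h2.resolve_left hp.one_lt.ne'
      omega

end Cfsg.Lib.Solv.HH
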