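import Mathlib
import Cfsg.Agent.Lib.Solv.HHCore

/-!
# The Hall–Higman theorem B and the fixed-point-free consequence

* `hall_higman`: a `q`-group `Q` (`q ≠ p`) acted on by `α` of order dividing `p ^ n`, operators `ρ` in
  characteristic `≠ q` over any field, an invertible `X` with `X ρ g = ρ (α g) X`; if
  `α ^ p ^ (n - 1)` moves some operator then every nonzero polynomial killing `X` has degree at
  least `p ^ n`, unless `Q` is nonabelian, `p ^ e = q ^ m + 1` and the degree is at least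
  `p ^ (n - e) * q ^ m`.
* `shult`: if `p` is odd and `α`, `X` have no fixed points then `α ^ p ^ (n - 1)` moves no operator.
-/

set_option autoImplicit false

namespace Cfsg.Lib.Solv.HH

open Module TensorProduct

section Critical

variable {Q : Type*} [Group Q] [Finite Q]

/-- The fixed subgroup of an automorphism. -/
def fixSub (τ : MulAut Q) : Subgroup Q where
  carrier := {a | τ a = a}
  mul_mem' := fun {a b} (ha : τ a = a) (hb : τ b = b) => by
    show τ (a * b) = a * b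
    rw [map_mul, ha, hb]
  one_mem' := map_one τ
  inv_mem' := fun {a} (ha : τ a = a) => by
    show τ a⁻¹ = a⁻¹
    rw [map_inv, ha]

theorem mem_fixSub {τ : MulAut Q} {a : Q} : a ∈ fixSub τ ↔ τ a = a := Iff.rfl

/-- The structure of a `q`-group all whose proper invariant subgroups are fixed. -/
theorem critical_structure {p q n : ℕ} (hp : p.Prime) (hq : q.Prime) (hpq : p ≠ q) (hQ : IsPGroup q Q)
    (α : MulAut Q) (hn : 0 < n) (hα : α ^ p ^ n = 1) (hmove : ∃ a, (α ^ p ^ (n - 1)) a ≠ a)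
    (hcrit : ∀ H : Subgroup Q, (∀ a ∈ H, α a ∈ H) → H ≠ ⊤ → ∀ a ∈ H, (α ^ p ^ (n - 1)) a = a) :
    fixSub (α ^ p ^ (n - 1)) ≤ Subgroup.center Q ∧
    (∀ a b, a * b * a⁻¹ * b⁻¹ ∈ fixSub (α ^ p ^ (n - 1))) ∧
    (∀ a ∈ fixSub (α ^ p ^ (n - 1)), α a ∈ fixSub (α ^ p ^ (n - 1))) ∧
    ∀ a, (α ^ p ^ (n - 1)) a * a⁻¹ ∈ fixSub (α ^ p ^ (n - 1)) → a ∈ fixSub (α ^ p ^ (n - 1)) := by
  haveI := Fact.mk hq
  set τ := α ^ p ^ (n - 1) with hτ
  have hτp : τ ^ p = 1 := by rw [hτ, ← pow_mul, ← pow_succ, show n - 1 + 1 = n by omega, hα]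
  have hcomm : ∀ a, τ (α a) = α (τ a) := fun a => by
    rw [← MulAut.mul_apply, ← MulAut.mul_apply, hτ, ← pow_succ, ← pow_succ']
  have hfix2 : ∀ a c, τ c = c → τ a = c * a → τ a = a := by
    intro a c hc ha
    have hk : ∀ k : ℕ, (τ ^ k) a = c ^ k * a := by
      intro k
      induction k with
      | zero => simp
      | succ k ih => rw [pow_succ', MulAut.mul_apply, ih, map_mul, map_pow, hc, ha, ← mul_assoc, ← pow_succ]
    have h1 := hk p
    rw [hτp, MulAut.one_apply, eq_comm, mul_eq_right] at h1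
    obtain ⟨k, hk'⟩ := hQ c
    have hc1 : c = 1 := by
      have hcop : (p : ℕ).Coprime (q ^ k) := Nat.Coprime.pow_right k ((Nat.coprime_primes hp hq).2 hpq)
      have h2 := pow_gcd_eq_one.2 ⟨h1, hk'⟩
      rwa [hcop.gcd_eq_one, pow_one] at h2
    rw [ha, hc1, one_mul]
  have hinvfix : ∀ a ∈ fixSub τ, α a ∈ fixSub τ := fun a (ha : τ a = a) => by
    show τ (α a) = α a
    rw [hcomm, ha]
  -- the displacements generate
  let C := Subgroup.closure (Set.range fun a => a⁻¹ * τ a)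
  have hC : C = ⊤ := by
    by_contra hCne
    have hCinv : ∀ a ∈ C, α a ∈ C := by
      intro a ha
      have hle : C ≤ C.comap (α : Q ≃* Q).toMonoidHom := by
        refine (Subgroup.closure_le _).2 ?_
        rintro _ ⟨b, rfl⟩
        refine Subgroup.subset_closure ⟨α b, ?_⟩
        show (α b)⁻¹ * τ (α b) = α (b⁻¹ * τ b)
        rw [hcomm, map_mul, map_inv]
      exact hle ha
    obtain ⟨a, ha⟩ := hmove
    have h1 := hcrit C hCinv hCne _ (Subgroup.subset_closure ⟨a, rfl⟩)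
    refine ha ?_
    -- apply the fixing argument to the inverse
    have h2 : τ a⁻¹ = a⁻¹ := hfix2 a⁻¹ ((a⁻¹ * τ a)⁻¹) (by rw [map_inv, h1]) (by
      rw [map_inv]; group)
    rw [map_inv, inv_inj] at h2
    exact h2
  have hcommutator : commutator Q ≤ fixSub τ := by
    haveI : Nontrivial Q := by
      obtain ⟨a, ha⟩ := hmove
      exact ⟨⟨_, _, ha⟩⟩
    haveI : Group.IsNilpotent Q := hQ.isNilpotent
    refine fun a ha => hcrit (commutator Q) (fun b hb => ?_) ?_ a ha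
    · exact (Subgroup.characteristic_iff_map_le.1 inferInstance (α : Q ≃* Q)) ⟨b, hb, rfl⟩
    · exact ne_of_lt (Group.IsSolvable.commutator_lt_top_of_nontrivial (G := Q))
  have hmem : ∀ a b, a * b * a⁻¹ * b⁻¹ ∈ fixSub τ := fun a b =>
    hcommutator (Subgroup.commutator_mem_commutator (Subgroup.mem_top a) (Subgroup.mem_top b))
  refine ⟨fun f hf => Subgroup.mem_center_iff.2 fun g => ?_, hmem, hinvfix, fun a ha => hfix2 a (τ a * a⁻¹) ha (by group)⟩
  have key : C ≤ Subgroup.centralizer {f} := by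
    refine (Subgroup.closure_le _).2 ?_
    rintro _ ⟨a, rfl⟩
    refine Subgroup.mem_centralizer_singleton_iff.2 ?_
    have h1 : a * f * a⁻¹ ∈ fixSub τ := by
      have := (fixSub τ).mul_mem (hmem a f) hf
      simpa [mul_assoc] using this
    have h2 : τ (a * f * a⁻¹) = a * f * a⁻¹ := h1
    rw [map_mul, map_mul, map_inv, show τ f = f from hf] at h2
    show a⁻¹ * τ a * f = f * (a⁻¹ * τ a)
    calc a⁻¹ * τ a * f = a⁻¹ * (τ a * f * (τ a)⁻¹) * τ a := by group
      _ = f * (a⁻¹ * τ a) := by rw [h2]; group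
  exact Subgroup.mem_centralizer_singleton_iff.1 (key (by rw [hC]; trivial))

end Critical

section Degree

variable {F : Type*} [Field F] {V : Type*} [AddCommGroup V] [Module F V]

/-- Every nonzero polynomial killing `X` has degree at least `r`. -/
def DegGE (X : End F V) (r : ℕ) : Prop :=
  ∀ f : Polynomial F, f ≠ 0 → Polynomial.aeval X f = 0 → r ≤ f.natDegree

theorem degGE_of_indep (X : End F V) {v : V} {r : ℕ} (h : Indep X v r) : DegGE X r := by
  intro f hf hfX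
  by_contra hlt
  push Not at hlt
  refine hf (Polynomial.ext fun i => ?_)
  rw [Polynomial.coeff_zero]
  by_cases hi : i < r
  · have h0 : ∑ k : Fin r, f.coeff k • (X ^ (k : ℕ)) v = 0 := by
      have h1 := congr($hfX v)
      rw [Polynomial.aeval_eq_sum_range' hlt, LinearMap.sum_apply] at h1
      rw [Fin.sum_univ_eq_sum_range (fun i => f.coeff i • (X ^ i) v)]
      simpa using h1
    exact Fintype.linearIndependent_iff.1 h _ h0 ⟨i, hi⟩
  · exact Polynomial.coeff_eq_zero_of_natDegree_lt (by omega)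

variable (K : Type*) [Field K] [Algebra F K]

theorem degGE_of_baseChange (X : End F V) {r : ℕ} (h : DegGE (End.baseChangeHom F K V X) r) : DegGE X r := by
  intro f hf hfX
  have h2 : (f.map (algebraMap F K)).natDegree = f.natDegree := Polynomial.natDegree_map _
  rw [← h2]
  refine h _ (Polynomial.map_ne_zero hf) ?_
  rw [Polynomial.aeval_map_algebraMap, Polynomial.aeval_algHom_apply, hfX, map_zero]

theorem baseChangeHom_injective : Function.Injective (End.baseChangeHom F K V) := by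
  intro f g h
  refine LinearMap.ext fun x => ?_
  have h1 := congr($h ((1 : K) ⊗ₜ[F] x))
  exact (Module.Flat.tensorProduct_mk_injective (R := F) (S := K) (M := V) : _) h1

theorem baseChangeHom_injective_apply {X : End F V} (hX : Function.Injective X) :
    Function.Injective (End.baseChangeHom F K V X) :=
  Module.Flat.lTensor_preserves_injective_linearMap (M := K) X hX

end Degree

section Reduce

universe u

variable {F : Type*} [Field F] {V : Type*} [AddCommGroup V] [Module F V] [FiniteDimensional F V]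
  {Q : Type u} [Group Q] [Finite Q]

/-- Reduction to a faithful critical section. -/
theorem reduce {C : Prop} {p n q : ℕ} (hQ : IsPGroup q Q) (ρ : Q →* End F V) (α : MulAut Q)
    (hα : α ^ p ^ n = 1) (X : End F V) (hXinj : Function.Injective X) (hX : ∀ g, X * ρ g = ρ (α g) * X)
    (hne : ∃ a, ρ ((α ^ p ^ (n - 1)) a) ≠ ρ a)
    (main : ∀ (Q₂ : Type u) [Group Q₂] [Finite Q₂], IsPGroup q Q₂ → ∀ (α₂ : MulAut Q₂) (ρ₂ : Q₂ →* End F V),
      α₂ ^ p ^ n = 1 → (∀ g, X * ρ₂ g = ρ₂ (α₂ g) * X) → Function.Injective ρ₂ →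
      (∃ a, (α₂ ^ p ^ (n - 1)) a ≠ a) →
      (∀ H : Subgroup Q₂, (∀ a ∈ H, α₂ a ∈ H) → H ≠ ⊤ → ∀ a ∈ H, (α₂ ^ p ^ (n - 1)) a = a) →
      ((∀ a, α a = a → a = 1) → ∀ a, α₂ a = a → a = 1) →
      ((∀ a b : Q, a * b = b * a) → ∀ a b : Q₂, a * b = b * a) →
      (Function.Injective ρ → (∀ a, (α ^ p ^ (n - 1)) a = a → α a = a) →
        ∀ a, (α₂ ^ p ^ (n - 1)) a = a → α₂ a = a) → C) : C := by
  classical
  obtain ⟨Q₁, ⟨hinv, hmoved⟩, hmin⟩ := (wellFounded_lt (α := Subgroup Q)).has_min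
    {H : Subgroup Q | (∀ a ∈ H, α a ∈ H) ∧ ∃ a ∈ H, ρ ((α ^ p ^ (n - 1)) a) ≠ ρ a}
    ⟨⊤, fun _ _ => trivial, let ⟨a, ha⟩ := hne; ⟨a, trivial, ha⟩⟩
  let α' := resAut α Q₁ hinv
  let ρ' : Q₁ →* End F V := ρ.comp Q₁.subtype
  have hρ' : ∀ g : Q₁, X * ρ' g = ρ' (α' g) * X := fun g => hX g
  let Nk := ρ'.ker
  have hkinv : ∀ a ∈ Nk, α' a ∈ Nk := by
    intro a ha
    rw [MonoidHom.mem_ker] at ha ⊢
    have h1 := hρ' a
    rw [ha, mul_one] at h1
    refine LinearMap.ext fun x => ?_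
    obtain ⟨y, rfl⟩ := LinearMap.injective_iff_surjective.1 hXinj x
    exact congr($h1.symm y)
  have hNkmap : Nk.map (α' : Q₁ ≃* Q₁).toMonoidHom = Nk := by
    refine Subgroup.eq_of_le_of_card_ge (Subgroup.map_le_iff_le_comap.2 hkinv) ?_
    rw [Subgroup.card_map_of_injective (show Function.Injective (α' : Q₁ ≃* Q₁).toMonoidHom from α'.injective)]
  let α₂ : MulAut (Q₁ ⧸ Nk) := QuotientGroup.congr Nk Nk (α' : Q₁ ≃* Q₁) hNkmap
  have hα₂ : ∀ (k : ℕ) (a : Q₁), (α₂ ^ k) (a : Q₁ ⧸ Nk) = (((α' ^ k) a : Q₁) : Q₁ ⧸ Nk) := by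
    intro k
    induction k with
    | zero => simp
    | succ k ih =>
      intro a
      rw [pow_succ', MulAut.mul_apply, ih, pow_succ', MulAut.mul_apply]
      rfl
  let ρ₂ : Q₁ ⧸ Nk →* End F V := QuotientGroup.lift Nk ρ' le_rfl
  have hτval : ∀ a : Q₁, ((((α' ^ p ^ (n - 1)) a) : Q₁) : Q) = (α ^ p ^ (n - 1)) a := fun a =>
    resAut_pow_apply α Q₁ hinv _ a
  have hinj : Function.Injective ρ₂ := by
    rw [← MonoidHom.ker_eq_bot_iff, eq_bot_iff]
    intro a ha
    obtain ⟨a, rfl⟩ := QuotientGroup.mk_surjective a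
    exact (QuotientGroup.eq_one_iff a).2 ha
  refine main (Q₁ ⧸ Nk) ((hQ.to_subgroup Q₁).to_quotient Nk) α₂ ρ₂ ?_ ?_ hinj ?_ ?_ ?_ ?_ ?_
  · refine MulEquiv.ext fun a => ?_
    obtain ⟨a, rfl⟩ := QuotientGroup.mk_surjective a
    rw [hα₂, resAut_pow_eq_one α Q₁ hinv hα]
    rfl
  · intro g
    obtain ⟨g, rfl⟩ := QuotientGroup.mk_surjective g
    exact hρ' g
  · obtain ⟨a, ha, h⟩ := hmoved
    refine ⟨((⟨a, ha⟩ : Q₁) : Q₁ ⧸ Nk), fun h' => h ?_⟩
    have h2 := congr_arg ρ₂ h'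
    rw [hα₂] at h2
    rw [← hτval ⟨a, ha⟩]
    exact h2
  · intro H hH hHtop a ha
    obtain ⟨a, rfl⟩ := QuotientGroup.mk_surjective a
    refine hinj ?_
    rw [hα₂]
    show ρ ((α' ^ p ^ (n - 1)) a : Q₁) = ρ a
    rw [hτval]
    by_contra hcon
    refine hmin ((H.comap (QuotientGroup.mk' Nk)).map Q₁.subtype) ⟨?_, ⟨_, ⟨a, ha, rfl⟩, hcon⟩⟩ ?_
    · rintro _ ⟨b, hb, rfl⟩
      exact ⟨α' b, hH _ hb, rfl⟩
    · refine lt_of_le_of_ne (Subgroup.map_subtype_le _) fun h => hHtop ?_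
      have h1 : H.comap (QuotientGroup.mk' Nk) = ⊤ := by
        refine Subgroup.map_injective Q₁.subtype_injective ?_
        rw [h, ← MonoidHom.range_eq_map, Subgroup.range_subtype]
      rw [← Subgroup.map_comap_eq_self_of_surjective (QuotientGroup.mk'_surjective Nk) H, h1,
        Subgroup.map_top_of_surjective _ (QuotientGroup.mk'_surjective Nk)]
  · intro hfpf a ha
    obtain ⟨a, rfl⟩ := QuotientGroup.mk_surjective a
    let d : Nk → Nk := fun b => ⟨(b : Q₁)⁻¹ * α' b, Nk.mul_mem (Nk.inv_mem b.2) (hkinv b b.2)⟩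
    have hd : Function.Injective d := by
      intro x y hxy
      have h1 : (x : Q₁)⁻¹ * α' x = (y : Q₁)⁻¹ * α' y := congr_arg Subtype.val hxy
      have h2 : α' ((y : Q₁) * (x : Q₁)⁻¹) = (y : Q₁) * (x : Q₁)⁻¹ := by
        rw [map_mul, map_inv, mul_inv_eq_iff_eq_mul, mul_assoc, h1, mul_inv_cancel_left]
      have h3 := hfpf _ (congr_arg Subtype.val h2)
      exact Subtype.ext (mul_inv_eq_one.1 (Subtype.ext h3 : (y : Q₁) * (x : Q₁)⁻¹ = 1)).symm
    have hmem : a⁻¹ * α' a ∈ Nk := QuotientGroup.eq.1 ha.symm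
    obtain ⟨b, hb⟩ := (Finite.injective_iff_surjective.1 hd) ⟨_, hmem⟩
    have h1 : (b : Q₁)⁻¹ * α' b = a⁻¹ * α' a := congr_arg Subtype.val hb
    have h2 : α' (a * (b : Q₁)⁻¹) = a * (b : Q₁)⁻¹ := by
      rw [map_mul, map_inv, mul_inv_eq_iff_eq_mul, mul_assoc, h1, mul_inv_cancel_left]
    have h3 : a * (b : Q₁)⁻¹ = 1 := Subtype.ext (hfpf _ (congr_arg Subtype.val h2))
    rw [QuotientGroup.eq_one_iff, mul_inv_eq_one.1 h3]
    exact b.2
  · intro hab a b
    obtain ⟨a, rfl⟩ := QuotientGroup.mk_surjective a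
    obtain ⟨b, rfl⟩ := QuotientGroup.mk_surjective b
    exact congr_arg _ (Subtype.ext (hab a b))
  · intro hρ hfix a ha
    obtain ⟨a, rfl⟩ := QuotientGroup.mk_surjective a
    have h2 := congr_arg ρ₂ ha
    rw [hα₂] at h2
    have h3 : (α ^ p ^ (n - 1)) (a : Q) = a := by
      rw [← hτval]
      exact hρ h2
    rw [← pow_one α₂, hα₂, pow_one]
    exact congr_arg _ (Subtype.ext (hfix _ h3))

omit [Finite Q] in
theorem core_closure [Finite Q] {p q n : ℕ} (hp : p.Prime) (hq : q.Prime) (hpq : p ≠ q) (hn : 0 < n)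
    (hQ : IsPGroup q Q) (hqF : (q : F) ≠ 0) (α : MulAut Q) (hα : α ^ p ^ n = 1) (X : End F V)
    (hXinj : Function.Injective X) (ρ : Q →* End F V) (hX : ∀ g, X * ρ g = ρ (α g) * X) (hinj : Function.Injective ρ)
    (hmove : ∃ a, (α ^ p ^ (n - 1)) a ≠ a)
    (hcrit : ∀ H : Subgroup Q, (∀ a ∈ H, α a ∈ H) → H ≠ ⊤ → ∀ a ∈ H, (α ^ p ^ (n - 1)) a = a) :
    DegGE X (p ^ n) ∨ ∃ (j e m : ℕ) (Z : Subgroup Q) (hcomm : ∀ a b, a * b * a⁻¹ * b⁻¹ ∈ Z)
      (hZinv : ∀ a ∈ Z, α a ∈ Z) (lam : Z →* AlgebraicClosure F) (R : Subgroup Q),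
      Z = fixSub (α ^ p ^ (n - 1)) ∧ j + e ≤ n ∧ 1 ≤ m ∧ 1 ≤ e ∧ p ^ e = q ^ m + 1 ∧ DegGE X (p ^ (n - e) * q ^ m) ∧
      Function.minimalPeriod (shift (resAut α Z hZinv)) lam = p ^ j ∧
      Z ≤ R ∧ R.index = q ^ (2 * m) ∧ (∀ a, a ∈ R ↔ ∀ b, lam ⟨_, hcomm b a⟩ = 1) ∧
      ((∀ a ∈ R, α a = a) → e = n) := by
  obtain ⟨hc, hcm, hi, hf⟩ := critical_structure hp hq hpq hQ α hn hα hmove hcrit
  let K := AlgebraicClosure F
  let ρK := (End.baseChangeHom F K V).toMonoidHom.comp ρ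
  have hqK : (q : K) ≠ 0 := by
    rw [← map_natCast (algebraMap F K)]
    exact (map_ne_zero _).2 hqF
  rcases hh_core hp hq hn hQ hqK ρK α hα (End.baseChangeHom F K V X) (baseChangeHom_injective_apply K hXinj)
      (fun g => by
        show End.baseChangeHom F K V X * End.baseChangeHom F K V (ρ g) = _
        rw [← map_mul, hX, map_mul]
        rfl) _ hc hcm hi hf
      (by
        obtain ⟨a, ha⟩ := hmove
        exact ⟨a, fun h => ha (hinj (baseChangeHom_injective K h))⟩) with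
    ⟨v, hv⟩ | ⟨j, e, m, lam, hje, hm, he, hPe, ⟨v, hv⟩, hper, R, hZR, hRi, hRm, hfix⟩
  · exact Or.inl (degGE_of_baseChange K X (degGE_of_indep _ hv))
  · exact Or.inr ⟨j, e, m, _, hcm, hi, lam, R, rfl, hje, hm, he, hPe,
      degGE_of_baseChange K X (degGE_of_indep _ hv), hper, hZR, hRi, hRm, hfix⟩

/-- **Hall–Higman theorem B.** -/
theorem hall_higman {p q n : ℕ} (hp : p.Prime) (hq : q.Prime) (hpq : p ≠ q) (hn : 0 < n)
    (hQ : IsPGroup q Q) (hqF : (q : F) ≠ 0) (ρ : Q →* End F V) (α : MulAut Q) (hα : α ^ p ^ n = 1)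
    (X : End F V) (hXinj : Function.Injective X) (hX : ∀ g, X * ρ g = ρ (α g) * X)
    (hne : ∃ a, ρ ((α ^ p ^ (n - 1)) a) ≠ ρ a) :
    DegGE X (p ^ n) ∨ ∃ e m : ℕ, 1 ≤ e ∧ e ≤ n ∧ 1 ≤ m ∧ p ^ e = q ^ m + 1 ∧ (¬ ∀ a b : Q, a * b = b * a) ∧
      DegGE X (p ^ (n - e) * q ^ m) := by
  refine reduce hQ ρ α hα X hXinj hX hne ?_
  intro Q₂ _ _ hQ₂ α₂ ρ₂ hα₂ hX₂ hinj hmove hcrit _ hab _
  rcases core_closure hp hq hpq hn hQ₂ hqF α₂ hα₂ X hXinj ρ₂ hX₂ hinj hmove hcrit with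
    h | ⟨j, e, m, Z, hcomm, hZinv, lam, R, -, hje, hm, he, hPe, hdeg, -, hZR, hRi, hRm, -⟩
  · exact Or.inl h
  · refine Or.inr ⟨e, m, he, by omega, hm, hPe, fun hall => ?_, hdeg⟩
    have hRt : R = ⊤ := by
      refine eq_top_iff.2 fun a _ => (hRm a).2 fun b => ?_
      rw [← map_one lam]
      congr 1
      refine Subtype.ext ?_
      show b * a * b⁻¹ * a⁻¹ = 1
      rw [hab hall b a]
      group
    rw [hRt, Subgroup.index_top] at hRi
    have : 1 < q ^ (2 * m) := Nat.one_lt_pow (by omega) hq.one_lt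
    omega

/-- If `p ^ n` divides `2 ^ d - 1` and `p ^ e = 2 ^ m + 1` then `2 m p ^ (n - e)` divides `d`. -/
theorem order_two_dvd {p e m n d : ℕ} (hp : p.Prime) (hp2 : p ≠ 2) (he : 1 ≤ e) (hen : e ≤ n) (hm : 1 ≤ m)
    (hP : p ^ e = 2 ^ m + 1) (hd0 : d ≠ 0) (hd : p ^ n ∣ 2 ^ d - 1) : 2 * m * p ^ (n - e) ∣ d := by
  haveI := Fact.mk hp
  have hP2 : p ^ e ∣ 2 ^ d - 1 := (pow_dvd_pow p hen).trans hd
  have h2m : 2 ^ (2 * m) ≡ 1 [MOD p ^ e] := by
    refine ((Nat.modEq_iff_dvd' Nat.one_le_two_pow).2 ?_).symm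
    refine ⟨2 ^ m - 1, ?_⟩
    rw [hP, pow_mul', sq, add_mul, one_mul, Nat.mul_sub, mul_one]
    have := Nat.one_le_two_pow (n := m)
    have : 2 ^ m ≤ 2 ^ m * 2 ^ m := Nat.le_mul_of_pos_left _ (by omega)
    omega
  have hd1 : 2 ^ d ≡ 1 [MOD p ^ e] := ((Nat.modEq_iff_dvd' Nat.one_le_two_pow).2 hP2).symm
  have hdiv : 2 * m ∣ d := by
    have hk : 2 ^ (d % (2 * m)) ≡ 1 [MOD p ^ e] := by
      have h1 : 2 ^ d ≡ 2 ^ (d % (2 * m)) [MOD p ^ e] := by
        conv_lhs => rw [← Nat.div_add_mod d (2 * m), pow_add, pow_mul]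
        simpa using (h2m.pow (d / (2 * m))).mul_right (2 ^ (d % (2 * m)))
      exact h1.symm.trans hd1
    refine Nat.dvd_of_mod_eq_zero ?_
    set k := d % (2 * m) with hkdef
    have hklt : k < 2 * m := Nat.mod_lt _ (by omega)
    by_contra hk0
    rcases le_or_gt k m with hkm | hkm
    · have h1 := Nat.le_of_dvd (by
        have : 2 ≤ 2 ^ k := Nat.le_self_pow hk0 2
        omega) ((Nat.modEq_iff_dvd' Nat.one_le_two_pow).1 hk.symm)
      have := Nat.pow_le_pow_right (show (0 : ℕ) < 2 by norm_num) hkm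
      have := Nat.one_le_two_pow (n := k)
      omega
    · obtain ⟨i, hi⟩ : ∃ i, k = m + i := ⟨k - m, by omega⟩
      have h0 : 2 ^ k + 2 ^ i = p ^ e * 2 ^ i := by rw [hP, hi, pow_add]; ring
      have h1 : p ^ e ∣ 2 ^ i + 1 := by
        have h3 : 2 ^ k + 2 ^ i ≡ 1 + 2 ^ i [MOD p ^ e] := hk.add_right _
        rw [h0, add_comm 1] at h3
        exact Nat.modEq_zero_iff_dvd.1 (h3.symm.trans (Nat.modEq_zero_iff_dvd.2 (dvd_mul_right _ _)))
      have := Nat.le_of_dvd (by positivity) h1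
      have := Nat.pow_lt_pow_right (show (1 : ℕ) < 2 by norm_num) (show i < m by omega)
      omega
  obtain ⟨c, rfl⟩ := hdiv
  refine Nat.mul_dvd_mul_left _ ?_
  have hc0 : c ≠ 0 := fun h => hd0 (by rw [h, mul_zero])
  have hpodd : Odd p := hp.odd_of_ne_two hp2
  have hp2' : ¬ p ∣ 2 ^ (2 * m) := fun h => hp2 ((Nat.prime_dvd_prime_iff_eq hp Nat.prime_two).1 (hp.dvd_of_dvd_pow h))
  have hx : p ∣ 2 ^ (2 * m) - 1 :=
    (dvd_pow_self p (by omega)).trans ((Nat.modEq_iff_dvd' Nat.one_le_two_pow).1 h2m.symm)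
  have hlt : 1 < 2 ^ (2 * m) := Nat.one_lt_pow (by omega) (by norm_num)
  have hv := padicValNat.pow_sub_pow (p := p) hpodd hlt hx hp2' hc0
  have hfac : 2 ^ (2 * m) - 1 = p ^ e * (2 ^ m - 1) := by
    rw [hP, pow_mul', sq, add_mul, one_mul, Nat.mul_sub, mul_one]
    have : 2 ^ m ≤ 2 ^ m * 2 ^ m := Nat.le_mul_of_pos_left _ (by positivity)
    have := Nat.one_le_two_pow (n := m)
    omega
  have hnd : ¬ p ∣ 2 ^ m - 1 := fun h => by
    have h2 : p ∣ 2 ^ m + 1 := hP ▸ dvd_pow_self p (by omega)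
    have h3 := Nat.dvd_sub h2 h
    rw [show 2 ^ m + 1 - (2 ^ m - 1) = 2 by
      have := Nat.one_le_two_pow (n := m)
      omega] at h3
    exact hp2 ((Nat.prime_dvd_prime_iff_eq hp Nat.prime_two).1 h3)
  have hm0 : 2 ^ m - 1 ≠ 0 := by
    have := Nat.le_self_pow (by omega : m ≠ 0) 2
    omega
  rw [hfac, padicValNat.mul (pow_ne_zero _ hp.ne_zero) hm0, padicValNat.prime_pow,
    padicValNat.eq_zero_of_not_dvd hnd, add_zero, one_pow, ← pow_mul] at hv
  have hne0 : 2 ^ (2 * m * c) - 1 ≠ 0 := by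
    have := Nat.one_lt_pow (n := 2 * m * c) (by positivity) (show 1 < 2 by norm_num)
    omega
  have hle := (padicValNat_dvd_iff_le hne0).1 hd
  rw [padicValNat_dvd_iff_le hc0]
  omega

/-- Counting points moved by regular orbits of a `p`-power automorphism. -/
theorem dvd_card_sub_one {E : Type*} [Group E] [Finite E] {p n : ℕ} (hp : p.Prime) (σ : MulAut E)
    (hσ : σ ^ p ^ n = 1) (hfree : ∀ x, (σ ^ p ^ (n - 1)) x = x → x = 1) : p ^ n ∣ Nat.card E - 1 := by
  classical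
  haveI := Fintype.ofFinite E
  rcases Nat.eq_zero_or_pos n with rfl | hn
  · simp
  let A : Subgroup (MulAut E) := Subgroup.zpowers σ
  let S := {x : E // x ≠ 1}
  letI : MulAction A S :=
    { smul := fun a x => ⟨(a : MulAut E) x.1, fun h => x.2 ((a : MulAut E).injective (by rw [h, map_one]))⟩
      one_smul := fun x => Subtype.ext rfl
      mul_smul := fun a b x => Subtype.ext rfl }
  have hS : Nat.card S = Nat.card E - 1 := by
    rw [Nat.card_eq_fintype_card, Nat.card_eq_fintype_card, Fintype.card_subtype_compl, Fintype.card_subtype_eq]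
  rw [← hS]
  rcases isEmpty_or_nonempty S with hE | hE
  · rw [Nat.card_eq_zero.2 (Or.inl hE)]; exact dvd_zero _
  obtain ⟨x₀⟩ := hE
  have hσne : σ ^ p ^ (n - 1) ≠ 1 := fun h => x₀.2 (hfree x₀.1 (by rw [h]; rfl))
  have hord : orderOf σ = p ^ n := by
    haveI := Fact.mk hp
    obtain ⟨n', rfl⟩ : ∃ n', n = n' + 1 := ⟨n - 1, by omega⟩
    exact orderOf_eq_prime_pow (by simpa using hσne) hσ
  have hstab : ∀ x : S, MulAction.stabilizer A x = ⊥ := by
    intro x
    refine eq_bot_iff.2 fun a ha => ?_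
    obtain ⟨k, hk⟩ := (mem_powers_iff_mem_zpowers (x := σ)).2 a.2
    have hk' : σ ^ k = (a : MulAut E) := hk
    have hax : (a : MulAut E) x.1 = x.1 := congr_arg Subtype.val ha
    have hit : ∀ i, (⇑σ)^[i] x.1 = (σ ^ i) x.1 := by
      intro i
      induction i with
      | zero => rfl
      | succ i ih => rw [Function.iterate_succ_apply', ih, pow_succ', MulAut.mul_apply]
    have h1 : Function.minimalPeriod (⇑σ) x.1 ∣ k :=
      Function.IsPeriodicPt.minimalPeriod_dvd (show (⇑σ)^[k] x.1 = x.1 by rw [hit, hk', hax])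
    have h2 : Function.minimalPeriod (⇑σ) x.1 ∣ p ^ n :=
      Function.IsPeriodicPt.minimalPeriod_dvd (show (⇑σ)^[p ^ n] x.1 = x.1 by rw [hit, hσ]; rfl)
    obtain ⟨t, htle, ht⟩ := (Nat.dvd_prime_pow hp).1 h2
    rcases htle.lt_or_eq with hlt | rfl
    · refine absurd (hfree x.1 ?_) x.2
      rw [← hit]
      exact Function.isPeriodicPt_iff_minimalPeriod_dvd.2 (ht ▸ pow_dvd_pow p (by omega))
    · refine Subgroup.mem_bot.2 (Subtype.ext ?_)
      obtain ⟨c, rfl⟩ := ht ▸ h1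
      rw [← hk', pow_mul, hσ, one_pow]
      rfl
  rw [Nat.card_congr (MulAction.selfEquivSigmaOrbits A S), Nat.card_sigma]
  refine Finset.dvd_sum fun ω _ => ?_
  have hc : Nat.card (MulAction.orbit A ω.out) = p ^ n := by
    rw [Nat.card_coe_set_eq, ← MulAction.index_stabilizer, hstab, Subgroup.index_bot, Nat.card_zpowers, hord]
  rw [hc]

/-- In the exceptional case the fixed points are not trivial. -/
theorem false_of_exceptional {p q n : ℕ} (hp : p.Prime) (hp2 : p ≠ 2) (hq : q.Prime) (hn : 0 < n)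
    (hQ : IsPGroup q Q) (α : MulAut Q) (hα : α ^ p ^ n = 1) (hfpfQ : ∀ a, α a = a → a = 1)
    (hcrit : ∀ H : Subgroup Q, (∀ a ∈ H, α a ∈ H) → H ≠ ⊤ → ∀ a ∈ H, (α ^ p ^ (n - 1)) a = a)
    {K : Type*} [Field K] {j e m : ℕ} (Z : Subgroup Q) (hZ : Z = fixSub (α ^ p ^ (n - 1)))
    (hcomm : ∀ a b, a * b * a⁻¹ * b⁻¹ ∈ Z) (hZinv : ∀ a ∈ Z, α a ∈ Z) (lam : Z →* K) (R : Subgroup Q)
    (hje : j + e ≤ n) (hm : 1 ≤ m) (he : 1 ≤ e) (hP : p ^ e = q ^ m + 1)
    (hper : Function.minimalPeriod (shift (resAut α Z hZinv)) lam = p ^ j)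
    (hZR : Z ≤ R) (hRi : R.index = q ^ (2 * m)) (hRm : ∀ a, a ∈ R ↔ ∀ b, lam ⟨_, hcomm b a⟩ = 1) : False := by
  classical
  haveI := Fact.mk hq
  have hq2 : q = 2 := by
    by_contra hq2
    have h1 : Odd (q ^ m) := (hq.odd_of_ne_two hq2).pow
    have h2 : Odd (p ^ e) := (hp.odd_of_ne_two hp2).pow
    rw [hP] at h2
    exact absurd h1 (by simpa [Nat.odd_add_one] using h2)
  subst hq2
  haveI hRn : R.Normal := ⟨fun r hr g => by
    have := R.mul_mem (hZR (hcomm g r)) hr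
    simpa [mul_assoc] using this⟩
  haveI hZn : Z.Normal := ⟨fun z hz g => by
    have := Z.mul_mem (hcomm g z) hz
    simpa [mul_assoc] using this⟩
  set L := p ^ j with hL
  set αZ := resAut α Z hZinv with hαZ
  -- the map to the product of the quotients
  let Φ : Q →* (Fin L → Q ⧸ R) :=
    Pi.monoidHom fun i => (QuotientGroup.mk' R).comp ((α ^ (i : ℕ)) : Q ≃* Q).symm.toMonoidHom
  have hΦ : ∀ a i, Φ a i = (((α ^ (i : ℕ)).symm a : Q) : Q ⧸ R) := fun a i => rfl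
  have hΦker : ∀ a, a ∈ Φ.ker ↔ ∀ i : Fin L, (α ^ (i : ℕ)).symm a ∈ R := fun a => by
    rw [MonoidHom.mem_ker]
    exact ⟨fun h i => (QuotientGroup.eq_one_iff _).1 (congr_fun h i),
      fun h => funext fun i => (QuotientGroup.eq_one_iff _).2 (h i)⟩
  have hlam : ∀ z : Z, lam ((αZ ^ L) z) = lam z :=
    (shift_fixed_iff αZ lam L).1 (by rw [← hper]; exact shift_period αZ lam)
  have hRL : ∀ a, a ∈ R → (α ^ L) a ∈ R := by
    intro a ha
    rw [hRm] at ha ⊢
    intro b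
    rw [← ha ((α ^ L).symm b), ← hlam ⟨_, hcomm ((α ^ L).symm b) a⟩]
    congr 1
    apply Subtype.ext
    rw [resAut_pow_apply]
    simp
  have hRL' : ∀ a, a ∈ R → (α ^ L).symm a ∈ R := by
    intro a ha
    have hmap : R.map ((α ^ L : MulAut Q) : Q ≃* Q).toMonoidHom = R := by
      refine Subgroup.eq_of_le_of_card_ge (Subgroup.map_le_iff_le_comap.2 hRL) ?_
      rw [Subgroup.card_map_of_injective (α ^ L).injective]
    obtain ⟨b, hb, hba⟩ : a ∈ R.map ((α ^ L : MulAut Q) : Q ≃* Q).toMonoidHom := hmap.symm ▸ ha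
    rw [← hba]
    simpa using hb
  have hkinv : ∀ a ∈ Φ.ker, α a ∈ Φ.ker := by
    intro a ha
    rw [hΦker] at ha ⊢
    rintro ⟨i, hi⟩
    rcases Nat.eq_zero_or_pos i with rfl | hi0
    · have h1 := ha ⟨L - 1, by omega⟩
      have h2 : (α ^ (0 : ℕ)).symm (α a) = (α ^ L) ((α ^ (L - 1)).symm a) := by
        rw [show (α ^ L) = α * α ^ (L - 1) by rw [← pow_succ']; congr 1; omega, MulAut.mul_apply,
          MulEquiv.apply_symm_apply, pow_zero]
        rfl
      rw [show ((⟨0, hi⟩ : Fin L) : ℕ) = 0 from rfl, h2]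
      exact hRL _ h1
    · have h1 := ha ⟨i - 1, by omega⟩
      convert h1 using 1
      rw [MulEquiv.symm_apply_eq]
      show α a = (α ^ i) _
      rw [show α ^ i = α * α ^ (i - 1) by rw [← pow_succ']; congr 1; omega, MulAut.mul_apply,
        MulEquiv.apply_symm_apply]
  have hkerne : Φ.ker ≠ ⊤ := by
    intro htop
    have hR : R = ⊤ := eq_top_iff.2 fun a _ => by
      have := (hΦker a).1 (htop ▸ Subgroup.mem_top _) ⟨0, pow_pos hp.pos j⟩
      simp only [pow_zero] at this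
      exact this
    rw [hR, Subgroup.index_top] at hRi
    have : 1 < 2 ^ (2 * m) := Nat.one_lt_pow (by omega) (by norm_num)
    omega
  have hkerZ : Φ.ker = Z := by
    refine le_antisymm (fun a ha => ?_) fun z hz => (hΦker z).2 fun i => hZR ?_
    · rw [hZ]
      exact hcrit _ hkinv hkerne a ha
    · have hmap : Z.map ((α ^ (i : ℕ) : MulAut Q) : Q ≃* Q).toMonoidHom = Z := by
        refine Subgroup.eq_of_le_of_card_ge (Subgroup.map_le_iff_le_comap.2 fun x hx => pow_mem_of_mem α hZinv _ hx) ?_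
        rw [Subgroup.card_map_of_injective (α ^ (i : ℕ)).injective]
      obtain ⟨b, hb, hba⟩ : z ∈ Z.map ((α ^ (i : ℕ) : MulAut Q) : Q ≃* Q).toMonoidHom := hmap.symm ▸ hz
      rw [← hba]
      simpa using hb
  -- the cardinalities
  have hcardR : Nat.card (Fin L → Q ⧸ R) = 2 ^ (2 * m * L) := by
    rw [Nat.card_fun, Nat.card_fin, ← Subgroup.index, hRi, ← pow_mul]
  obtain ⟨d, hd⟩ := hQ.index Z
  have hZmap : Z.map (α : Q ≃* Q).toMonoidHom = Z := by
    refine Subgroup.eq_of_le_of_card_ge (Subgroup.map_le_iff_le_comap.2 hZinv) ?_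
    rw [Subgroup.card_map_of_injective α.injective]
  let σ : MulAut (Q ⧸ Z) := QuotientGroup.congr Z Z (α : Q ≃* Q) hZmap
  have hσk : ∀ (k : ℕ) (a : Q), (σ ^ k) (a : Q ⧸ Z) = (((α ^ k) a : Q) : Q ⧸ Z) := by
    intro k
    induction k with
    | zero => simp
    | succ k ih =>
      intro a
      rw [pow_succ', MulAut.mul_apply, ih, pow_succ', MulAut.mul_apply]
      rfl
  obtain ⟨-, -, -, hfp⟩ : True ∧ True ∧ True ∧ ∀ a, (α ^ p ^ (n - 1)) a * a⁻¹ ∈ Z → a ∈ Z := by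
    refine ⟨trivial, trivial, trivial, ?_⟩
    have hmove : ∃ a, (α ^ p ^ (n - 1)) a ≠ a := by
      by_contra hcon
      push Not at hcon
      have : Z = ⊤ := hZ ▸ eq_top_iff.2 fun a _ => hcon a
      have hRt : R = ⊤ := eq_top_iff.2 (this ▸ hZR)
      rw [hRt, Subgroup.index_top] at hRi
      have : 1 < 2 ^ (2 * m) := Nat.one_lt_pow (by omega) (by norm_num)
      omega
    have hp2' : p ≠ 2 := hp2
    rw [hZ]
    exact (critical_structure hp hq hp2' hQ α hn hα hmove hcrit).2.2.2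
  have hdvd : p ^ n ∣ 2 ^ d - 1 := by
    rw [← hd, Subgroup.index]
    refine dvd_card_sub_one hp σ (MulEquiv.ext fun a => ?_) fun x hx => ?_
    · obtain ⟨a, rfl⟩ := QuotientGroup.mk_surjective a
      rw [hσk, hα]; rfl
    · obtain ⟨a, rfl⟩ := QuotientGroup.mk_surjective x
      rw [hσk, ← mul_inv_eq_one, ← QuotientGroup.mk_inv, ← QuotientGroup.mk_mul, QuotientGroup.eq_one_iff] at hx
      exact (QuotientGroup.eq_one_iff _).2 (hfp a hx)
  have hd0 : d ≠ 0 := by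
    intro h0
    have h1 := Subgroup.index_dvd_of_le hZR
    rw [hd, h0, pow_zero, Nat.dvd_one, hRi, Nat.pow_eq_one] at h1
    omega
  have hdd := Nat.le_of_dvd (Nat.pos_of_ne_zero hd0) (order_two_dvd hp hp2 he (by omega) hm hP hd0 hdvd)
  have hcardle : 2 * m * L ≤ d :=
    le_trans (Nat.mul_le_mul_left _ (Nat.pow_le_pow_right hp.pos (by omega))) hdd
  -- surjectivity
  have hsurj : Function.Surjective Φ := by
    rw [← MonoidHom.range_eq_top]
    refine Subgroup.eq_top_of_le_card _ ?_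
    have hr : Nat.card Φ.range = 2 ^ d := by
      rw [← Nat.card_congr (QuotientGroup.quotientKerEquivRange Φ).toEquiv, hkerZ, ← Subgroup.index, hd]
    rw [hcardR, hr]
    exact Nat.pow_le_pow_right (by norm_num) hcardle
  -- the element with all weights nontrivial
  obtain ⟨x, hx⟩ : ∃ x, x ∉ R := by
    by_contra hcon
    push Not at hcon
    rw [show R = ⊤ from eq_top_iff.2 fun a _ => hcon a, Subgroup.index_top] at hRi
    have : 1 < 2 ^ (2 * m) := Nat.one_lt_pow (by omega) (by norm_num)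
    omega
  have hL0 : 0 < L := pow_pos hp.pos j
  obtain ⟨a, ha⟩ := hsurj (Function.update 1 ⟨0, hL0⟩ (x : Q ⧸ R))
  have ha0 : a ∉ R := by
    intro hmem
    have h1 := congr_fun ha ⟨0, hL0⟩
    rw [Function.update_self, hΦ] at h1
    simp only [pow_zero] at h1
    refine hx ((QuotientGroup.eq_one_iff x).1 (h1.symm.trans ((QuotientGroup.eq_one_iff a).2 hmem)))
  obtain ⟨b, hb⟩ : ∃ b, lam ⟨_, hcomm b a⟩ ≠ 1 := by
    by_contra hcon
    push Not at hcon
    exact ha0 ((hRm a).2 hcon)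
  set c : Z := ⟨_, hcomm b a⟩ with hc
  set g : ℕ → K := fun i => ((shift αZ)^[i] lam) c with hg
  have hg1 : ∀ i : Fin L, (i : ℕ) ≠ 0 → g i = 1 := by
    intro i hi
    have h1 := congr_fun ha i
    rw [Function.update_of_ne (fun h => hi (by rw [h])), hΦ] at h1
    have h2 : (α ^ (i : ℕ)).symm a ∈ R := (QuotientGroup.eq_one_iff _).1 h1
    have h3 := shift_iterate αZ lam i ((αZ ^ (i : ℕ)).symm c)
    rw [MulEquiv.apply_symm_apply] at h3
    rw [hg]
    show ((shift αZ)^[(i : ℕ)] lam) c = 1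
    rw [h3, ← (hRm _).1 h2 ((α ^ (i : ℕ)).symm b)]
    congr 1
    apply Subtype.ext
    apply (α ^ (i : ℕ)).injective
    rw [← resAut_pow_apply α Z hZinv, MulEquiv.apply_symm_apply]
    simp [hc]
  -- the product over the orbit of weights
  let Λ : Z →* K :=
    { toFun := fun z => ∏ i ∈ Finset.range L, ((shift αZ)^[i] lam) z
      map_one' := by simp
      map_mul' := fun z w => by simp [Finset.prod_mul_distrib] }
  have hΛc : Λ c ≠ 1 := by
    show ∏ i ∈ Finset.range L, g i ≠ 1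
    rw [Finset.prod_eq_single 0 (fun i hi hi0 => hg1 ⟨i, Finset.mem_range.1 hi⟩ hi0)
      (fun h => absurd (Finset.mem_range.2 hL0) h)]
    exact hb
  have hΛinv : ∀ z, Λ (αZ z) = Λ z := by
    intro z
    show ∏ i ∈ Finset.range L, ((shift αZ)^[i] lam) (αZ z) = ∏ i ∈ Finset.range L, ((shift αZ)^[i] lam) z
    obtain ⟨L', hL'⟩ : ∃ L', L = L' + 1 := ⟨L - 1, by omega⟩
    have hs : ∀ i, ((shift αZ)^[i + 1] lam) (αZ z) = ((shift αZ)^[i] lam) z := fun i => by
      rw [Function.iterate_succ_apply', shift_apply, MulEquiv.symm_apply_apply]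
    have hend : ((shift αZ)^[0] lam) (αZ z) = ((shift αZ)^[L'] lam) z := by
      rw [← hs L', ← hL', show (shift αZ)^[L] lam = lam from hper ▸ shift_period αZ lam]
      rfl
    rw [hL', Finset.prod_range_succ', Finset.prod_range_succ, hend]
    congr 1
    exact Finset.prod_congr rfl fun i _ => hs i
  -- fixed points
  have hbij : Function.Surjective fun z : Z => z⁻¹ * αZ z := by
    refine Finite.injective_iff_surjective.1 fun u w huw => ?_
    have h1 : u⁻¹ * αZ u = w⁻¹ * αZ w := huw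
    have h2 : αZ (w * u⁻¹) = w * u⁻¹ := by
      rw [map_mul, map_inv, mul_inv_eq_iff_eq_mul, mul_assoc, h1, mul_inv_cancel_left]
    have h3 := hfpfQ _ (congr_arg Subtype.val h2)
    exact (mul_inv_eq_one.1 (Subtype.ext h3 : w * u⁻¹ = 1)).symm
  obtain ⟨w, hw⟩ := hbij c
  have hw' : w⁻¹ * αZ w = c := hw
  refine hΛc ?_
  rw [← hw', map_mul, hΛinv, ← map_mul, inv_mul_cancel, map_one]

/-- **Shult's lemma.** -/
theorem shult {p q n : ℕ} (hp : p.Prime) (hp2 : p ≠ 2) (hq : q.Prime) (hpq : p ≠ q) (hn : 0 < n)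
    (hQ : IsPGroup q Q) (hqF : (q : F) ≠ 0) (ρ : Q →* End F V) (α : MulAut Q) (hα : α ^ p ^ n = 1)
    (hfpfQ : ∀ a, α a = a → a = 1) (X : End F V) (hX : ∀ g, X * ρ g = ρ (α g) * X) (hXn : X ^ p ^ n = 1)
    (hfpfV : ∀ v, X v = v → v = 0) (a : Q) : ρ ((α ^ p ^ (n - 1)) a) = ρ a := by
  by_contra hcon
  have hXinj : Function.Injective X := by
    intro u w huw
    have h1 := congr((X ^ (p ^ n - 1) : End F V) $huw)
    rw [← End.mul_apply, ← End.mul_apply, ← pow_succ, Nat.sub_add_cancel (Nat.one_le_pow _ _ hp.pos), hXn] at h1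
    exact h1
  refine reduce hQ ρ α hα X hXinj hX ⟨a, hcon⟩ ?_
  intro Q₂ _ _ hQ₂ α₂ ρ₂ hα₂ hX₂ hinj hmove hcrit hfp _ _
  rcases core_closure hp hq hpq hn hQ₂ hqF α₂ hα₂ X hXinj ρ₂ hX₂ hinj hmove hcrit with
    h | ⟨j, e, m, Z, hcomm, hZinv, lam, R, hZ, hje, hm, he, hPe, -, hper, hZR, hRi, hRm, -⟩
  · have hS : ∑ i ∈ Finset.range (p ^ n), X ^ i = 0 := by
      refine LinearMap.ext fun v => hfpfV _ ?_
      have h1 : (X - 1) * ∑ i ∈ Finset.range (p ^ n), X ^ i = 0 := by rw [mul_geom_sum, hXn, sub_self]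
      exact sub_eq_zero.1 (congr($h1 v))
    set f : Polynomial F := ∑ i ∈ Finset.range (p ^ n), Polynomial.X ^ i with hf
    have hc : f.coeff 0 = 1 := by
      simp [hf, Polynomial.coeff_X_pow, pow_pos hp.pos n]
    have h2 := h f (fun h0 => by simp [h0] at hc) (by simp [hf, hS])
    have h3 : f.natDegree ≤ p ^ n - 1 := Polynomial.natDegree_sum_le_of_forall_le _ _ fun i hi => by
      rw [Polynomial.natDegree_X_pow]
      have := Finset.mem_range.1 hi
      omega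
    have := pow_pos hp.pos n
    omega
  · exact false_of_exceptional hp hp2 hq hn hQ₂ α₂ hα₂ (hfp hfpfQ) hcrit Z hZ hcomm hZinv lam R hje hm he hPe
      hper hZR hRi hRm

end Reduce

end Cfsg.Lib.Solv.HH
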