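import Mathlib
import Cfsg.Agent.Lib.Solv.HHTheoremB
import Cfsg.Agent.Lib.Solv.Cores
import Cfsg.Agent.Lib.Solv.MinNormal
import Cfsg.Agent.Lib.Solv.Coprime2
import Cfsg.Agent.Lib.Solv.PGroupBasic

/-!
# The action on the Frattini quotients of the Fitting subgroup; Shult's theorem on Fitting height
-/

set_option autoImplicit false

namespace Cfsg.Lib.Solv.HH

open Subgroup
open scoped commutatorElement

universe u

variable {G : Type u} [Group G]

/-- A fixed-point-free automorphism stays so on invariant quotients. -/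
theorem fpf_quotient [Finite G] {σ : MulAut G} (hfpf : ∀ g, σ g = g → g = 1) (N : Subgroup G)
    (hN : ∀ x ∈ N, σ x ∈ N) {g : G} (hg : g⁻¹ * σ g ∈ N) : g ∈ N := by
  have hinj : Function.Injective fun x : N => (⟨(x : G)⁻¹ * σ x, N.mul_mem (N.inv_mem x.2) (hN x x.2)⟩ : N) := by
    intro x y hxy
    have h1 : (x : G)⁻¹ * σ x = (y : G)⁻¹ * σ y := congr_arg Subtype.val hxy
    have h2 : σ ((y : G) * (x : G)⁻¹) = (y : G) * (x : G)⁻¹ := by
      rw [map_mul, map_inv, mul_inv_eq_iff_eq_mul, mul_assoc, h1, mul_inv_cancel_left]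
    exact Subtype.ext (mul_inv_eq_one.1 (hfpf _ h2)).symm
  obtain ⟨x, hx⟩ := Finite.injective_iff_surjective.1 hinj ⟨_, hg⟩
  have h1 : (x : G)⁻¹ * σ x = g⁻¹ * σ g := congr_arg Subtype.val hx
  have h2 : σ (g * (x : G)⁻¹) = g * (x : G)⁻¹ := by
    rw [map_mul, map_inv, mul_inv_eq_iff_eq_mul, mul_assoc, h1, mul_inv_cancel_left]
  rw [mul_inv_eq_one.1 (hfpf _ h2)]
  exact x.2

/-- A fixed-point-free `p`-automorphism forces a `p'`-group. -/
theorem not_dvd_card_of_fpf [Finite G] {p n : ℕ} [Fact p.Prime] {σ : MulAut G} (hσ : σ ^ p ^ n = 1)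
    (hfpf : ∀ g, σ g = g → g = 1) : ¬ p ∣ Nat.card G := by
  have hp : p.Prime := Fact.out
  obtain ⟨i, -, hi⟩ := (Nat.dvd_prime_pow hp).1 (orderOf_dvd_of_pow_eq_one hσ)
  have hP : IsPGroup p ↥(Subgroup.zpowers σ) := IsPGroup.of_card (n := i) (by rw [Nat.card_zpowers, hi])
  have h := hP.card_modEq_card_fixedPoints G
  have h1 : MulAction.fixedPoints ↥(Subgroup.zpowers σ) G = {1} := by
    ext x
    simp only [MulAction.mem_fixedPoints, Set.mem_singleton_iff]
    refine ⟨fun hx => hfpf x (hx ⟨σ, Subgroup.mem_zpowers σ⟩), ?_⟩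
    rintro rfl ⟨m, -⟩
    exact map_one m
  rw [h1, Nat.card_eq_fintype_card (α := ({1} : Set G))] at h
  intro hd
  have h2 : 0 % p = 1 % p := by
    have h3 : Nat.card G % p = 1 % p := by simpa [Nat.ModEq] using h
    rwa [Nat.mod_eq_zero_of_dvd hd, ← Nat.zero_mod p] at h3
  rw [Nat.zero_mod, Nat.mod_eq_of_lt hp.one_lt] at h2
  omega

/-- The `s`-core modulo its Frattini subgroup. -/
abbrev FrattQ (s : ℕ) (G : Type u) [Group G] : Type u :=
  ↥(Cfsg.pCore s G) ⧸ frattini ↥(Cfsg.pCore s G)

section Action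

variable [Finite G] (s : ℕ) [Fact s.Prime]

noncomputable instance frattQComm : CommGroup (FrattQ s G) :=
  { (inferInstance : Group (FrattQ s G)) with
    mul_comm := fun a b => by
      obtain ⟨a, rfl⟩ := QuotientGroup.mk_surjective a
      obtain ⟨b, rfl⟩ := QuotientGroup.mk_surjective b
      refine QuotientGroup.eq.2 ?_
      have h := commutator_le_frattini (isPGroup_pCore (G := G) s)
        (Subgroup.commutator_mem_commutator (Subgroup.mem_top b⁻¹) (Subgroup.mem_top a⁻¹))
      have he : (a * b)⁻¹ * (b * a) = ⁅b⁻¹, a⁻¹⁆ := by rw [commutatorElement_def]; group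
      rw [he]
      exact h }

noncomputable instance frattQModule : Module (ZMod s) (Additive (FrattQ s G)) :=
  AddCommGroup.zmodModule fun v => by
    apply Additive.toMul.injective
    obtain ⟨a, ha⟩ := QuotientGroup.mk_surjective (Additive.toMul v)
    rw [toMul_nsmul, ← ha, toMul_zero, ← QuotientGroup.mk_pow, QuotientGroup.eq_one_iff]
    exact pow_mem_frattini (isPGroup_pCore s) a

/-- An automorphism of the `s`-core on the Frattini quotient. -/
noncomputable def frattAut : MulAut ↥(Cfsg.pCore s G) →* Module.End (ZMod s) (Additive (FrattQ s G)) where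
  toFun φ := (MonoidHom.toAdditive (QuotientGroup.congr _ _ φ
    (Subgroup.characteristic_iff_map_eq.1 inferInstance φ) : FrattQ s G ≃* FrattQ s G).toMonoidHom).toZModLinearMap s
  map_one' := LinearMap.ext fun v => by
    obtain ⟨a, ha⟩ := QuotientGroup.mk_surjective (Additive.toMul v)
    rw [show v = Additive.ofMul (a : FrattQ s G) from Additive.toMul.injective ha.symm]
    rfl
  map_mul' φ ψ := LinearMap.ext fun v => by
    obtain ⟨a, ha⟩ := QuotientGroup.mk_surjective (Additive.toMul v)
    rw [show v = Additive.ofMul (a : FrattQ s G) from Additive.toMul.injective ha.symm]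
    rfl

theorem frattAut_apply (φ : MulAut ↥(Cfsg.pCore s G)) (a : ↥(Cfsg.pCore s G)) :
    frattAut s φ (Additive.ofMul (a : FrattQ s G)) = Additive.ofMul ((φ a : ↥(Cfsg.pCore s G)) : FrattQ s G) := rfl

/-- The action of the group. -/
noncomputable def frattRep : G →* Module.End (ZMod s) (Additive (FrattQ s G)) :=
  (frattAut s).comp MulAut.conjNormal

theorem frattRep_eq_one_iff {g : G} : frattRep s g = 1 ↔ ∀ x ∈ Cfsg.pCore s G,
    g * x * g⁻¹ * x⁻¹ ∈ (frattini ↥(Cfsg.pCore s G)).map (Cfsg.pCore s G).subtype := by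
  constructor
  · intro h x hx
    have h1 := congr($h (Additive.ofMul ((⟨x, hx⟩ : ↥(Cfsg.pCore s G)) : FrattQ s G)))
    rw [frattRep, MonoidHom.comp_apply, frattAut_apply, Module.End.one_apply] at h1
    have h2 := Additive.ofMul.injective h1
    rw [← mul_inv_eq_one, ← QuotientGroup.mk_inv, ← QuotientGroup.mk_mul, QuotientGroup.eq_one_iff] at h2
    exact ⟨_, h2, rfl⟩
  · intro h
    refine LinearMap.ext fun v => ?_
    obtain ⟨a, ha⟩ := QuotientGroup.mk_surjective (Additive.toMul v)
    rw [show v = Additive.ofMul (a : FrattQ s G) from Additive.toMul.injective ha.symm]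
    rw [frattRep, MonoidHom.comp_apply, frattAut_apply, Module.End.one_apply]
    congr 1
    rw [← mul_inv_eq_one, ← QuotientGroup.mk_inv, ← QuotientGroup.mk_mul, QuotientGroup.eq_one_iff]
    obtain ⟨w, hw, hwe⟩ := h a a.2
    have hwe' : w = MulAut.conjNormal g a * a⁻¹ := Subtype.ext (by
      rw [Subgroup.coe_mul, MulAut.conjNormal_apply, InvMemClass.coe_inv]
      exact hwe)
    rwa [← hwe']

theorem fitting_le_ker : Cfsg.fittingSubgroup G ≤ (frattRep (G := G) s).ker := by
  rw [fitting_eq_iSup_pCore]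
  refine iSup_le fun t g hg => ?_
  rw [MonoidHom.mem_ker, frattRep_eq_one_iff]
  intro x hx
  haveI := Fact.mk t.2
  by_cases hts : (t : ℕ) = s
  · have hg' : g ∈ Cfsg.pCore s G := hts ▸ hg
    have h := commutator_le_frattini (isPGroup_pCore (G := G) s)
      (Subgroup.commutator_mem_commutator (Subgroup.mem_top (⟨g, hg'⟩ : ↥(Cfsg.pCore s G)))
        (Subgroup.mem_top (⟨x, hx⟩ : ↥(Cfsg.pCore s G))))
    exact ⟨_, h, rfl⟩
  · have hd : Disjoint (Cfsg.pCore (t : ℕ) G) (Cfsg.pCore s G) := by
      rw [disjoint_iff]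
      refine inf_eq_bot_of_coprime_card ?_
      obtain ⟨a, ha⟩ := (isPGroup_pCore (G := G) (t : ℕ)).exists_card_eq
      obtain ⟨b, hb⟩ := (isPGroup_pCore (G := G) s).exists_card_eq
      rw [ha, hb]
      exact Nat.Coprime.pow _ _ ((Nat.coprime_primes t.2 Fact.out).2 hts)
    have hc := Subgroup.commute_of_normal_of_disjoint _ _ inferInstance inferInstance hd g x hg hx
    rw [hc.eq, mul_inv_cancel_right, mul_inv_cancel]
    exact one_mem _

end Action

/-- A normal subgroup which is an `r`-group modulo `F(G)` and acts trivially on the Frattini quotients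
of the other cores lies in `F(G)`. -/
theorem le_fitting_of_trivial [Finite G] {r : ℕ} [Fact r.Prime] (M : Subgroup G) [M.Normal]
    (hFM : Cfsg.fittingSubgroup G ≤ M) (hrp : ∀ m ∈ M, ∃ k, m ^ r ^ k ∈ Cfsg.fittingSubgroup G)
    (htriv : ∀ (s : ℕ) [Fact s.Prime], s ≠ r → ∀ m ∈ M, frattRep s m = 1) : M ≤ Cfsg.fittingSubgroup G := by
  classical
  obtain T : Sylow r M := default
  set T' := (T : Subgroup M).map M.subtype with hT'
  have hT'M : T' ≤ M := map_subtype_le _
  have hT'p : IsPGroup r T' := T.isPGroup'.map M.subtype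
  set F := Cfsg.fittingSubgroup G with hF
  -- the sup
  have hsup : F ⊔ T' = M := by
    refine le_antisymm (sup_le hFM hT'M) ?_
    have h1 : ((F ⊔ T').subgroupOf M).index ∣ (T : Subgroup M).index := Subgroup.index_dvd_of_le (by
      intro x hx
      exact mem_subgroupOf.2 (mem_sup_right (mem_map_of_mem _ hx)))
    have h2 : ((F ⊔ T').subgroupOf M).index ∣ (F.subgroupOf M).index :=
      Subgroup.index_dvd_of_le fun x hx => mem_subgroupOf.2 (mem_sup_left hx)
    haveI : (F.subgroupOf M).Normal := inferInstance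
    have hq : IsPGroup r (↥M ⧸ F.subgroupOf M) := by
      intro x
      obtain ⟨x, rfl⟩ := QuotientGroup.mk_surjective x
      obtain ⟨k, hk⟩ := hrp x x.2
      exact ⟨k, (QuotientGroup.eq_one_iff _).2 (mem_subgroupOf.2 hk)⟩
    obtain ⟨a, ha⟩ := hq.exists_card_eq
    have h3 : ((F ⊔ T').subgroupOf M).index = 1 := by
      obtain ⟨b, -, hb⟩ := (Nat.dvd_prime_pow Fact.out).1 (h2.trans (show (F.subgroupOf M).index ∣ r ^ a from
        ha ▸ dvd_rfl))
      rcases Nat.eq_zero_or_pos b with rfl | hb0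
      · simpa using hb
      · exact absurd ((dvd_pow_self r hb0.ne').trans (hb ▸ h1)) T.not_dvd_index
    exact subgroupOf_eq_top.1 (index_eq_one.1 h3)
  -- the other cores centralize the Sylow subgroup
  have hcent : ∀ (s : ℕ), s.Prime → s ≠ r → T' ≤ centralizer (Cfsg.pCore s G : Set G) := by
    intro s hs hsr
    haveI := Fact.mk hs
    refine centralizes_of_frattini T' _ (by rw [normalizer_eq_top]; exact le_top) ?_ fun a ha k hk =>
      (frattRep_eq_one_iff s).1 (htriv s hsr a (hT'M ha)) k hk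
    obtain ⟨a, ha⟩ := hT'p.exists_card_eq
    obtain ⟨b, hb⟩ := ((isPGroup_pCore (G := G) s).to_subgroup (frattini _)).exists_card_eq
    rw [ha, hb]
    exact Nat.Coprime.pow _ _ ((Nat.coprime_primes Fact.out hs).2 hsr.symm)
  have hnorm : M ≤ normalizer (T' : Set G) := by
    rw [← hsup]
    refine sup_le ?_ le_normalizer
    rw [hF, fitting_eq_iSup_pCore]
    refine iSup_le fun t => ?_
    haveI := Fact.mk t.2
    by_cases htr : (t : ℕ) = r
    · intro x hx
      have hx' : x ∈ Cfsg.pCore r G := htr ▸ hx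
      have hxM : x ∈ M := hFM (pCore_le_fitting r hx')
      refine le_normalizer ?_
      have hnp : ((Cfsg.pCore r G).subgroupOf M).Normal := inferInstance
      have hle : (Cfsg.pCore r G).subgroupOf M ≤ (T : Subgroup M) :=
        le_trans (le_pCore hnp ((isPGroup_pCore (G := G) r).comap_subtype)) (pCore_le_sylow r T)
      exact ⟨⟨x, hxM⟩, hle (mem_subgroupOf.2 hx'), rfl⟩
    · intro x hx
      refine normalizer_eq_of_centralizes (mem_centralizer_iff.2 fun y hy => ?_)
      exact (mem_centralizer_iff.1 (hcent t t.2 htr hy) x hx).symm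
  have hTn : (T : Subgroup M).Normal := by
    refine ⟨fun x hx g => ?_⟩
    obtain ⟨y, hy, hye⟩ := (mem_normalizer_iff.1 (hnorm g.2) (x : G)).1 (mem_map_of_mem _ hx)
    exact (show y = g * x * g⁻¹ from Subtype.ext hye) ▸ hy
  have hTc : (T : Subgroup M).Characteristic := T.characteristic_of_normal hTn
  have hT'n : T'.Normal := ConjAct.normal_of_characteristic_of_normal
  calc M = F ⊔ T' := hsup.symm
    _ ≤ F := sup_le le_rfl (le_trans (le_pCore hT'n hT'p) (pCore_le_fitting r))

/-- `σ ^ p ^ (n - 1)` centralizes `G / F(G)`. -/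
theorem shult_claim [Finite G] [Group.IsSolvable G] {p n : ℕ} [Fact p.Prime] (hp2 : p ≠ 2) (hn : 0 < n)
    (σ : MulAut G) (hσ : σ ^ p ^ n = 1) (hfpf : ∀ g, σ g = g → g = 1) (g : G) :
    g⁻¹ * (σ ^ p ^ (n - 1)) g ∈ Cfsg.fittingSubgroup G := by
  classical
  have hp : p.Prime := Fact.out
  have hpG := not_dvd_card_of_fpf hσ hfpf
  set F := Cfsg.fittingSubgroup G with hF
  have hFinv : ∀ x ∈ F, σ x ∈ F := fun x hx =>
    (Subgroup.characteristic_iff_map_le.1 (inferInstance : F.Characteristic) σ) ⟨x, hx, rfl⟩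
  haveI : F.Normal := inferInstance
  let q := QuotientGroup.mk' F
  let σb : MulAut (G ⧸ F) := QuotientGroup.congr F F (σ : G ≃* G)
    (Subgroup.characteristic_iff_map_eq.1 (inferInstance : F.Characteristic) σ)
  have hσb : ∀ (k : ℕ) (x : G), (σb ^ k) (q x) = q ((σ ^ k) x) := by
    intro k
    induction k with
    | zero => simp
    | succ k ih =>
      intro x
      rw [pow_succ', MulAut.mul_apply, ih, pow_succ', MulAut.mul_apply]
      rfl
  have hσbn : σb ^ p ^ n = 1 := MulEquiv.ext fun x => by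
    obtain ⟨x, rfl⟩ := QuotientGroup.mk'_surjective F x
    rw [hσb, hσ]; rfl
  have hfpfb : ∀ x, σb x = x → x = 1 := fun x hx => by
    obtain ⟨x, rfl⟩ := QuotientGroup.mk'_surjective F x
    exact (QuotientGroup.eq_one_iff x).2 (fpf_quotient hfpf F hFinv (QuotientGroup.eq.1 hx.symm))
  set τ := σb ^ p ^ (n - 1) with hτ
  -- on the Fitting subgroup of the quotient
  have hcore : ∀ (r : ℕ), r.Prime → ∀ a ∈ Cfsg.pCore r (G ⧸ F), τ a = a := by
    intro r hr
    haveI := Fact.mk hr
    set Q := Cfsg.pCore r (G ⧸ F) with hQ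
    have hQinv : ∀ a ∈ Q, σb a ∈ Q := fun a ha =>
      map_pCore_le r (f := (σb : (G ⧸ F) ≃* (G ⧸ F)).toMonoidHom) σb.surjective ⟨a, ha, rfl⟩
    by_cases hrp : r = p
    · intro a ha
      have h1 : Q = ⊥ := by
        obtain ⟨k, hk⟩ := (isPGroup_pCore (G := G ⧸ F) r).exists_card_eq
        rcases Nat.eq_zero_or_pos k with rfl | hk0
        · exact Subgroup.eq_bot_of_card_eq _ (by simpa using hk)
        · refine absurd ?_ hpG
          have h2 : r ∣ Nat.card (G ⧸ F) := (dvd_pow_self r hk0.ne').trans (hk ▸ card_subgroup_dvd_card Q)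
          exact hrp ▸ h2.trans (card_quotient_dvd_card F)
      rw [h1, mem_bot] at ha
      rw [ha, map_one]
    let αQ : MulAut Q := resAut σb Q hQinv
    have key : ∀ (s : ℕ) [Fact s.Prime], s ≠ r → ∀ a : Q,
        QuotientGroup.lift F (frattRep (G := G) s) (fitting_le_ker s) ((((αQ ^ p ^ (n - 1)) a) : Q) : G ⧸ F) =
          QuotientGroup.lift F (frattRep (G := G) s) (fitting_le_ker s) (a : G ⧸ F) := by
      intro s _ hsr a
      have hs : s.Prime := Fact.out
      let ψ := QuotientGroup.lift F (frattRep (G := G) s) (fitting_le_ker s)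
      have hPinv : ∀ x ∈ Cfsg.pCore s G, σ x ∈ Cfsg.pCore s G := fun x hx =>
        map_pCore_le s (f := (σ : G ≃* G).toMonoidHom) σ.surjective ⟨x, hx, rfl⟩
      let σP : MulAut ↥(Cfsg.pCore s G) := resAut σ _ hPinv
      let X := frattAut s σP
      have hX : ∀ g : Q, X * ψ (g : G ⧸ F) = ψ ((αQ g : Q) : G ⧸ F) * X := by
        intro g
        obtain ⟨y, hy⟩ := QuotientGroup.mk_surjective (g : G ⧸ F)
        have h1 : ((αQ g : Q) : G ⧸ F) = ((σ y : G) : G ⧸ F) := by
          rw [resAut_apply, ← hy]; rfl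
        rw [h1, ← hy]
        show frattAut s σP * frattAut s (MulAut.conjNormal y) = frattAut s (MulAut.conjNormal (σ y)) * frattAut s σP
        rw [← map_mul, ← map_mul]
        congr 1
        refine MulEquiv.ext fun x => Subtype.ext ?_
        rw [MulAut.mul_apply, MulAut.mul_apply, resAut_apply, MulAut.conjNormal_apply, MulAut.conjNormal_apply,
          resAut_apply, map_mul, map_mul, map_inv]
      have hXn : X ^ p ^ n = 1 := by
        rw [← map_pow, resAut_pow_eq_one σ _ hPinv hσ, map_one]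
      have hfpfP : ∀ v, X v = v → v = 0 := by
        intro v hv
        obtain ⟨x, hx⟩ := QuotientGroup.mk_surjective (Additive.toMul v)
        have hv' : v = Additive.ofMul (x : FrattQ s G) := Additive.toMul.injective hx.symm
        rw [hv', frattAut_apply] at hv
        have h2 := QuotientGroup.eq.1 (Additive.ofMul.injective hv).symm
        have h3 := fpf_quotient (σ := σP) (fun g hg => Subtype.ext (hfpf _ (congr_arg Subtype.val hg))) _
          (fun y hy => (Subgroup.characteristic_iff_map_le.1 inferInstance σP) ⟨y, hy, rfl⟩) h2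
        rw [hv', (QuotientGroup.eq_one_iff x).2 h3]
        rfl
      have hqF : (r : ZMod s) ≠ 0 := by
        rw [Ne, ← ZMod.natCast_self s, ZMod.natCast_eq_natCast_iff']
        intro h0
        have h : s ∣ r := Nat.dvd_of_mod_eq_zero (by rwa [Nat.mod_self] at h0)
        exact hsr ((Nat.prime_dvd_prime_iff_eq hs hr).1 h)
      exact shult hp hp2 hr (Ne.symm hrp) hn (isPGroup_pCore r) hqF (ψ.comp Q.subtype) αQ
        (resAut_pow_eq_one σb Q hQinv hσbn) (fun b hb => Subtype.ext (hfpfb _ (congr_arg Subtype.val hb)))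
        X hX hXn hfpfP a
    intro a ha
    -- the elements trivial on every quotient
    let Kr : Subgroup G :=
      { carrier := {x | q x ∈ Q ∧ ∀ (s : ℕ) [Fact s.Prime], s ≠ r → frattRep s x = 1}
        one_mem' := ⟨by simp, fun s _ _ => map_one _⟩
        mul_mem' := fun {x y} hx hy => ⟨by rw [map_mul]; exact Q.mul_mem hx.1 hy.1, fun s _ h => by
          rw [map_mul, hx.2 s h, hy.2 s h, one_mul]⟩
        inv_mem' := fun {x} hx => ⟨by rw [map_inv]; exact Q.inv_mem hx.1, fun s _ h => by
          have h1 := map_mul (frattRep (G := G) s) x⁻¹ x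
          rw [inv_mul_cancel, map_one, hx.2 s h, mul_one] at h1
          exact h1.symm⟩ }
    haveI : Kr.Normal := ⟨fun x hx y => ⟨by
      rw [map_mul, map_mul, map_inv]; exact (inferInstance : Q.Normal).conj_mem _ hx.1 _, fun s _ h => by
      rw [map_mul, map_mul, hx.2 s h, mul_one, ← map_mul, mul_inv_cancel, map_one]⟩⟩
    have hKrF : Kr ≤ F := le_fitting_of_trivial (r := r) Kr
      (fun x hx => ⟨by rw [show q x = 1 from (QuotientGroup.eq_one_iff x).2 hx]; exact Q.one_mem,
        fun s _ _ => fitting_le_ker s hx⟩)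
      (fun x hx => by
        obtain ⟨k, hk⟩ := isPGroup_pCore (G := G ⧸ F) r ⟨q x, hx.1⟩
        exact ⟨k, (QuotientGroup.eq_one_iff _).1 (congr_arg Subtype.val hk)⟩)
      (fun s _ h x hx => hx.2 s h)
    obtain ⟨x, rfl⟩ := QuotientGroup.mk'_surjective F a
    rw [hσb]
    refine QuotientGroup.eq.2 (hKrF ⟨?_, fun s _ h => ?_⟩)
    · rw [map_mul, map_inv, ← hσb]
      exact Q.mul_mem (Q.inv_mem (pow_mem_of_mem σb hQinv _ ha)) ha
    · have hk := key s h ⟨q x, ha⟩
      rw [resAut_pow_apply] at hk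
      have h1 : frattRep s ((σ ^ p ^ (n - 1)) x) = frattRep s x := by
        rw [hσb] at hk
        exact hk
      have h2 := map_mul (frattRep (G := G) s) ((σ ^ p ^ (n - 1)) x)⁻¹ ((σ ^ p ^ (n - 1)) x)
      rw [inv_mul_cancel, map_one] at h2
      rw [map_mul, ← h1]
      exact h2.symm
  -- to the whole quotient
  have hfit : ∀ a ∈ Cfsg.fittingSubgroup (G ⧸ F), τ a = a := by
    intro a ha
    have hle : Cfsg.fittingSubgroup (G ⧸ F) ≤ fixSub τ := by
      rw [fitting_eq_iSup_pCore]
      exact iSup_le fun r a ha => hcore r r.2 a ha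
    exact hle ha
  have hall : ∀ x, τ x = x := by
    intro x
    have hd : x⁻¹ * τ x ∈ Cfsg.fittingSubgroup (G ⧸ F) := by
      refine centralizer_fitting_le (mem_centralizer_iff.2 fun f hf => ?_)
      have h1 : x * f * x⁻¹ ∈ Cfsg.fittingSubgroup (G ⧸ F) :=
        (inferInstance : (Cfsg.fittingSubgroup (G ⧸ F)).Normal).conj_mem f hf x
      have h2 := hfit _ h1
      rw [map_mul, map_mul, map_inv, hfit f hf] at h2
      calc f * (x⁻¹ * τ x) = x⁻¹ * (x * f * x⁻¹) * τ x := by group
        _ = (x⁻¹ * τ x) * f := by rw [← h2]; group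
    have hd' := hfit _ hd
    have hk : ∀ k : ℕ, (τ ^ k) x = x * (x⁻¹ * τ x) ^ k := by
      intro k
      induction k with
      | zero => simp
      | succ k ih =>
        rw [pow_succ', MulAut.mul_apply, ih, map_mul, map_pow, hd', pow_succ', ← mul_assoc x, mul_inv_cancel_left]
    have hτp : τ ^ p = 1 := by
      rw [hτ, ← pow_mul, ← pow_succ, show n - 1 + 1 = n by omega, hσbn]
    have h1 := hk p
    rw [hτp, MulAut.one_apply, eq_comm, mul_eq_left] at h1
    have hc : p.Coprime (Nat.card (G ⧸ F)) :=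
      hp.coprime_iff_not_dvd.2 fun h => hpG (h.trans (card_quotient_dvd_card F))
    have h2 := pow_gcd_eq_one.2 ⟨h1, pow_card_eq_one' (x := x⁻¹ * τ x)⟩
    rw [hc.gcd_eq_one, pow_one, inv_mul_eq_one] at h2
    exact h2.symm
  exact QuotientGroup.eq.1 ((hall (q g)).symm.trans (hσb _ g))

/-- Shult–Gross: the Fitting height is at most `n`. -/
theorem fitting_chain {p : ℕ} [Fact p.Prime] (hp2 : p ≠ 2) : ∀ (n : ℕ) (G : Type u) [Group G] [Finite G],
    Group.IsSolvable G → ∀ σ : MulAut G, σ ^ p ^ n = 1 → (∀ g, σ g = g → g = 1) →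
    ∃ F : Fin (n + 1) → Subgroup G, F 0 = ⊥ ∧ F (Fin.last n) = ⊤ ∧ Monotone F ∧ (∀ i, (F i).Normal) ∧
      ∀ i : Fin n, ∃ k : ℕ, (F i.succ).lowerCentralSeries k ≤ F i.castSucc := by
  intro n
  induction n with
  | zero =>
    intro G _ _ _ σ hσ hfpf
    refine ⟨fun _ => ⊥, rfl, ?_, monotone_const, fun _ => inferInstance, fun i => i.elim0⟩
    refine (eq_top_iff.2 fun g _ => mem_bot.2 (hfpf g ?_) : (⊥ : Subgroup G) = ⊤)
    simp only [pow_zero, pow_one] at hσ
    rw [hσ]; rfl
  | succ n ih =>
    intro G _ _ hG σ hσ hfpf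
    haveI := hG
    set N := Cfsg.fittingSubgroup G with hN
    haveI : N.Normal := inferInstance
    let σb : MulAut (G ⧸ N) := QuotientGroup.congr N N (σ : G ≃* G)
      (Subgroup.characteristic_iff_map_eq.1 (inferInstance : N.Characteristic) σ)
    have hσb : ∀ (k : ℕ) (x : G), (σb ^ k) (x : G ⧸ N) = (((σ ^ k) x : G) : G ⧸ N) := by
      intro k
      induction k with
      | zero => simp
      | succ k ih =>
        intro x
        rw [pow_succ', MulAut.mul_apply, ih, pow_succ', MulAut.mul_apply]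
        rfl
    have hb1 : σb ^ p ^ n = 1 := MulEquiv.ext fun x => by
      obtain ⟨x, rfl⟩ := QuotientGroup.mk_surjective x
      rw [hσb]
      refine (QuotientGroup.eq.2 ?_).symm
      simpa using shult_claim hp2 (Nat.succ_pos n) σ hσ hfpf x
    have hb2 : ∀ x, σb x = x → x = 1 := fun x hx => by
      obtain ⟨x, rfl⟩ := QuotientGroup.mk_surjective x
      exact (QuotientGroup.eq_one_iff x).2 (fpf_quotient hfpf N (fun y hy =>
        (Subgroup.characteristic_iff_map_le.1 (inferInstance : N.Characteristic) σ) ⟨y, hy, rfl⟩)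
        (QuotientGroup.eq.1 hx.symm))
    obtain ⟨E, hE0, hE1, hEm, hEn, hEl⟩ := ih (G ⧸ N) inferInstance σb hb1 hb2
    refine ⟨Fin.cons ⊥ fun i => (E i).comap (QuotientGroup.mk' N), rfl, ?_, ?_, ?_, ?_⟩
    · rw [← Fin.succ_last, Fin.cons_succ, hE1, comap_top]
    · refine Fin.monotone_iff_le_succ.2 fun i => ?_
      induction i using Fin.cases with
      | zero => simp
      | succ j =>
        rw [← Fin.succ_castSucc, Fin.cons_succ, Fin.cons_succ]
        exact comap_mono (hEm (Fin.castSucc_le_succ j))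
    · intro i
      induction i using Fin.cases with
      | zero => rw [Fin.cons_zero]; infer_instance
      | succ j => rw [Fin.cons_succ]; exact (hEn j).comap _
    · intro i
      induction i using Fin.cases with
      | zero =>
        obtain ⟨k, hk⟩ := (Subgroup.isNilpotent_iff_lowerCentralSeries (S := N)).1 fitting_isNilpotent
        refine ⟨k, ?_⟩
        rw [Fin.cons_succ, hE0, MonoidHom.comap_bot, QuotientGroup.ker_mk', hk]
        exact bot_le
      | succ j =>
        obtain ⟨k, hk⟩ := hEl j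
        refine ⟨k, ?_⟩
        rw [← Fin.succ_castSucc, Fin.cons_succ, Fin.cons_succ]
        refine le_trans ?_ (comap_mono hk)
        rw [← map_le_iff_le_comap, map_lowerCentralSeries,
          map_comap_eq_self_of_surjective (QuotientGroup.mk'_surjective N)]

end Cfsg.Lib.Solv.HH
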