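import Mathlib
import Cfsg.Agent.Lib.Solv.HHTheoremB
import Cfsg.Agent.Lib.Solv.Coprime
import Cfsg.Agent.Lib.Solv.Cores
import Cfsg.Agent.Lib.Characters.TISylow

/-!
# Theorem B for `p`-solvable linear groups
-/

set_option autoImplicit false

namespace Cfsg.Lib.Solv.HH

open Subgroup

variable {H : Type*} [Group H] [Finite H] {p : ℕ} [Fact p.Prime]

/-- A nontrivial `p`-element of a `p`-solvable group with trivial `p`-core moves an invariant
`q`-subgroup. -/
theorem exists_invariant_moved (hsol : Cfsg.IsPSolvable p H) (hOp : Cfsg.pCore p H = ⊥) (x : H) (n : ℕ)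
    (hx : x ^ p ^ n = 1) (y : H) (hy : y ∈ zpowers x) (hy1 : y ≠ 1) :
    ∃ q : ℕ, q.Prime ∧ q ≠ p ∧ ∃ Q : Subgroup H, IsPGroup q Q ∧ x ∈ normalizer (Q : Set H) ∧
      ∃ a ∈ Q, y * a * y⁻¹ ≠ a := by
  classical
  have hp : p.Prime := Fact.out
  set K := Cfsg.pPrimeCore p H with hK
  set A := zpowers x with hA
  have hAK : A ≤ normalizer (K : Set H) := by rw [normalizer_eq_top]; exact le_top
  obtain ⟨i, -, hi⟩ := (Nat.dvd_prime_pow hp).1 (orderOf_dvd_of_pow_eq_one hx)
  have hcop : (Nat.card A).Coprime (Nat.card K) := by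
    rw [Nat.card_zpowers, hi]
    exact Nat.Coprime.pow_left _ ((hp.coprime_iff_not_dvd).2 (not_dvd_card_pPrimeCore p))
  have hAs : Group.IsSolvable A := Group.isSolvable_of_comm fun a b => IsMulCommutative.is_comm.comm a b
  by_contra hcon
  push Not at hcon
  have htop : (centralizer ({y} : Set H)).subgroupOf K = ⊤ := by
    refine eq_top_of_forall_sylow_le fun q hq hqK => ?_
    haveI := Fact.mk hq
    obtain ⟨P, hP⟩ := exists_invariant_sylow A K hAK hcop (Or.inl hAs) q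
    have hqp : q ≠ p := fun h => not_dvd_card_pPrimeCore (G := H) p (by rw [hK, h] at hqK; exact hqK)
    refine ⟨P, fun a ha => ?_⟩
    have h := hcon q hq hqp _ (P.isPGroup'.map K.subtype) (hP (mem_zpowers x)) (a : H) (mem_map_of_mem _ ha)
    rw [mem_subgroupOf, mem_centralizer_singleton_iff]
    calc (a : H) * y = (y * a * y⁻¹) * y := by rw [h]
      _ = y * a := by group
  have hcent : y ∈ centralizer (K : Set H) := by
    rw [mem_centralizer_iff]
    intro a ha
    have h := mem_subgroupOf.1 ((eq_top_iff' _).1 htop ⟨a, ha⟩)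
    exact mem_centralizer_singleton_iff.1 h
  have hyK : y ∈ A ⊓ K := ⟨hy, Cfsg.Lib.Characters.centralizer_pPrimeCore_le hsol hOp hcent⟩
  rw [inf_eq_bot_of_coprime_card hcop, mem_bot] at hyK
  exact hy1 hyK

variable {F : Type*} [Field F] {V : Type*} [AddCommGroup V] [Module F V] [FiniteDimensional F V]

/-- **Theorem B**, group form: `x` has order `p ^ n`, the representation is faithful and in
characteristic `p`. -/
theorem hall_higman_group [CharP F p] (hsol : Cfsg.IsPSolvable p H) (hOp : Cfsg.pCore p H = ⊥)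
    (ρ : H →* Module.End F V) (hinj : Function.Injective ρ) (x : H) (n : ℕ) (hn : 0 < n)
    (hx : orderOf x = p ^ n) :
    DegGE (ρ x) (p ^ n) ∨ ∃ q e m : ℕ, q.Prime ∧ 1 ≤ e ∧ e ≤ n ∧ 1 ≤ m ∧ p ^ e = q ^ m + 1 ∧
      (∀ P : Sylow q H, ¬ IsMulCommutative P) ∧ DegGE (ρ x) (p ^ (n - e) * q ^ m) := by
  classical
  have hp : p.Prime := Fact.out
  set y := x ^ p ^ (n - 1) with hy
  have hy1 : y ≠ 1 := by
    intro h
    have h1 := orderOf_dvd_of_pow_eq_one h
    rw [hx] at h1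
    have := (Nat.pow_dvd_pow_iff_le_right hp.one_lt).1 h1
    omega
  obtain ⟨q, hq, hqp, Q, hQ, hxQ, a, haQ, hmove⟩ :=
    exists_invariant_moved hsol hOp x n (by rw [← hx, pow_orderOf_eq_one]) y (pow_mem (mem_zpowers x) _) hy1
  haveI := Fact.mk hq
  have hinv : ∀ b ∈ Q, MulAut.conj x b ∈ Q := fun b hb => (mem_normalizer_iff.1 hxQ b).1 hb
  let α : MulAut Q := resAut (MulAut.conj x) Q hinv
  have hα : α ^ p ^ n = 1 :=
    resAut_pow_eq_one _ Q hinv (by rw [← map_pow, ← hx, pow_orderOf_eq_one, map_one])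
  have hXinj : Function.Injective (ρ x) := by
    intro u w huw
    have h1 := congr(ρ x⁻¹ $huw)
    rw [← Module.End.mul_apply, ← Module.End.mul_apply, ← map_mul, inv_mul_cancel, map_one] at h1
    exact h1
  have hX : ∀ g : Q, ρ x * (ρ.comp Q.subtype) g = (ρ.comp Q.subtype) (α g) * ρ x := fun g => by
    show ρ x * ρ g = ρ (MulAut.conj x g) * ρ x
    rw [← map_mul, ← map_mul, MulAut.conj_apply, inv_mul_cancel_right]
  have hqF : (q : F) ≠ 0 := fun h => hqp
    ((Nat.prime_dvd_prime_iff_eq hp hq).1 ((CharP.cast_eq_zero_iff F p q).1 h)).symm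
  have hne : ∃ g : Q, (ρ.comp Q.subtype) ((α ^ p ^ (n - 1)) g) ≠ (ρ.comp Q.subtype) g := by
    refine ⟨⟨a, haQ⟩, fun h => hmove ?_⟩
    have h1 : (((α ^ p ^ (n - 1)) ⟨a, haQ⟩ : Q) : H) = a := hinj h
    rw [resAut_pow_apply, ← map_pow, MulAut.conj_apply] at h1
    exact h1
  rcases hall_higman hp hq hqp.symm hn hQ hqF (ρ.comp Q.subtype) α hα (ρ x) hXinj hX hne with
    h | ⟨e, m, he, hen, hm, hPe, hnab, hdeg⟩
  · exact Or.inl h
  · refine Or.inr ⟨q, e, m, hq, he, hen, hm, hPe, fun P hP => hnab ?_, hdeg⟩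
    obtain ⟨P₀, hP₀⟩ := hQ.exists_le_sylow
    obtain ⟨g, hg⟩ := MulAction.exists_smul_eq H P P₀
    intro b c
    have hbc : ∀ u ∈ (P : Subgroup H), ∀ w ∈ (P : Subgroup H), u * w = w * u := fun u hu w hw =>
      congr_arg Subtype.val (hP.is_comm.comm ⟨u, hu⟩ ⟨w, hw⟩)
    have hpre : ∀ u ∈ Q, g⁻¹ * u * g ∈ (P : Subgroup H) := fun u hu => by
      have h1 : u ∈ ((g • P : Sylow q H) : Subgroup H) := hg ▸ hP₀ hu
      rw [Sylow.coe_subgroup_smul] at h1
      exact mem_conj_smul.1 h1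
    have h1 := hbc _ (hpre b b.2) _ (hpre c c.2)
    apply Subtype.ext
    show (b : H) * c = c * b
    calc (b : H) * c = g * ((g⁻¹ * b * g) * (g⁻¹ * c * g)) * g⁻¹ := by group
      _ = (c : H) * b := by rw [h1]; group

end Cfsg.Lib.Solv.HH
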