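import Mathlib
import Cfsg.Agent.Lib.Solv.HHGroup
import Cfsg.Agent.Lib.Solv.HHFitting
import Cfsg.Agent.Lib.PLocal.Constraint
import Cfsg.Agent.S0634

/-!
# Hall–Higman: bounds on the `p`-length from the exponent
-/

set_option autoImplicit false

namespace Cfsg.Lib.Solv.HH

open Subgroup

universe u

variable {H : Type u} [Group H] [Finite H] {p : ℕ} [Fact p.Prime]

/-- The exceptional primes have abelian Sylow subgroups. -/
def Regular (p : ℕ) (H : Type u) [Group H] : Prop :=
  ∀ q e m : ℕ, q.Prime → 1 ≤ e → 1 ≤ m → p ^ e = q ^ m + 1 → ∀ Q : Sylow q H, IsMulCommutative Q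

omit [Fact p.Prime] in
theorem Regular.quotient (h : Regular p H) (N : Subgroup H) [N.Normal] : Regular p (H ⧸ N) := by
  intro q e m hq he hm hP Q
  haveI := Fact.mk hq
  obtain ⟨Q₀⟩ : Nonempty (Sylow q H) := inferInstance
  have hab := h q e m hq he hm hP Q₀
  let Q₁ := Q₀.mapSurjective (QuotientGroup.mk'_surjective N)
  have hQ₁ : IsMulCommutative Q₁ := by
    refine ⟨⟨fun a b => Subtype.ext ?_⟩⟩
    obtain ⟨a', ha', hae⟩ := (show (a : H ⧸ N) ∈ (Q₀ : Subgroup H).map (QuotientGroup.mk' N) by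
      rw [← Sylow.coe_mapSurjective (QuotientGroup.mk'_surjective N)]; exact a.2)
    obtain ⟨b', hb', hbe⟩ := (show (b : H ⧸ N) ∈ (Q₀ : Subgroup H).map (QuotientGroup.mk' N) by
      rw [← Sylow.coe_mapSurjective (QuotientGroup.mk'_surjective N)]; exact b.2)
    show (a : H ⧸ N) * b = b * a
    rw [← hae, ← hbe, ← map_mul, ← map_mul]
    exact congr_arg _ (congr_arg Subtype.val (hab.is_comm.comm ⟨a', ha'⟩ ⟨b', hb'⟩))
  obtain ⟨g, hg⟩ := MulAction.exists_smul_eq (H ⧸ N) Q Q₁
  refine ⟨⟨fun a b => Subtype.ext ?_⟩⟩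
  have hmem : ∀ c : Q, g * (c : H ⧸ N) * g⁻¹ ∈ (Q₁ : Subgroup (H ⧸ N)) := fun c => by
    rw [← hg, Sylow.coe_subgroup_smul, mem_conj_smul]
    simp only [mul_assoc, inv_mul_cancel, mul_one, inv_mul_cancel_left]
    exact c.2
  have h1 := congr_arg Subtype.val (hQ₁.is_comm.comm ⟨_, hmem a⟩ ⟨_, hmem b⟩)
  show (a : H ⧸ N) * b = b * a
  have h2 : g * ((a : H ⧸ N) * b) * g⁻¹ = g * ((b : H ⧸ N) * a) * g⁻¹ := by
    calc g * ((a : H ⧸ N) * b) * g⁻¹ = (g * a * g⁻¹) * (g * b * g⁻¹) := by group
      _ = (g * b * g⁻¹) * (g * a * g⁻¹) := h1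
      _ = g * ((b : H ⧸ N) * a) * g⁻¹ := by group
  exact mul_left_cancel (mul_right_cancel h2)

/-- The kernel of the action on the Frattini quotient of `O_p`. -/
theorem frattRep_ker (hsol : Cfsg.IsPSolvable p H) (hO : Cfsg.pPrimeCore p H = ⊥) :
    (frattRep (G := H) p).ker = Cfsg.pCore p H := by
  refine le_antisymm ?_ (le_trans (pCore_le_fitting p) (fitting_le_ker p))
  have hp : p.Prime := Fact.out
  refine le_pCore inferInstance ?_
  intro k
  obtain ⟨a, b, hb, hab⟩ := Nat.exists_eq_pow_mul_and_not_dvd (orderOf_pos (k : H)).ne' p hp.ne_one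
  set z := (k : H) ^ p ^ a with hz
  have hzb : z ^ b = 1 := by rw [hz, ← pow_mul, ← hab, pow_orderOf_eq_one]
  have hzp : p.Coprime (orderOf z) :=
    hp.coprime_iff_not_dvd.2 fun h => hb (h.trans (orderOf_dvd_of_pow_eq_one hzb))
  have hzc : z ∈ centralizer (Cfsg.pCore p H : Set H) := by
    refine centralizes_of_frattini (zpowers z) _ (by rw [normalizer_eq_top]; exact le_top) ?_ ?_ (mem_zpowers z)
    · obtain ⟨c, hc⟩ := ((isPGroup_pCore (G := H) p).to_subgroup (frattini _)).exists_card_eq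
      rw [hc, Nat.card_zpowers]
      exact Nat.Coprime.pow_right _ hzp.symm
    · intro g hg y hy
      obtain ⟨i, rfl⟩ := mem_zpowers_iff.1 hg
      exact (frattRep_eq_one_iff p).1
        (MonoidHom.mem_ker.1 ((frattRep (G := H) p).ker.zpow_mem (pow_mem k.2 _) i)) y hy
  have h1 : z ∈ Cfsg.pCore p H := Cfsg.Lib.PLocal.selfCentralizingCore_of_pSolvable hsol hO hzc
  obtain ⟨c, hc⟩ := isPGroup_pCore (G := H) p ⟨z, h1⟩
  refine ⟨a + c, Subtype.ext ?_⟩
  have h2 : z ^ p ^ c = 1 := congr_arg Subtype.val hc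
  show (k : H) ^ p ^ (a + c) = 1
  rw [pow_add, pow_mul, ← hz, h2]

/-- If the exponent of a Sylow subgroup is `p ^ N` then the `p ^ (N - 1)`-th powers lie in `O_p`. -/
theorem pow_mem_pCore (hsol : Cfsg.IsPSolvable p H) (hO : Cfsg.pPrimeCore p H = ⊥) (hreg : Regular p H)
    (S : Sylow p H) (N : ℕ) (hN : 1 ≤ N) (hexp : ∀ z ∈ (S : Subgroup H), z ^ p ^ N = 1) (x : H)
    (hx : x ∈ (S : Subgroup H)) : x ^ p ^ (N - 1) ∈ Cfsg.pCore p H := by
  classical
  have hp : p.Prime := Fact.out
  set P₀ := Cfsg.pCore p H with hP₀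
  haveI : P₀.Normal := inferInstance
  by_contra hcon
  let q := QuotientGroup.mk' P₀
  have hsolb : Cfsg.IsPSolvable p (H ⧸ P₀) :=
    Cfsg.Lib.PLocal.IsPSolvable.of_surjective _ (QuotientGroup.mk'_surjective P₀) hsol
  have hord : orderOf (q x) = p ^ N := by
    obtain ⟨N', rfl⟩ : ∃ N', N = N' + 1 := ⟨N - 1, by omega⟩
    refine orderOf_eq_prime_pow ?_ ?_
    · rw [← map_pow]
      exact fun h => hcon ((QuotientGroup.eq_one_iff _).1 h)
    · rw [← map_pow, hexp x hx, map_one]
  let ψ : H ⧸ P₀ →* Module.End (ZMod p) (Additive (FrattQ p H)) :=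
    QuotientGroup.lift P₀ (frattRep p) (frattRep_ker hsol hO).ge
  have hψ : Function.Injective ψ := by
    rw [← MonoidHom.ker_eq_bot_iff, eq_bot_iff]
    intro y hy
    obtain ⟨y, rfl⟩ := QuotientGroup.mk_surjective y
    have h1 : y ∈ (frattRep (G := H) p).ker := hy
    rw [frattRep_ker hsol hO] at h1
    exact mem_bot.2 ((QuotientGroup.eq_one_iff y).2 h1)
  haveI : FiniteDimensional (ZMod p) (Additive (FrattQ p H)) := Module.Finite.of_finite
  rcases hall_higman_group hsolb (pCore_quotient_eq_bot (G := H) p) ψ hψ (q x) N hN hord with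
    h | ⟨r, e, m, hr, he, -, hm, hPe, hnab, -⟩
  · -- the norm vanishes
    set T := ψ (q x) with hT
    have hTv : ∀ c : ↥P₀, T (Additive.ofMul (c : FrattQ p H)) =
        Additive.ofMul ((MulAut.conjNormal x c : ↥P₀) : FrattQ p H) := fun c => by
      show frattAut p (MulAut.conjNormal x) (Additive.ofMul (c : FrattQ p H)) = _
      rw [frattAut_apply]
    have key : ∀ (u : ↥P₀) (k : ℕ), ∃ c : ↥P₀, (c : H) = ((u : H) * x) ^ k * (x ^ k)⁻¹ ∧
        ∑ i ∈ Finset.range k, (T ^ i) (Additive.ofMul (u : FrattQ p H)) = Additive.ofMul (c : FrattQ p H) := by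
      intro u k
      induction k with
      | zero => exact ⟨1, by simp, by simp⟩
      | succ k ih =>
        obtain ⟨c, hc, hcs⟩ := ih
        refine ⟨u * MulAut.conjNormal x c, ?_, ?_⟩
        · rw [Subgroup.coe_mul, MulAut.conjNormal_apply, hc, pow_succ', pow_succ']
          group
        · rw [Finset.sum_range_succ', pow_zero, Module.End.one_apply, QuotientGroup.mk_mul, ofMul_mul, ← hTv, ← hcs,
            map_sum, add_comm]
          congr 1
          exact Finset.sum_congr rfl fun i _ => by rw [pow_succ', Module.End.mul_apply]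
    have hS : ∑ i ∈ Finset.range (p ^ N), T ^ i = 0 := by
      refine LinearMap.ext fun v => ?_
      obtain ⟨u, hu⟩ := QuotientGroup.mk_surjective (Additive.toMul v)
      rw [show v = Additive.ofMul (u : FrattQ p H) from Additive.toMul.injective hu.symm, LinearMap.sum_apply]
      obtain ⟨c, hc, hcs⟩ := key u (p ^ N)
      rw [hcs]
      have hux : (u : H) * x ∈ (S : Subgroup H) :=
        mul_mem (pCore_le_sylow p S u.2) hx
      have hc1 : c = 1 := Subtype.ext (by rw [hc, hexp _ hux, hexp x hx]; simp)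
      rw [hc1]
      rfl
    set f : Polynomial (ZMod p) := ∑ i ∈ Finset.range (p ^ N), Polynomial.X ^ i with hf
    have hc : f.coeff 0 = 1 := by simp [hf, Polynomial.coeff_X_pow, pow_pos hp.pos N]
    have h2 := h f (fun h0 => by simp [h0] at hc) (by rw [hf, map_sum]; simpa using hS)
    have h3 : f.natDegree ≤ p ^ N - 1 := Polynomial.natDegree_sum_le_of_forall_le _ _ fun i hi => by
      rw [Polynomial.natDegree_X_pow]
      have := Finset.mem_range.1 hi
      omega
    have := pow_pos hp.pos N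
    omega
  · haveI := Fact.mk hr
    obtain ⟨Q⟩ : Nonempty (Sylow r (H ⧸ P₀)) := inferInstance
    exact hnab Q (hreg.quotient P₀ r e m hr he hm hPe Q)

/-- The `p`-length is at most the exponent in the regular case. -/
theorem pLengthLE_of_regular {G : Type u} [Group G] [Finite G] (hsol : Cfsg.IsPSolvable p G)
    (hreg : Regular p G) (n : ℕ) (hexp : ∀ (P : Sylow p G), ∀ x ∈ (P : Subgroup G), x ^ p ^ n = 1) :
    Cfsg.PLengthLE p n G := by
  classical
  obtain ⟨S⟩ : Nonempty (Sylow p G) := inferInstance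
  set X := fun m => (Cfsg.upperPSeries p G m).1 with hX
  have hmono : ∀ m, X m ≤ X (m + 1) := by
    intro m x hx
    show x ∈ (Cfsg.upperPSeries p G (m + 1)).1
    rw [Cfsg.upperPSeries]
    split_ifs <;>
    · refine mem_comap.2 ?_
      rw [show QuotientGroup.mk' (Cfsg.upperPSeries p G m).1 x = 1 from (QuotientGroup.eq_one_iff x).2 hx]
      exact one_mem _
  have key : ∀ k, k ≤ n → ∀ x ∈ (S : Subgroup G), x ^ p ^ (n - k) ∈ X (2 * k) := by
    intro k
    induction k with
    | zero =>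
      intro _ x hx
      rw [Nat.sub_zero, hexp S x hx]
      exact one_mem _
    | succ k ih =>
      intro hk x hx
      set Y := (Cfsg.upperPSeries p G (2 * k + 1)).1 with hY
      set Y₀ := (Cfsg.upperPSeries p G (2 * k)).1 with hY₀
      have h1 : Y = (Cfsg.pPrimeCore p (G ⧸ Y₀)).comap (QuotientGroup.mk' Y₀) := by
        rw [hY, Cfsg.upperPSeries]
        simp only [show Even (2 * k) from even_two_mul k, if_true]
        rfl
      have h2 : (Cfsg.upperPSeries p G (2 * k + 2)).1 = (Cfsg.pCore p (G ⧸ Y)).comap (QuotientGroup.mk' Y) := by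
        rw [show 2 * k + 2 = (2 * k + 1) + 1 from rfl, Cfsg.upperPSeries]
        simp only [show ¬ Even (2 * k + 1) from Nat.not_even_two_mul_add_one k, if_false]
        rfl
      have hsolq : Cfsg.IsPSolvable p (G ⧸ Y) :=
        Cfsg.Lib.PLocal.IsPSolvable.of_surjective _ (QuotientGroup.mk'_surjective Y) hsol
      have hO : Cfsg.pPrimeCore p (G ⧸ Y) = ⊥ := by
        have hY' := h1
        rw [eq_bot_iff]
        intro y hy
        have hKn : ((Cfsg.pPrimeCore p (G ⧸ Y)).comap (QuotientGroup.mk' Y)).Normal := inferInstance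
        set K := (Cfsg.pPrimeCore p (G ⧸ Y)).comap (QuotientGroup.mk' Y) with hK
        have hYK : Y ≤ K := fun z hz => by
          rw [hK, mem_comap, QuotientGroup.mk'_apply, (QuotientGroup.eq_one_iff z).2 hz]
          exact one_mem _
        have hY₀Y : Y₀ ≤ Y := hmono _
        have hc : ∀ (Z : Subgroup G) [Z.Normal] (M : Subgroup (G ⧸ Z)),
            Z.relIndex (M.comap (QuotientGroup.mk' Z)) = Nat.card M := by
          intro Z _ M
          have := relIndex_ker (M.comap (QuotientGroup.mk' Z)) (QuotientGroup.mk' Z)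
          rwa [QuotientGroup.ker_mk', map_comap_eq_self_of_surjective (QuotientGroup.mk'_surjective Z)] at this
        have hle : K.map (QuotientGroup.mk' Y₀) ≤ Cfsg.pPrimeCore p (G ⧸ Y₀) := by
          refine le_pPrimeCore (hKn.map _ (QuotientGroup.mk'_surjective Y₀)) ?_
          have := relIndex_ker K (QuotientGroup.mk' Y₀)
          rw [QuotientGroup.ker_mk'] at this
          rw [← this, ← relIndex_mul_relIndex Y₀ Y K hY₀Y hYK]
          refine Nat.Coprime.mul_left ?_ ?_
          · rw [hY', hc]; exact coprime_pPrimeCore p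
          · rw [hK, hc]; exact coprime_pPrimeCore p
        rw [map_le_iff_le_comap, ← h1] at hle
        obtain ⟨z, rfl⟩ := QuotientGroup.mk'_surjective Y y
        exact mem_bot.2 ((QuotientGroup.eq_one_iff z).2 (hle hy))
      let SY : Sylow p (G ⧸ Y) := S.mapSurjective (QuotientGroup.mk'_surjective Y)
      have hN : 1 ≤ n - k := by omega
      have hexpY : ∀ z ∈ (SY : Subgroup (G ⧸ Y)), z ^ p ^ (n - k) = 1 := by
        intro z hz
        rw [Sylow.coe_mapSurjective] at hz
        obtain ⟨w, hw, rfl⟩ := hz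
        rw [← map_pow]
        exact (QuotientGroup.eq_one_iff _).2 (hmono _ (ih (by omega) w hw))
      have h3 := pow_mem_pCore hsolq hO (hreg.quotient Y) SY (n - k) hN hexpY (QuotientGroup.mk' Y x)
        (by rw [Sylow.coe_mapSurjective]; exact mem_map_of_mem _ hx)
      rw [show n - (k + 1) = n - k - 1 by omega]
      show x ^ p ^ (n - k - 1) ∈ (Cfsg.upperPSeries p G (2 * (k + 1))).1
      rw [show 2 * (k + 1) = 2 * k + 2 by ring, h2, mem_comap, map_pow]
      exact h3
  have hS : (S : Subgroup G) ≤ X (2 * n) := fun x hx => by simpa using key n le_rfl x hx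
  show (Cfsg.upperPSeries p G (2 * n + 1)).1 = ⊤
  rw [Cfsg.upperPSeries]
  simp only [show Even (2 * n) from even_two_mul n, if_true]
  show (Cfsg.pPrimeCore p (G ⧸ (Cfsg.upperPSeries p G (2 * n)).1)).comap _ = ⊤
  rw [eq_top_iff]
  intro x _
  refine le_pPrimeCore (N := ⊤) inferInstance ?_ (mem_top _)
  rw [Subgroup.card_top, ← index_eq_card]
  exact ((Nat.Prime.coprime_iff_not_dvd Fact.out).2 fun h =>
    S.not_dvd_index (h.trans (index_dvd_of_le hS))).symm

end Cfsg.Lib.Solv.HH
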