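import Mathlib

/-!
Kreknin's and Kostrikin's bounds for Lie rings graded by `ZMod p` with trivial zero component.
-/

set_option autoImplicit false

namespace Cfsg.Lib.Solv.KK

variable {L : Type*} [LieRing L] {p : ℕ}

/-- A family of sets of homogeneous elements closed under the bracket, inside the components `Lk`. -/
structure Fam (Lk : ZMod p → AddSubgroup L) where
  S : ZMod p → Set L
  sub : ∀ i, ∀ x ∈ S i, x ∈ Lk i
  closed : ∀ i j, ∀ a ∈ S i, ∀ b ∈ S j, ⁅a, b⁆ ∈ S (i + j)

theorem zmod3_cases : ∀ i j k : ZMod 3, i + j ≠ 0 → i + j + k ≠ 0 → i ≠ 0 → j ≠ 0 → k ≠ 0 → i + k = 0 ∧ j + k = 0 := by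
  decide

variable {Lk : ZMod p → AddSubgroup L}

/-- The derived family. -/
def Fam.der (F : Fam Lk) : Fam Lk where
  S k := {x | ∃ i j a b, i + j = k ∧ a ∈ F.S i ∧ b ∈ F.S j ∧ x = ⁅a, b⁆}
  sub := by
    rintro k _ ⟨i, j, a, b, rfl, ha, hb, rfl⟩
    exact F.sub _ _ (F.closed _ _ _ ha _ hb)
  closed := by
    rintro _ _ _ ⟨i, j, a, b, rfl, ha, hb, rfl⟩ _ ⟨i', j', a', b', rfl, ha', hb', rfl⟩
    exact ⟨i + j, i' + j', _, _, rfl, F.closed _ _ _ ha _ hb, F.closed _ _ _ ha' _ hb', rfl⟩

theorem der_subset (F : Fam Lk) {k : ZMod p} {x : L} (h : x ∈ F.der.S k) : x ∈ F.S k := by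
  obtain ⟨i, j, a, b, rfl, ha, hb, rfl⟩ := h
  exact F.closed _ _ _ ha _ hb

/-- Iterated derived families. -/
def Fam.derN (F : Fam Lk) : ℕ → Fam Lk
  | 0 => F
  | n + 1 => (F.derN n).der

theorem derN_add (F : Fam Lk) (m n : ℕ) : (F.derN m).derN n = F.derN (m + n) := by
  induction n with
  | zero => rfl
  | succ n ih => rw [← add_assoc]; simp only [Fam.derN, ih]

theorem derN_subset (F : Fam Lk) (n : ℕ) {k : ZMod p} {x : L} (h : x ∈ (F.derN n).S k) : x ∈ F.S k := by
  induction n generalizing x with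
  | zero => exact h
  | succ n ih => exact ih (der_subset _ h)

/-- Monomials in the generators of degree above `k`. -/
inductive Mon (F : Fam Lk) (k : ℕ) : ZMod p → L → Prop
  | gen {j : ZMod p} {a : L} : k < j.val → a ∈ F.S j → Mon F k j a
  | step {i j : ZMod p} {u a : L} : Mon F k i u → k < j.val → a ∈ F.S j → Mon F k (i + j) ⁅u, a⁆

/-- Composite monomials. -/
def Mon2 (F : Fam Lk) (k : ℕ) (d : ZMod p) (x : L) : Prop :=
  ∃ i j u a, i + j = d ∧ Mon F k i u ∧ k < j.val ∧ a ∈ F.S j ∧ x = ⁅u, a⁆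

theorem Mon2.mon {F : Fam Lk} {k : ℕ} {d : ZMod p} {x : L} (h : Mon2 F k d x) : Mon F k d x := by
  obtain ⟨i, j, u, a, rfl, hu, hj, ha, rfl⟩ := h
  exact Mon.step hu hj ha

theorem Mon.mem {F : Fam Lk} {k : ℕ} {d : ZMod p} {x : L} (h : Mon F k d x) : x ∈ F.S d := by
  induction h with
  | gen _ ha => exact ha
  | step _ _ ha ih => exact F.closed _ _ _ ih _ ha

/-- The span of monomials of one degree. -/
def span1 (F : Fam Lk) (k : ℕ) (d : ZMod p) : AddSubgroup L := AddSubgroup.closure {x | Mon F k d x}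

/-- The span of composite monomials of one degree. -/
def span2 (F : Fam Lk) (k : ℕ) (d : ZMod p) : AddSubgroup L := AddSubgroup.closure {x | Mon2 F k d x}

theorem span2_le (F : Fam Lk) (k : ℕ) (d : ZMod p) : span2 F k d ≤ span1 F k d :=
  AddSubgroup.closure_mono fun _ h => Mon2.mon h

theorem bracket_mem {A B C : Set L} (h : ∀ a ∈ A, ∀ b ∈ B, ⁅a, b⁆ ∈ AddSubgroup.closure C) {x y : L}
    (hx : x ∈ AddSubgroup.closure A) (hy : y ∈ AddSubgroup.closure B) : ⁅x, y⁆ ∈ AddSubgroup.closure C := by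
  induction hx using AddSubgroup.closure_induction with
  | mem a ha =>
    induction hy using AddSubgroup.closure_induction with
    | mem b hb => exact h a ha b hb
    | zero => rw [lie_zero]; exact zero_mem _
    | add b c _ _ hb hc => rw [lie_add]; exact add_mem hb hc
    | neg b _ hb => rw [lie_neg]; exact neg_mem hb
  | zero => rw [zero_lie]; exact zero_mem _
  | add b c _ _ hb hc => rw [add_lie]; exact add_mem hb hc
  | neg b _ hb => rw [neg_lie]; exact neg_mem hb

theorem mon_bracket {F : Fam Lk} {k : ℕ} {i j : ZMod p} {v : L} (hv : Mon F k j v) :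
    ∀ {u : L}, Mon F k i u → ⁅u, v⁆ ∈ span2 F k (i + j) := by
  induction hv generalizing i with
  | @gen j a hj ha => exact fun {u} hu => AddSubgroup.subset_closure ⟨i, j, u, a, rfl, hu, hj, ha, rfl⟩
  | @step i' j v a hv hj ha ih =>
    intro u hu
    have e : ⁅u, ⁅v, a⁆⁆ = ⁅⁅u, v⁆, a⁆ - ⁅⁅u, a⁆, v⁆ := by
      rw [leibniz_lie u v a, ← lie_skew v ⁅u, a⁆]; abel
    rw [e]
    refine sub_mem ?_ ?_
    · refine bracket_mem (B := {a}) ?_ (ih hu) (AddSubgroup.subset_closure rfl)
      intro w hw b hb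
      rw [Set.mem_singleton_iff.1 hb]
      exact AddSubgroup.subset_closure ⟨i + i', j, w, a, by rw [add_assoc], Mon2.mon hw, hj, ha, rfl⟩
    · have := ih (i := i + j) (Mon.step hu hj ha)
      rwa [add_assoc, add_comm j, ← add_assoc, add_assoc] at this

theorem span_bracket {F : Fam Lk} {k : ℕ} {i j : ZMod p} {u v : L} (hu : u ∈ span1 F k i) (hv : v ∈ span1 F k j) :
    ⁅u, v⁆ ∈ span2 F k (i + j) :=
  bracket_mem (A := {x | Mon F k i x}) (B := {x | Mon F k j x}) (C := {x | Mon2 F k (i + j) x})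
    (fun _ ha _ hb => mon_bracket (F := F) hb ha) hu hv

variable [hp : Fact p.Prime] (h0 : ∀ x ∈ Lk 0, x = 0)

include h0

theorem mem_span1_zero (F : Fam Lk) {d : ZMod p} {x : L} (h : x ∈ F.S d) : x ∈ span1 F 0 d := by
  by_cases hd : d = 0
  · subst hd; rw [h0 x (F.sub _ _ h)]; exact zero_mem _
  · exact AddSubgroup.subset_closure (Mon.gen (Nat.pos_of_ne_zero fun e => hd ((ZMod.val_eq_zero d).1 e)) h)

/-- Kreknin's induction. -/
theorem kreknin : ∀ (k : ℕ), k < p → ∀ (F : Fam Lk) {d : ZMod p} {x : L},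
    x ∈ (F.derN (2 ^ k - 1)).S d → x ∈ span1 F k d := by
  intro k
  induction k with
  | zero => intro _ F d x h; exact mem_span1_zero h0 F (by simpa [Fam.derN] using h)
  | succ k ih =>
    intro hk F d x h
    specialize ih (by omega)
    set F' := F.derN (2 ^ k) with hF'
    -- part (a)
    have hval : ((k + 1 : ℕ) : ZMod p).val = k + 1 := by rw [ZMod.val_natCast, Nat.mod_eq_of_lt hk]
    have ha : ∀ y ∈ F'.S ((k + 1 : ℕ) : ZMod p), y ∈ span1 F (k + 1) ((k + 1 : ℕ) : ZMod p) := by
      intro y hy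
      rw [hF', show 2 ^ k = 2 ^ k - 1 + 1 by have := Nat.one_le_two_pow (n := k); omega] at hy
      obtain ⟨i, j, a, b, hij, ha', hb', rfl⟩ := hy
      have h2 := span_bracket (ih F ha') (ih F hb')
      rw [hij] at h2
      refine (AddSubgroup.closure_le _).2 ?_ h2
      rintro _ ⟨i', j', u, c, hij', hu, hj', hc, rfl⟩
      rcases (Nat.succ_le_of_lt hj').lt_or_eq with hlt | heq
      · -- both degrees exceed `k + 1`
        by_cases hi0 : i' = 0
        · subst hi0
          rw [h0 u (F.sub _ _ hu.mem), zero_lie]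
          exact zero_mem _
        have hi' : k + 1 < i'.val := by
          by_contra hle
          push Not at hle
          have h3 : (i'.val + j'.val) % p = k + 1 := by rw [← ZMod.val_add, hij', hval]
          have hi1 : i'.val ≠ 0 := fun e => hi0 ((ZMod.val_eq_zero i').1 e)
          have hj1 := ZMod.val_lt j'
          rcases Nat.lt_or_ge (i'.val + j'.val) p with h4 | h4
          · rw [Nat.mod_eq_of_lt h4] at h3
            omega
          · rw [Nat.mod_eq_sub_mod h4, Nat.mod_eq_of_lt (by omega)] at h3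
            omega
        refine AddSubgroup.subset_closure ?_
        have := Mon.step (Mon.gen hi' hu.mem) hlt hc
        rwa [hij'] at this
      · -- the last factor has degree `k + 1`, so the first one has degree zero
        have hj : j' = ((k + 1 : ℕ) : ZMod p) := ZMod.val_injective p (by rw [hval, ← heq])
        have hi : i' = 0 := by
          have := hij'; rw [hj] at this
          simpa using this
        subst hi
        rw [h0 u (F.sub _ _ hu.mem), zero_lie]
        exact zero_mem _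
    -- part (b)
    have hx : x ∈ (F'.derN (2 ^ k - 1)).S d := by
      rw [hF', derN_add, show 2 ^ k + (2 ^ k - 1) = 2 ^ (k + 1) - 1 by
        rw [pow_succ]; have := Nat.one_le_two_pow (n := k); omega]
      exact h
    have hgen : ∀ {e : ZMod p} {y : L}, Mon F' k e y → y ∈ span1 F (k + 1) e := by
      intro e y hy
      have hone : ∀ {e : ZMod p} {y : L}, k < e.val → y ∈ F'.S e → y ∈ span1 F (k + 1) e := by
        intro e y he hy
        rcases (Nat.succ_le_of_lt he).lt_or_eq with hlt | heq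
        · exact AddSubgroup.subset_closure (Mon.gen hlt (derN_subset F _ hy))
        · obtain rfl : e = ((k + 1 : ℕ) : ZMod p) := ZMod.val_injective p (by rw [hval, ← heq])
          exact ha y hy
      induction hy with
      | gen hj ha' => exact hone hj ha'
      | step _ hj ha' ih' => exact span2_le F _ _ (span_bracket ih' (hone hj ha'))
    exact (AddSubgroup.closure_le _).2 (fun y hy => hgen hy) (ih F' hx)

theorem derN_eq_zero (F : Fam Lk) {d : ZMod p} {x : L} (h : x ∈ (F.derN (2 ^ (p - 1) - 1)).S d) : x = 0 := by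
  have h1 := kreknin h0 (p - 1) (Nat.sub_lt hp.out.pos one_pos) F h
  have h2 : {y : L | Mon F (p - 1) d y} = ∅ := by
    ext y
    simp only [Set.mem_setOf_eq, Set.mem_empty_iff_false, iff_false]
    intro hy
    cases hy with
    | gen hj _ => have := ZMod.val_lt d; omega
    | @step i j u a _ hj _ => have := ZMod.val_lt j; omega
  rw [span1, h2, AddSubgroup.closure_empty] at h1
  exact AddSubgroup.mem_bot.1 h1

omit h0

/-- Left-normed products along a list of letters. -/
def word (x : L) (l : List (ZMod p × L)) : L := l.foldl (fun y q => ⁅y, q.2⁆) x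

/-- All products of `c + 1` members of the family vanish. -/
def Kills (F : Fam Lk) (c : ℕ) : Prop :=
  ∀ (i : ZMod p) (x : L), x ∈ F.S i → ∀ l : List (ZMod p × L), l.length = c → (∀ q ∈ l, q.2 ∈ F.S q.1) → word x l = 0

/-- Products of `t + 1` members, by degree. -/
def Pk (F : Fam Lk) : ℕ → ZMod p → Set L
  | 0 => F.S
  | t + 1 => fun d => {x | ∃ i j y a, i + j = d ∧ y ∈ Pk F t i ∧ a ∈ F.S j ∧ x = ⁅y, a⁆}

/-- Products of `t + 1` members, all degrees. -/
def PkU (F : Fam Lk) (t : ℕ) : AddSubgroup L := AddSubgroup.closure {x | ∃ d, x ∈ Pk F t d}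

theorem Pk_word (F : Fam Lk) : ∀ (t : ℕ) {d : ZMod p} {x : L}, x ∈ Pk F t d →
    ∃ (i : ZMod p) (y : L) (l : List (ZMod p × L)), y ∈ F.S i ∧ l.length = t ∧ (∀ q ∈ l, q.2 ∈ F.S q.1) ∧ x = word y l := by
  intro t
  induction t with
  | zero => intro d x h; exact ⟨d, x, [], h, rfl, by simp, rfl⟩
  | succ t ih =>
    rintro d _ ⟨i, j, y, a, -, hy, ha, rfl⟩
    obtain ⟨i', y', l, hy', hl, hmem, rfl⟩ := ih hy
    refine ⟨i', y', l ++ [(j, a)], hy', by simp [hl], ?_, by simp [word, List.foldl_append]⟩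
    intro q hq
    rcases List.mem_append.1 hq with hq | hq
    · exact hmem q hq
    · rw [List.mem_singleton] at hq; subst hq; exact ha

theorem Pk_mem (F : Fam Lk) : ∀ (t : ℕ) {d : ZMod p} {x : L}, x ∈ Pk F t d → x ∈ F.S d := by
  intro t
  induction t with
  | zero => exact fun h => h
  | succ t ih => rintro d _ ⟨i, j, y, a, rfl, hy, ha, rfl⟩; exact F.closed _ _ _ (ih hy) _ ha

theorem word_zero (l : List (ZMod p × L)) : word (0 : L) l = 0 := by
  induction l with
  | nil => rfl
  | cons q l ih => simpa [word, zero_lie] using ih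

theorem word_sub (l : List (ZMod p × L)) : ∀ x y : L, word (x - y) l = word x l - word y l := by
  induction l with
  | nil => intro x y; rfl
  | cons q l ih => intro x y; simp only [word, List.foldl_cons, sub_lie] at ih ⊢; exact ih _ _

theorem word_append (x : L) (l1 l2 : List (ZMod p × L)) : word x (l1 ++ l2) = word (word x l1) l2 := by
  simp [word, List.foldl_append]

theorem word_mem (F : Fam Lk) : ∀ (l : List (ZMod p × L)) (d : ZMod p) (x : L), x ∈ F.S d →
    (∀ q ∈ l, q.2 ∈ F.S q.1) → word x l ∈ F.S (d + (l.map Prod.fst).sum) := by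
  intro l
  induction l with
  | nil => intro d x hx _; simpa [word] using hx
  | cons q l ih =>
    intro d x hx hmem
    have := ih _ _ (F.closed _ _ _ hx _ (hmem q (List.mem_cons_self ..))) (fun r hr => hmem r (List.mem_cons_of_mem _ hr))
    simpa [word, add_assoc] using this

variable (F : Fam Lk)

theorem Pk_bracket {t : ℕ} {y a : L} {j : ZMod p} (ha : a ∈ F.der.S j) (hy : y ∈ PkU F.der t) :
    ⁅y, a⁆ ∈ PkU F.der (t + 1) := by
  refine bracket_mem (B := {a}) ?_ hy (AddSubgroup.subset_closure rfl)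
  rintro w ⟨d, hw⟩ b hb
  rw [Set.mem_singleton_iff.1 hb]
  exact AddSubgroup.subset_closure ⟨_, d, j, w, a, rfl, hw, ha, rfl⟩

theorem Pk_stable {a : L} {j : ZMod p} (ha : a ∈ F.S j) : ∀ (t : ℕ) {y : L}, y ∈ PkU F.der t → ⁅y, a⁆ ∈ PkU F.der t := by
  intro t
  induction t with
  | zero =>
    intro y hy
    refine bracket_mem (B := {a}) ?_ hy (AddSubgroup.subset_closure rfl)
    rintro w ⟨d, hw⟩ b hb
    rw [Set.mem_singleton_iff.1 hb]
    exact AddSubgroup.subset_closure ⟨d + j, d, j, w, a, rfl, der_subset F hw, ha, rfl⟩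
  | succ t ih =>
    intro y hy
    refine bracket_mem (B := {a}) ?_ hy (AddSubgroup.subset_closure rfl)
    rintro _ ⟨_, i, i', z, c, -, hz, hc, rfl⟩ b hb
    rw [Set.mem_singleton_iff.1 hb]
    have e : ⁅⁅z, c⁆, a⁆ = ⁅z, ⁅c, a⁆⁆ + ⁅⁅z, a⁆, c⁆ := by
      rw [leibniz_lie z c a, ← lie_skew c ⁅z, a⁆]; abel
    rw [e]
    refine add_mem ?_ (Pk_bracket F hc (ih (AddSubgroup.subset_closure ⟨i, hz⟩)))
    exact AddSubgroup.subset_closure ⟨_, i, i' + j, z, _, rfl, hz,
      ⟨i', j, c, a, rfl, der_subset F hc, ha, rfl⟩, rfl⟩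

theorem word_stable (t : ℕ) : ∀ (l : List (ZMod p × L)), (∀ q ∈ l, q.2 ∈ F.S q.1) → ∀ {y : L}, y ∈ PkU F.der t →
    word y l ∈ PkU F.der t := by
  intro l
  induction l with
  | nil => intro _ y hy; exact hy
  | cons q l ih =>
    intro hmem y hy
    exact ih (fun r hr => hmem r (List.mem_cons_of_mem _ hr)) (Pk_stable F (hmem q (List.mem_cons_self ..)) t hy)

theorem word_perm (t : ℕ) {l l' : List (ZMod p × L)} (hperm : l.Perm l') : (∀ q ∈ l, q.2 ∈ F.S q.1) →
    ∀ {y : L}, y ∈ PkU F.der t → word y l - word y l' ∈ PkU F.der (t + 1) := by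
  induction hperm with
  | nil => intro _ y _; simp
  | cons q _ ih =>
    intro hmem y hy
    exact ih (fun r hr => hmem r (List.mem_cons_of_mem _ hr)) (Pk_stable F (hmem q (List.mem_cons_self ..)) t hy)
  | swap q r l =>
    intro hmem y hy
    show word ⁅⁅y, r.2⁆, q.2⁆ l - word ⁅⁅y, q.2⁆, r.2⁆ l ∈ _
    rw [← word_sub]
    have e : ⁅⁅y, r.2⁆, q.2⁆ - ⁅⁅y, q.2⁆, r.2⁆ = ⁅y, ⁅r.2, q.2⁆⁆ := by
      rw [leibniz_lie y r.2 q.2, ← lie_skew r.2 ⁅y, q.2⁆]; abel
    refine word_stable F (t + 1) l (fun s hs => hmem s (List.mem_cons_of_mem _ (List.mem_cons_of_mem _ hs))) ?_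
    rw [e]
    exact Pk_bracket F ⟨r.1, q.1, _, _, rfl, hmem r (by simp), hmem q (by simp), rfl⟩ hy
  | @trans l1 l2 l3 h12 _ ih1 ih2 =>
    intro hmem y hy
    have h1 := ih1 hmem hy
    have h2 := ih2 (fun q hq => hmem q (h12.mem_iff.2 hq)) hy
    simpa using add_mem h1 h2

/-- Partial sums of `m` nonzero residues cover `m + 1` residues. -/
theorem exists_sums : ∀ (l : List (ZMod p × L)), (∀ q ∈ l, q.1 ≠ 0) →
    ∃ T : Finset (ZMod p), 0 ∈ T ∧ min p (l.length + 1) ≤ T.card ∧
      ∀ c ∈ T, ∃ l1 l2, l.Perm (l1 ++ l2) ∧ (l1.map Prod.fst).sum = c := by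
  intro l
  induction l with
  | nil => intro _; exact ⟨{0}, by simp, by simp, fun c hc => ⟨[], [], by simp, by simp_all⟩⟩
  | cons q l ih =>
    intro hne
    obtain ⟨T, hT0, hTc, hT⟩ := ih (fun r hr => hne r (List.mem_cons_of_mem _ hr))
    refine ⟨T ∪ T.image (q.1 + ·), Finset.mem_union_left _ hT0, ?_, ?_⟩
    · by_cases hsub : T.image (q.1 + ·) ⊆ T
      · have hall : ∀ n : ℕ, (n : ZMod p) * q.1 ∈ T := by
          intro n
          induction n with
          | zero => simpa using hT0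
          | succ n ihn =>
            have := hsub (Finset.mem_image_of_mem (q.1 + ·) ihn)
            push_cast
            rwa [add_mul, one_mul, add_comm]
        have huniv : T = Finset.univ := Finset.eq_univ_of_forall fun c => by
          have := hall (c * q.1⁻¹).val
          rwa [ZMod.natCast_zmod_val, mul_assoc, inv_mul_cancel₀ (hne q (List.mem_cons_self ..)), mul_one] at this
        rw [huniv, Finset.union_eq_left.2 (Finset.subset_univ _), Finset.card_univ, ZMod.card]
        exact min_le_left _ _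
      · obtain ⟨c, hc, hcT⟩ := Finset.not_subset.1 hsub
        have h1 : T ⊂ T ∪ T.image (q.1 + ·) := Finset.ssubset_iff_subset_ne.2
          ⟨Finset.subset_union_left, fun e => hcT (e ▸ Finset.mem_union_right _ hc)⟩
        have := Finset.card_lt_card h1
        simp only [List.length_cons]
        omega
    · intro c hc
      rcases Finset.mem_union.1 hc with hc | hc
      · obtain ⟨l1, l2, hp', hsum⟩ := hT c hc
        exact ⟨l1, q :: l2, (hp'.cons q).trans List.perm_middle.symm, hsum⟩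
      · obtain ⟨c', hc', rfl⟩ := Finset.mem_image.1 hc
        obtain ⟨l1, l2, hp', hsum⟩ := hT c' hc'
        exact ⟨q :: l1, l2, hp'.cons q, by simp [hsum]⟩

include h0

theorem word_climb {t : ℕ} {y : L} {d : ZMod p} (hy : y ∈ Pk F.der t d) {l : List (ZMod p × L)}
    (hlen : l.length = p - 1) (hmem : ∀ q ∈ l, q.2 ∈ F.S q.1) : word y l ∈ PkU F.der (t + 1) := by
  by_cases hz : ∃ q ∈ l, q.1 = 0
  · obtain ⟨q, hq, hq0⟩ := hz
    obtain ⟨l1, l2, rfl⟩ := List.append_of_mem hq
    have hq2 : q.2 = 0 := h0 _ (hq0 ▸ F.sub _ _ (hmem q hq))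
    rw [word_append]
    show word ⁅word y l1, q.2⁆ l2 ∈ _
    rw [hq2, lie_zero, word_zero]
    exact zero_mem _
  push Not at hz
  obtain ⟨T, -, hTc, hT⟩ := exists_sums l hz
  have hp1 := hp.out.pos
  have huniv : T = Finset.univ := Finset.eq_univ_of_card T (le_antisymm T.card_le_univ (by
    rw [ZMod.card]; omega))
  obtain ⟨l1, l2, hperm, hsum⟩ := hT (-d) (huniv ▸ Finset.mem_univ _)
  have h1 := word_perm F t hperm hmem (AddSubgroup.subset_closure ⟨d, hy⟩)
  have h2 : word y (l1 ++ l2) = 0 := by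
    rw [word_append]
    have h3 := word_mem F l1 d y (der_subset F (Pk_mem F.der t hy))
      (fun q hq => hmem q (hperm.mem_iff.2 (List.mem_append_left _ hq)))
    rw [hsum, add_neg_cancel] at h3
    rw [h0 _ (F.sub _ _ h3), word_zero]
  simpa [h2] using h1

theorem word_long (c : ℕ) : ∀ (t : ℕ) (l : List (ZMod p × L)), l.length = (p - 1) * c →
    (∀ q ∈ l, q.2 ∈ F.S q.1) → ∀ {y : L}, y ∈ PkU F.der t → word y l ∈ PkU F.der (t + c) := by
  induction c with
  | zero =>
    intro t l hl hmem y hy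
    rw [Nat.mul_zero, List.length_eq_zero_iff] at hl
    subst hl
    simpa [word] using hy
  | succ c ih =>
    intro t l hl hmem y hy
    rw [← List.take_append_drop (p - 1) l, word_append]
    have hlen1 : (l.take (p - 1)).length = p - 1 := by
      rw [List.length_take, hl]; refine min_eq_left ?_; exact Nat.le_mul_of_pos_right _ c.succ_pos
    have h1 : word y (l.take (p - 1)) ∈ PkU F.der (t + 1) := by
      induction hy using AddSubgroup.closure_induction with
      | mem z hz =>
        obtain ⟨d, hz⟩ := hz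
        exact word_climb h0 F hz hlen1 fun q hq => hmem q (List.mem_of_mem_take hq)
      | zero => rw [word_zero]; exact zero_mem _
      | add a b _ _ ha hb =>
        rw [show a + b = a - -b by abel, word_sub, show -b = 0 - b by abel, word_sub, word_zero]
        simpa using add_mem ha hb
      | neg a _ ha => rw [show -a = 0 - a by abel, word_sub, word_zero]; simpa using ha
    have h2 := ih (t + 1) (l.drop (p - 1)) (by rw [List.length_drop, hl, Nat.mul_succ]; omega)
      (fun q hq => hmem q (List.mem_of_mem_drop hq)) h1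
    rwa [add_assoc, add_comm 1 c] at h2

theorem kills_step {c : ℕ} (h : Kills F.der c) : Kills F (1 + (p - 1) * c) := by
  intro i x hx l hl hmem
  rcases l with _ | ⟨q, l⟩
  · simp only [List.length_nil] at hl; omega
  have hy : ⁅x, q.2⁆ ∈ PkU F.der 0 :=
    AddSubgroup.subset_closure ⟨_, i, q.1, x, q.2, rfl, hx, hmem q (List.mem_cons_self ..), rfl⟩
  have h1 := word_long h0 F c 0 l (by simp only [List.length_cons] at hl; omega)
    (fun r hr => hmem r (List.mem_cons_of_mem _ hr)) hy
  have h2 : PkU F.der (0 + c) = ⊥ := by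
    rw [PkU, eq_bot_iff, AddSubgroup.closure_le]
    rintro z ⟨d, hz⟩
    obtain ⟨i', y', l', hy', hl', hmem', rfl⟩ := Pk_word F.der (0 + c) hz
    exact h i' y' hy' l' (hl'.trans (zero_add c)) hmem'
  rw [h2, AddSubgroup.mem_bot] at h1
  exact h1

theorem kills_all : Kills F (∑ i ∈ Finset.range (2 ^ (p - 1) - 1), (p - 1) ^ i) := by
  suffices ∀ m ≤ 2 ^ (p - 1) - 1, Kills (F.derN (2 ^ (p - 1) - 1 - m)) (∑ i ∈ Finset.range m, (p - 1) ^ i) by
    have := this _ le_rfl
    rwa [Nat.sub_self] at this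
  intro m
  induction m with
  | zero =>
    intro _ i x hx l hl _
    rw [Finset.range_zero, Finset.sum_empty, List.length_eq_zero_iff] at hl
    subst hl
    exact derN_eq_zero h0 F hx
  | succ m ih =>
    intro hm
    have h1 := ih (by omega)
    rw [show 2 ^ (p - 1) - 1 - m = (2 ^ (p - 1) - 1 - (m + 1)) + 1 by omega] at h1
    have h2 := kills_step h0 (F.derN (2 ^ (p - 1) - 1 - (m + 1))) h1
    rw [Finset.sum_range_succ', pow_zero]
    rw [Finset.sum_congr rfl fun i _ => pow_succ' (p - 1) i, ← Finset.mul_sum, add_comm ((p - 1) * _) 1]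
    exact h2

theorem kills_two (hp3 : p = 3) : Kills F 2 := by
  intro i x hx l hl hmem
  match l, hl with
  | [⟨j, a⟩, ⟨k, b⟩], _ =>
    show ⁅⁅x, a⁆, b⁆ = 0
    have ha : a ∈ F.S j := hmem (j, a) (by simp)
    have hb : b ∈ F.S k := hmem (k, b) (by simp)
    have hz : ∀ d z, z ∈ F.S d → d = 0 → z = 0 := fun d z hz hd => h0 z (hd ▸ F.sub _ _ hz)
    by_cases h1 : i + j = 0
    · rw [hz _ _ (F.closed _ _ _ hx _ ha) h1, zero_lie]
    by_cases h2 : i + j + k = 0
    · exact hz _ _ (F.closed _ _ _ (F.closed _ _ _ hx _ ha) _ hb) h2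
    by_cases h3 : i = 0
    · rw [hz _ _ hx h3, zero_lie, zero_lie]
    by_cases h4 : j = 0
    · rw [hz _ _ ha h4, lie_zero, zero_lie]
    by_cases h5 : k = 0
    · rw [hz _ _ hb h5, lie_zero]
    have key : ∀ i j k : ZMod p, i + j ≠ 0 → i + j + k ≠ 0 → i ≠ 0 → j ≠ 0 → k ≠ 0 → i + k = 0 ∧ j + k = 0 := by
      subst hp3; exact zmod3_cases
    have h6 := key i j k h1 h2 h3 h4 h5
    have e : ⁅⁅x, a⁆, b⁆ = ⁅x, ⁅a, b⁆⁆ - ⁅a, ⁅x, b⁆⁆ := by rw [leibniz_lie x a b]; abel
    rw [e, hz _ _ (F.closed _ _ _ hx _ hb) h6.1, hz _ _ (F.closed _ _ _ ha _ hb) h6.2, lie_zero, lie_zero, sub_self]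

end Cfsg.Lib.Solv.KK
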