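import Mathlib
import Cfsg.Agent.Lib.Solv.ThompsonKernel
import Cfsg.Agent.Lib.Solv.KreknkinKostrikin
import Cfsg.Agent.Lib.Solv.GroupLieRing

/-!
Class bound for a finite group with a fixed-point-free automorphism of prime order.
-/

set_option autoImplicit false

open scoped TensorProduct commutatorElement
open Polynomial

namespace Cfsg.Lib.Solv.HigmanBound

open Cfsg.Lib.Solv.GroupLie

universe u

variable {p : ℕ} [hp : Fact p.Prime]

/-- The coefficient ring. -/
abbrev A (p : ℕ) : Type := AdjoinRoot (cyclotomic p ℤ)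

/-- Powers of the adjoined root. -/
noncomputable def pw (a : ZMod p) : A p := AdjoinRoot.root (cyclotomic p ℤ) ^ a.val

theorem root_pow : AdjoinRoot.root (cyclotomic p ℤ) ^ p = 1 := by
  have h : (AdjoinRoot.mk (cyclotomic p ℤ)) (cyclotomic p ℤ) = 0 := AdjoinRoot.mk_self
  have h2 : (AdjoinRoot.mk (cyclotomic p ℤ)) (∑ i ∈ Finset.range p, X ^ i) = 0 := by
    rw [← cyclotomic_prime ℤ p]; exact h
  rw [map_sum] at h2
  simp only [map_pow, AdjoinRoot.mk_X] at h2
  have h3 := geom_sum_mul (AdjoinRoot.root (cyclotomic p ℤ)) p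
  rw [h2, zero_mul] at h3
  exact sub_eq_zero.1 h3.symm

theorem pw_zero : pw (0 : ZMod p) = 1 := by simp [pw]

theorem pw_add (a b : ZMod p) : pw (a + b) = pw a * pw b := by
  rw [pw, pw, pw, ← pow_add, ZMod.val_add]
  conv_rhs => rw [← Nat.mod_add_div (a.val + b.val) p, pow_add, pow_mul, root_pow, one_pow, mul_one]

theorem pw_sum : ∑ a : ZMod p, pw a = 0 := by
  have h : (AdjoinRoot.mk (cyclotomic p ℤ)) (∑ i ∈ Finset.range p, X ^ i) = 0 := by
    rw [← cyclotomic_prime ℤ p]; exact AdjoinRoot.mk_self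
  rw [map_sum] at h
  simp only [map_pow, AdjoinRoot.mk_X] at h
  refine Eq.trans ?_ h
  refine Finset.sum_bij' (fun a _ => a.val) (fun i _ => (i : ZMod p)) ?_ ?_ ?_ ?_ ?_
  · exact fun a _ => Finset.mem_range.2 (ZMod.val_lt a)
  · exact fun i _ => Finset.mem_univ _
  · exact fun a _ => ZMod.natCast_zmod_val a
  · exact fun i hi => by rw [ZMod.val_natCast, Nat.mod_eq_of_lt (Finset.mem_range.1 hi)]
  · exact fun a _ => rfl

theorem pw_sum_mul {c : ZMod p} (hc : c ≠ 0) : ∑ k : ZMod p, pw (c * k) = 0 := by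
  rw [← pw_sum (p := p)]
  exact Fintype.sum_equiv (Equiv.mulLeft₀ c hc) _ _ fun k => rfl

variable {G : Type u} [Group G] [Finite G]

theorem coprime_card (α : MulAut G) (hα : orderOf α = p) (hfpf : ∀ g : G, α g = g → g = 1) :
    p.Coprime (Nat.card G) := by
  have hH : IsPGroup p (Subgroup.zpowers α) :=
    IsPGroup.of_card (n := 1) (by rw [Nat.card_zpowers, hα, pow_one])
  have h1 := hH.card_modEq_card_fixedPoints G
  have h2 : MulAction.fixedPoints (Subgroup.zpowers α) G = {1} := by
    ext g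
    simp only [MulAction.mem_fixedPoints, Set.mem_singleton_iff]
    refine ⟨fun h => hfpf g (h ⟨α, Subgroup.mem_zpowers α⟩), ?_⟩
    rintro rfl a
    exact map_one (a : MulAut G)
  rw [h2, Nat.card_eq_fintype_card (α := ({1} : Set G)), Set.card_singleton] at h1
  refine (Nat.Prime.coprime_iff_not_dvd hp.out).2 fun h => ?_
  have h3 : 1 % p = 0 := by
    unfold Nat.ModEq at h1
    rw [Nat.mod_eq_zero_of_dvd h] at h1
    exact h1.symm
  rw [Nat.one_mod_eq_one.2 hp.out.ne_one] at h3
  exact one_ne_zero h3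

theorem pow_apply' (α : MulAut G) : ∀ (n : ℕ) (g : G), (α ^ n) g = α^[n] g := by
  intro n
  induction n with
  | zero => intro g; rfl
  | succ n ih => intro g; rw [pow_succ, MulAut.mul_apply, Function.iterate_succ_apply, ih]

theorem iterate_mapL (α : MulAut G) : ∀ (n : ℕ) {i : ℕ} {g : G}, g ∈ gamma G i →
    (mapL α.toMonoidHom)^[n] (cls i g) = cls i (α^[n] g) := by
  intro n
  induction n with
  | zero => intro i g _; rfl
  | succ n ih =>
    intro i g hg
    rw [Function.iterate_succ_apply, Function.iterate_succ_apply, mapL_cls _ hg]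
    exact ih (map_gamma α.toMonoidHom hg)

theorem fixed_cls (α : MulAut G) (hfpf : ∀ g : G, α g = g → g = 1) {i : ℕ} {g : G} (hg : g ∈ gamma G i)
    (h : cls i (α g) = cls i g) : cls i g = 0 := by
  have h1 : g⁻¹ * α g ∈ gamma G (i + 1) := by
    have hα1 : α g ∈ gamma G i := map_gamma α.toMonoidHom hg
    refine mem_of_cls_eq_zero (mul_mem (inv_mem hg) hα1) ?_
    rw [cls_mul (inv_mem hg) hα1, cls_inv hg, h, neg_add_cancel]
  have hinj : ∀ k m : G, k⁻¹ * α k = m⁻¹ * α m → k = m := by
    intro k m e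
    refine mul_inv_eq_one.1 (hfpf _ ?_)
    rw [map_mul, map_inv, show α k = k * (m⁻¹ * α m) by rw [← e]; group]
    group
  let f : gamma G (i + 1) → gamma G (i + 1) := fun k =>
    ⟨(k : G)⁻¹ * α k, mul_mem (inv_mem k.2) (map_gamma α.toMonoidHom k.2)⟩
  have hf : Function.Injective f := fun k m e => Subtype.ext (hinj _ _ (congrArg Subtype.val e))
  obtain ⟨k, hk⟩ := (Finite.injective_iff_surjective.1 hf) ⟨_, h1⟩
  have : (k : G) = g := hinj _ _ (congrArg Subtype.val hk)
  exact cls_eq_zero (this ▸ k.2)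

theorem fixed_zero (α : MulAut G) (hfpf : ∀ g : G, α g = g → g = 1) {x : LL G}
    (h : mapL α.toMonoidHom x = x) : x = 0 := by
  classical
  let Q : ℕ → LL G → LL G := fun i y => DirectSum.of (Gr G) i (y i)
  have hQ : ∀ i y, mapL α.toMonoidHom (Q i y) = Q i (mapL α.toMonoidHom y) := by
    intro i y
    induction y using GroupLie.induction with
    | h0 => simp [Q]
    | hadd a b ha hb =>
      simp only [Q, map_add, DirectSum.add_apply] at ha hb ⊢
      rw [ha, hb]
    | hc j g hg =>
      have hq : ∀ {j : ℕ} {g : G}, g ∈ gamma G j → Q i (cls j g) = if j = i then cls j g else 0 := by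
        intro j g hg
        simp only [Q]
        rw [cls, dif_pos hg]
        split
        · subst_vars; rw [DirectSum.of_eq_same]
        · rw [DirectSum.of_eq_of_ne _ _ _ (Ne.symm ‹_›), map_zero]
      rw [mapL_cls _ hg, hq hg, hq (map_gamma _ hg)]
      split
      · exact mapL_cls _ hg
      · exact map_zero _
  refine DFinsupp.ext fun i => ?_
  have h1 := hQ i x
  rw [h] at h1
  obtain ⟨g, hg⟩ := QuotientGroup.mk_surjective (Additive.toMul (x i))
  have h2 : Q i x = cls i (g : G) := by rw [cls_eq, hg, ofMul_toMul]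
  rw [h2, mapL_cls _ g.2] at h1
  have h3 := fixed_cls α hfpf g.2 h1
  rw [← h2] at h3
  exact DirectSum.of_injective (β := Gr G) i (h3.trans (map_zero _).symm)

theorem card_nsmul_eq (x : LL G) : Nat.card G • x = 0 := by
  induction x using GroupLie.induction with
  | h0 => exact smul_zero _
  | hadd a b ha hb => rw [smul_add, ha, hb, add_zero]
  | hc i g hg =>
    have : ∀ n : ℕ, cls i (g ^ n) = n • cls i g := by
      intro n
      induction n with
      | zero => rw [pow_zero, cls_one, zero_smul]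
      | succ n ih => rw [pow_succ, cls_mul (pow_mem hg n) hg, ih, succ_nsmul]
    rw [← this, pow_card_eq_one', cls_one]

theorem exists_mult (α : MulAut G) (hα : orderOf α = p) (hfpf : ∀ g : G, α g = g → g = 1) :
    ∃ m : ℕ, ∀ x : LL G, (m * p) • x = x := by
  obtain ⟨m, -, hm⟩ := Nat.exists_mul_mod_eq_one_of_coprime (coprime_card α hα hfpf) (by
    by_contra hle
    have : Nat.card G = 1 := by have := Nat.card_pos (α := G); omega
    have hsub : Subsingleton G := (Nat.card_eq_one_iff_unique.1 this).1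
    have : α = 1 := MulEquiv.ext fun g => Subsingleton.elim _ _
    rw [this, orderOf_one] at hα
    exact hp.out.ne_one hα.symm)
  refine ⟨m, fun x => ?_⟩
  have h := Nat.div_add_mod (p * m) (Nat.card G)
  rw [hm] at h
  rw [mul_comm m p, ← h, add_smul, mul_smul, card_nsmul_eq, zero_add, one_smul]

variable (α : MulAut G)

/-- The extended Lie ring. -/
abbrev LA (p : ℕ) (G : Type u) [Group G] : Type u := A p ⊗[ℤ] LL G

/-- The extended map. -/
noncomputable def TA : LA p G →ₗ[A p] LA p G := (mapL α.toMonoidHom).toIntLinearMap.baseChange (A p)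

theorem TA_tmul (a : A p) (x : LL G) : TA α (a ⊗ₜ[ℤ] x) = a ⊗ₜ[ℤ] mapL α.toMonoidHom x := rfl

theorem bz (x : LA p G) : ⁅x, (0 : LA p G)⁆ = 0 := lie_zero x

theorem zb (x : LA p G) : ⁅(0 : LA p G), x⁆ = 0 := zero_lie x

theorem ba (x y z : LA p G) : ⁅x, y + z⁆ = ⁅x, y⁆ + ⁅x, z⁆ := lie_add x y z

theorem ab (x y z : LA p G) : ⁅x + y, z⁆ = ⁅x, z⁆ + ⁅y, z⁆ := add_lie x y z

theorem sb (a : A p) (x y : LA p G) : ⁅a • x, y⁆ = a • ⁅x, y⁆ := smul_lie a x y

theorem bs (a : A p) (x y : LA p G) : ⁅x, a • y⁆ = a • ⁅x, y⁆ := lie_smul a x y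

theorem TA_lie (x y : LA p G) : TA α ⁅x, y⁆ = ⁅TA α x, TA α y⁆ := by
  induction x using TensorProduct.induction_on with
  | zero => rw [zb, map_zero, zb]
  | add a b ha hb => rw [ab, map_add, ha, hb, map_add, ab]
  | tmul a l =>
    induction y using TensorProduct.induction_on with
    | zero => rw [bz, map_zero, bz]
    | add c d hc hd => rw [ba, map_add, hc, hd, map_add, ba]
    | tmul b m =>
      rw [LieAlgebra.ExtendScalars.bracket_tmul, TA_tmul, TA_tmul, TA_tmul,
        LieAlgebra.ExtendScalars.bracket_tmul, mapL_lie]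

theorem TA_iter_tmul (j : ℕ) (a : A p) (x : LL G) :
    (TA α)^[j] (a ⊗ₜ[ℤ] x) = a ⊗ₜ[ℤ] (mapL α.toMonoidHom)^[j] x := by
  induction j generalizing x with
  | zero => rfl
  | succ j ih => rw [Function.iterate_succ_apply, Function.iterate_succ_apply, TA_tmul, ih]

/-- The eigen-components. -/
noncomputable def Lk (k : ZMod p) : AddSubgroup (LA p G) where
  carrier := {x | TA α x = pw k • x}
  zero_mem' := by simp
  add_mem' := fun {a b} ha hb => by simp only [Set.mem_setOf_eq] at *; rw [map_add, ha, hb, smul_add]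
  neg_mem' := fun {a} ha => by simp only [Set.mem_setOf_eq] at *; rw [map_neg, ha, smul_neg]

theorem mem_Lk {k : ZMod p} {x : LA p G} : x ∈ Lk α k ↔ TA α x = pw k • x := Iff.rfl

theorem Lk_lie {i j : ZMod p} {a b : LA p G} (ha : a ∈ Lk α i) (hb : b ∈ Lk α j) : ⁅a, b⁆ ∈ Lk α (i + j) := by
  rw [mem_Lk] at *
  rw [TA_lie, ha, hb, sb, bs, smul_smul, pw_add]

theorem mapL_period (hα : orderOf α = p) (x : LL G) : (mapL α.toMonoidHom)^[p] x = x := by
  induction x using GroupLie.induction with
  | h0 => exact iterate_map_zero _ p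
  | hadd a b ha hb => rw [iterate_map_add, ha, hb]
  | hc i g hg =>
    rw [iterate_mapL α p hg, ← pow_apply', ← hα, pow_orderOf_eq_one]
    rfl

theorem sum_shift {M : Type*} [AddCommMonoid M] (f : ℕ → M) (h : f p = f 0) [IsCancelAdd M] :
    ∑ j ∈ Finset.range p, f (j + 1) = ∑ j ∈ Finset.range p, f j := by
  have h1 := Finset.sum_range_succ' f p
  rw [Finset.sum_range_succ, h] at h1
  exact (add_right_cancel h1).symm

theorem mapL_sum (hα : orderOf α = p) (hfpf : ∀ g : G, α g = g → g = 1) (x : LL G) :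
    ∑ j ∈ Finset.range p, (mapL α.toMonoidHom)^[j] x = 0 := by
  refine fixed_zero α hfpf ?_
  rw [map_sum]
  simp only [← Function.iterate_succ_apply' (mapL α.toMonoidHom)]
  exact sum_shift (fun j => (mapL α.toMonoidHom)^[j] x) (mapL_period α hα x)

/-- The eigen-projection. -/
noncomputable def proj (k : ZMod p) (x : LA p G) : LA p G :=
  ∑ j ∈ Finset.range p, pw (-((j : ZMod p) * k)) • (TA α)^[j] x

theorem TA_period (hα : orderOf α = p) (x : LA p G) : (TA α)^[p] x = x := by
  induction x using TensorProduct.induction_on with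
  | zero => exact iterate_map_zero (TA α) p
  | add a b ha hb => rw [iterate_map_add, ha, hb]
  | tmul a l => rw [TA_iter_tmul, mapL_period α hα]

theorem proj_mem (hα : orderOf α = p) (k : ZMod p) (x : LA p G) : proj α k x ∈ Lk α k := by
  rw [mem_Lk, proj, map_sum, Finset.smul_sum]
  rw [← sum_shift (p := p) (fun j => pw k • pw (-((j : ZMod p) * k)) • (TA α)^[j] x) (by
    simp only [ZMod.natCast_self, Nat.cast_zero, zero_mul, TA_period α hα x, Function.iterate_zero_apply])]
  refine Finset.sum_congr rfl fun j _ => ?_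
  rw [map_smul, ← Function.iterate_succ_apply' (TA α), smul_smul, ← pw_add]
  congr 2
  push_cast; ring

theorem proj_sum (x : LA p G) : ∑ k : ZMod p, proj α k x = p • x := by
  simp only [proj]
  rw [Finset.sum_comm, Finset.sum_eq_single_of_mem 0 (Finset.mem_range.2 hp.out.pos)]
  · simp [pw_zero, ← Finset.sum_smul, ← Nat.cast_smul_eq_nsmul (A p)]
  · intro j hj hj0
    rw [← Finset.sum_smul]
    simp only [← neg_mul]
    rw [pw_sum_mul, zero_smul]
    rw [neg_ne_zero, Ne, ZMod.natCast_eq_zero_iff]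
    exact fun h => hj0 (Nat.eq_zero_of_dvd_of_lt h (Finset.mem_range.1 hj))

theorem LA_mult {m : ℕ} (hm : ∀ x : LL G, (m * p) • x = x) (x : LA p G) : (m * p) • x = x := by
  induction x using TensorProduct.induction_on with
  | zero => exact smul_zero _
  | add a b ha hb => rw [smul_add, ha, hb]
  | tmul a l => rw [← TensorProduct.tmul_smul, hm]

theorem Lk_zero (hα : orderOf α = p) (hfpf : ∀ g : G, α g = g → g = 1) {x : LA p G} (hx : x ∈ Lk α 0) :
    x = 0 := by
  obtain ⟨m, hm⟩ := exists_mult α hα hfpf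
  rw [mem_Lk, pw_zero, one_smul] at hx
  have h1 : ∀ y : LA p G, ∑ j ∈ Finset.range p, (TA α)^[j] y = 0 := by
    intro y
    induction y using TensorProduct.induction_on with
    | zero => simp [iterate_map_zero]
    | add a b ha hb => simp only [iterate_map_add, Finset.sum_add_distrib, ha, hb, add_zero]
    | tmul a l => simp only [TA_iter_tmul, ← TensorProduct.tmul_sum, mapL_sum α hα hfpf, TensorProduct.tmul_zero]
  have h2 := h1 x
  rw [Finset.sum_congr rfl fun j _ => Function.iterate_fixed hx j, Finset.sum_const, Finset.card_range] at h2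
  rw [← LA_mult hm x, mul_smul, h2, smul_zero]

/-- The whole family of homogeneous elements. -/
noncomputable def fam : KK.Fam (Lk (p := p) α) where
  S i := Lk α i
  sub _ _ h := h
  closed _ _ _ ha _ hb := Lk_lie α ha hb

theorem mem_closure (hα : orderOf α = p) (hfpf : ∀ g : G, α g = g → g = 1) (x : LA p G) :
    x ∈ AddSubgroup.closure {y | ∃ k, y ∈ Lk α k} := by
  obtain ⟨m, hm⟩ := exists_mult α hα hfpf
  rw [← LA_mult hm x, mul_smul, ← proj_sum α x]
  exact nsmul_mem (sum_mem fun k _ => AddSubgroup.subset_closure (show proj α k x ∈ {y | ∃ k, y ∈ Lk α k} from ⟨k, proj_mem α hα k x⟩)) m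

theorem one_tmul_injective {x : LL G} (h : (1 : A p) ⊗ₜ[ℤ] x = 0) : x = 0 := by
  have hg : (cyclotomic p ℤ).Monic := cyclotomic.monic p ℤ
  let c : A p →ₗ[ℤ] ℤ := (lcoeff ℤ 0).comp (AdjoinRoot.modByMonicHom hg)
  have hc : c 1 = 1 := by
    show ((AdjoinRoot.modByMonicHom hg) 1).coeff 0 = 1
    rw [← map_one (AdjoinRoot.mk (cyclotomic p ℤ)), AdjoinRoot.modByMonicHom_mk,
      (Polynomial.modByMonic_eq_self_iff hg).2, Polynomial.coeff_one_zero]
    rw [degree_one, Polynomial.degree_eq_natDegree hg.ne_zero, natDegree_cyclotomic, Nat.totient_prime hp.out]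
    have := hp.out.two_le
    exact_mod_cast (by omega : 0 < p - 1)
  have h2 := congrArg ((TensorProduct.lid ℤ (LL G)).toLinearMap ∘ₗ LinearMap.rTensor (LL G) c) h
  simpa [hc] using h2

theorem gamma_stable (hα : orderOf α = p) (hfpf : ∀ g : G, α g = g → g = 1) {N : ℕ}
    (hN : KK.Kills (fam (p := p) α) N) : gamma G N ≤ gamma G (N + 1) := by
  let Wd : ℕ → Set (LA p G) := fun n => {z | ∃ i x, x ∈ Lk α i ∧ ∃ l : List (ZMod p × LA p G),
    l.length = n ∧ (∀ q ∈ l, q.2 ∈ Lk α q.1) ∧ z = KK.word x l}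
  have key : ∀ (n : ℕ) (g : G), g ∈ gamma G n → (1 : A p) ⊗ₜ[ℤ] cls n g ∈ AddSubgroup.closure (Wd n) := by
    intro n
    induction n with
    | zero =>
      intro g _
      refine AddSubgroup.closure_mono ?_ (mem_closure α hα hfpf _)
      rintro y ⟨k, hy⟩
      exact ⟨k, y, hy, [], rfl, by simp, rfl⟩
    | succ n ih =>
      intro g hg
      have hg' : g ∈ Subgroup.closure {x | ∃ a ∈ gamma G n, ∃ b ∈ (⊤ : Subgroup G), ⁅a, b⁆ = x} := hg
      induction hg' using Subgroup.closure_induction with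
      | mem x hx =>
        obtain ⟨a, ha, b, -, rfl⟩ := hx
        have hb : b ∈ gamma G 0 := Subgroup.mem_top b
        rw [show n + 1 = n + 0 + 1 from rfl, ← bracket_cls ha hb, ← one_mul (1 : A p),
          ← LieAlgebra.ExtendScalars.bracket_tmul]
        refine KK.bracket_mem ?_ (ih a ha) (mem_closure α hα hfpf _)
        rintro _ ⟨i, x, hx, l, hl, hmem, rfl⟩ c ⟨k, hc⟩
        refine AddSubgroup.subset_closure ⟨i, x, hx, l ++ [(k, c)], by simp [hl], ?_, ?_⟩
        · intro q hq
          rcases List.mem_append.1 hq with hq | hq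
          · exact hmem q hq
          · rw [List.mem_singleton] at hq; subst hq; exact hc
        · simp [KK.word, List.foldl_append]
      | one => rw [cls_one, TensorProduct.tmul_zero]; exact zero_mem _
      | mul a b ha hb iha ihb =>
        rw [cls_mul ha hb, TensorProduct.tmul_add]; exact add_mem (iha ha) (ihb hb)
      | inv a ha iha =>
        rw [cls_inv ha, TensorProduct.tmul_neg]; exact neg_mem (iha ha)
  intro g hg
  refine mem_of_cls_eq_zero hg (one_tmul_injective (p := p) ?_)
  refine AddSubgroup.mem_bot.1 ((AddSubgroup.closure_le _).2 ?_ (key N g hg))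
  rintro _ ⟨i, x, hx, l, hl, hmem, rfl⟩
  exact AddSubgroup.mem_bot.2 (hN i x hx l hl hmem)

theorem lcs_eq_bot (hα : orderOf α = p) (hfpf : ∀ g : G, α g = g → g = 1) {N : ℕ}
    (hN : KK.Kills (fam (p := p) α) N) : gamma G N = ⊥ := by
  have hnil : Group.IsNilpotent G := ThompsonKernel.fpf_isNilpotent (φ := α) (r := p)
    ⟨hp.out, hfpf, fun g => by rw [← pow_apply', ← hα, pow_orderOf_eq_one]; rfl⟩
  obtain ⟨n, hn⟩ := Subgroup.nilpotent_iff_lowerCentralSeries.1 hnil
  have h1 : ∀ k, gamma G N ≤ gamma G (N + k) := by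
    intro k
    induction k with
    | zero => exact le_rfl
    | succ k ih =>
      refine (gamma_stable α hα hfpf hN).trans ?_
      exact Subgroup.commutator_mono ih le_rfl
  refine le_bot_iff.1 ((h1 n).trans ((gamma_mono (Nat.le_add_left n N)).trans ?_))
  exact hn.le

theorem class_bound (hα : orderOf α = p) (hfpf : ∀ g : G, α g = g → g = 1) :
    (p = 3 → gamma G 2 = ⊥) ∧ gamma G (∑ i ∈ Finset.range (2 ^ (p - 1) - 1), (p - 1) ^ i) = ⊥ :=
  ⟨fun h3 => lcs_eq_bot α hα hfpf (KK.kills_two (fun x hx => Lk_zero α hα hfpf hx) _ h3),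
    lcs_eq_bot α hα hfpf (KK.kills_all (fun x hx => Lk_zero α hα hfpf hx) _)⟩

end Cfsg.Lib.Solv.HigmanBound
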