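import Mathlib

/-!
An abelian group of prime power order with automorphisms transitive on involutions is homocyclic.
-/

set_option autoImplicit false

namespace Cfsg.Lib.Solv.OneClass

theorem homocyclic {G : Type*} [Group G] {S : Subgroup G} [Finite S] [IsMulCommutative S] (hS : IsPGroup 2 S)
    (h : ∀ a b : S, a ≠ 1 → a ^ 2 = 1 → b ≠ 1 → b ^ 2 = 1 → ∃ φ : MulAut S, φ a = b) :
    ∃ m r : ℕ, Nonempty (↥S ≃* (Fin r → Multiplicative (ZMod (2 ^ m)))) := by
  classical
  haveI := Fact.mk Nat.prime_two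
  letI : CommGroup S := { (inferInstance : Group S) with mul_comm := fun a b => IsMulCommutative.is_comm.comm a b }
  obtain ⟨ι, hι, n, hn, ⟨e⟩⟩ := CommGroup.equiv_prod_multiplicative_zmod_of_finite S
  haveI : ∀ i, NeZero (n i) := fun i => ⟨by have := hn i; omega⟩
  -- the canonical generator of each factor
  let g : ∀ i, (∀ j, Multiplicative (ZMod (n j))) := fun i => Pi.mulSingle i (Multiplicative.ofAdd 1)
  have hgi : ∀ i d, (g i ^ d) i = 1 ↔ n i ∣ d := by
    intro i d
    simp only [g, Pi.pow_apply, Pi.mulSingle_eq_same, ← ofAdd_nsmul, nsmul_eq_mul, mul_one, ofAdd_eq_one]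
    exact ZMod.natCast_eq_zero_iff d (n i)
  have hgz : ∀ i d, n i ∣ d → g i ^ d = 1 := by
    intro i d hd
    funext j
    by_cases hj : j = i
    · subst hj; exact (hgi j d).2 hd
    · simp [g, hj]
  have hk : ∀ i, ∃ k, n i = 2 ^ (k + 1) := by
    intro i
    obtain ⟨k, hk⟩ := hS (e.symm (g i))
    have h1 : n i ∣ 2 ^ k := (hgi i _).1 (by
      have h2 := congrArg e hk
      rw [map_pow, MulEquiv.apply_symm_apply, map_one] at h2
      rw [h2]; rfl)
    obtain ⟨t, -, ht⟩ := (Nat.dvd_prime_pow Nat.prime_two).1 h1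
    cases t with
    | zero => have := hn i; rw [ht, pow_zero] at this; omega
    | succ t => exact ⟨t, ht⟩
  choose k hk using hk
  have hinv : ∀ i, g i ^ 2 ^ k i ≠ 1 ∧ (g i ^ 2 ^ k i) ^ 2 = 1 := by
    intro i
    refine ⟨fun h1 => ?_, by rw [← pow_mul, ← pow_succ]; exact hgz i _ (hk i).dvd⟩
    have h2 := (hgi i (2 ^ k i)).1 (by rw [h1]; rfl)
    rw [hk i] at h2
    have := Nat.le_of_dvd (pow_pos two_pos _) h2
    rw [pow_succ] at this
    have := pow_pos (two_pos (α := ℕ)) (k i)
    omega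
  have hle : ∀ i j, k j ≤ k i := by
    intro i j
    by_contra hlt
    push Not at hlt
    have hx : ∀ l, e.symm (g l ^ 2 ^ k l) ≠ 1 ∧ e.symm (g l ^ 2 ^ k l) ^ 2 = 1 := fun l =>
      ⟨fun h1 => (hinv l).1 (e.symm.injective (h1.trans (map_one e.symm).symm)), by rw [← map_pow, (hinv l).2, map_one]⟩
    obtain ⟨φ, hφ⟩ := h _ _ (hx j).1 (hx j).2 (hx i).1 (hx i).2
    have h2 := congrArg e hφ
    rw [MulEquiv.apply_symm_apply, map_pow, map_pow, map_pow] at h2
    have h3 := congrFun h2 i
    rw [Pi.pow_apply] at h3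
    have h4 : ∀ z : Multiplicative (ZMod (n i)), z ^ n i = 1 := fun z => by
      apply Multiplicative.toAdd.injective
      rw [toAdd_pow, toAdd_one, nsmul_eq_mul, ZMod.natCast_self, zero_mul]
    obtain ⟨d, hd⟩ : n i ∣ 2 ^ k j := by rw [hk i]; exact pow_dvd_pow 2 hlt
    rw [hd, pow_mul, h4, one_pow] at h3
    have h5 := (hgi i (2 ^ k i)).1 h3.symm
    rw [hk i] at h5
    have := Nat.le_of_dvd (pow_pos two_pos _) h5
    rw [pow_succ] at this
    have := pow_pos (two_pos (α := ℕ)) (k i)
    omega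
  by_cases hne : Nonempty ι
  · obtain ⟨i0⟩ := hne
    have hall : ∀ i, n i = 2 ^ (k i0 + 1) := fun i => by rw [hk i, le_antisymm (hle i0 i) (hle i i0)]
    refine ⟨k i0 + 1, Fintype.card ι, ⟨e.trans ((MulEquiv.piCongrRight fun i =>
      AddEquiv.toMultiplicative (ZMod.ringEquivCongr (hall i)).toAddEquiv).trans ?_)⟩⟩
    exact
      { toFun := fun f j => f ((Fintype.equivFin ι).symm j)
        invFun := fun f i => f (Fintype.equivFin ι i)
        left_inv := fun f => funext fun i => by simp
        right_inv := fun f => funext fun j => by simp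
        map_mul' := fun f f' => rfl }
  · refine ⟨0, 0, ⟨e.trans ?_⟩⟩
    haveI : IsEmpty ι := not_nonempty_iff.1 hne
    exact
      { toFun := fun _ => 1
        invFun := fun _ => 1
        left_inv := fun f => funext fun i => isEmptyElim i
        right_inv := fun f => funext fun j => j.elim0
        map_mul' := fun _ _ => (one_mul 1).symm }

end Cfsg.Lib.Solv.OneClass
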