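import Cfsg.Agent.Lib.Solv.Systems
import Cfsg.Agent.Lib.Solv.Hall
import Cfsg.Agent.Lib.Solv.SchurZassenhaus

/-!
Factorised groups `G = HK`.
-/

set_option autoImplicit false

namespace Cfsg.Lib.Solv

open Subgroup
open scoped Pointwise

variable {G : Type*} [Group G]

theorem conj_smul_eq_of_normal_in {A H : Subgroup G} (hn : (A.subgroupOf H).Normal) (hA : A ≤ H)
    {h : G} (hh : h ∈ H) : MulAut.conj h • A = A :=
  conj_smul_eq_self_iff.2 ((normal_subgroupOf_iff_le_normalizer hA).1 hn hh)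

/-- Simultaneous conjugation in a product. -/
theorem exists_conj_pair {H K : Subgroup G} (hHK : ∀ g : G, ∃ h ∈ H, ∃ k ∈ K, g = h * k) (x y : G) :
    ∃ g : G, g⁻¹ * x ∈ H ∧ g⁻¹ * y ∈ K := by
  obtain ⟨h, hh, k, hk, e⟩ := hHK (x⁻¹ * y)
  refine ⟨x * h, ?_, ?_⟩
  · simpa using H.inv_mem hh
  · have : y = x * h * k := by rw [mul_assoc, ← e, mul_inv_cancel_left]
    rw [this, inv_mul_cancel_left]; exact hk

theorem conj_smul_eq_of_quot {A : Subgroup G} {g x : G}
    (h : MulAut.conj (g⁻¹ * x) • A = A) : MulAut.conj x • A = MulAut.conj g • A := by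
  conv_rhs => rw [← h]
  rw [← mul_smul, ← map_mul, mul_inv_cancel_left]

theorem product_conj {H K : Subgroup G} (hHK : ∀ g : G, ∃ h ∈ H, ∃ k ∈ K, g = h * k) (x y : G) :
    ∃ g : G, MulAut.conj x • H = MulAut.conj g • H ∧ MulAut.conj y • K = MulAut.conj g • K := by
  obtain ⟨g, hx, hy⟩ := exists_conj_pair hHK x y
  exact ⟨g, conj_smul_eq_of_quot (conj_smul_eq_self_iff.2 (le_normalizer hx)),
    conj_smul_eq_of_quot (conj_smul_eq_self_iff.2 (le_normalizer hy))⟩

theorem factor_conj {H K : Subgroup G} (hHK : ∀ g : G, ∃ h ∈ H, ∃ k ∈ K, g = h * k) (g : G) :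
    ∀ z : G, ∃ a ∈ MulAut.conj g • H, ∃ b ∈ MulAut.conj g • K, z = a * b := fun z => by
  obtain ⟨h, hh, k, hk, e⟩ := hHK (g⁻¹ * z * g)
  refine ⟨g * h * g⁻¹, ⟨h, hh, rfl⟩, g * k * g⁻¹, ⟨k, hk, rfl⟩, ?_⟩
  calc z = g * (g⁻¹ * z * g) * g⁻¹ := by group
    _ = _ := by rw [e]; group

/-- Equal relative indices give a factorisation. -/
theorem factor_of_relIndex [Finite G] {H K T : Subgroup G} (hH : H ≤ T) (hK : K ≤ T)
    (h : H.relIndex T ≤ H.relIndex K) : ((T : Subgroup G) : Set G) = (K : Set G) * (H : Set G) := by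
  refine subset_antisymm ?_ (fun x ⟨k, hk, a, ha, e⟩ => e ▸ T.mul_mem (hK hk) (hH ha))
  let f : K ⧸ H.subgroupOf K → T ⧸ H.subgroupOf T :=
    Quotient.map' (Subgroup.inclusion hK) fun a b hab => by
      rw [QuotientGroup.leftRel_apply] at hab ⊢
      exact hab
  have hf : Function.Injective f := by
    intro a b
    induction a using QuotientGroup.induction_on with | H a => ?_
    induction b using QuotientGroup.induction_on with | H b => ?_
    intro hab
    have hab' : ((Subgroup.inclusion hK a : T) : T ⧸ H.subgroupOf T) = (Subgroup.inclusion hK b : T) :=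
      hab
    have h' := QuotientGroup.eq.1 hab'
    exact QuotientGroup.eq.2 h'
  have hs : Function.Surjective f :=
    (Nat.bijective_iff_injective_and_card f).2
      ⟨hf, le_antisymm (Nat.card_le_card_of_injective f hf) h⟩ |>.2
  intro t ht
  obtain ⟨a, ha⟩ := hs ((⟨t, ht⟩ : T) : T ⧸ H.subgroupOf T)
  induction a using QuotientGroup.induction_on with | H a => ?_
  have ha' : ((Subgroup.inclusion hK a : T) : T ⧸ H.subgroupOf T) = ((⟨t, ht⟩ : T) : T ⧸ H.subgroupOf T) := ha
  have h' := QuotientGroup.eq.1 ha'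
  have h1 : (a : G)⁻¹ * t ∈ H := h'
  exact ⟨a, a.2, _, h1, mul_inv_cancel_left _ _⟩

theorem relIndex_of_factor [Finite G] {H K : Subgroup G}
    (hHK : ∀ g : G, ∃ h ∈ H, ∃ k ∈ K, g = h * k) : H.relIndex K = H.index := by
  let f : K ⧸ H.subgroupOf K → G ⧸ H :=
    Quotient.map' (fun k : K => (k : G)) fun a b hab => by
      rw [QuotientGroup.leftRel_apply] at hab ⊢
      exact hab
  have hf : Function.Bijective f := by
    constructor
    · intro a b
      induction a using QuotientGroup.induction_on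
      induction b using QuotientGroup.induction_on
      intro hab
      exact QuotientGroup.eq.2 (show _ ∈ H from (QuotientGroup.eq.1 hab))
    · intro c
      induction c using QuotientGroup.induction_on with | H g => ?_
      obtain ⟨h, hh, k, hk, e⟩ := hHK g⁻¹
      refine ⟨((⟨k⁻¹, K.inv_mem hk⟩ : K) : K ⧸ H.subgroupOf K), ?_⟩
      refine QuotientGroup.eq.2 ?_
      show (k⁻¹)⁻¹ * g ∈ H
      have : g = k⁻¹ * h⁻¹ := by rw [← mul_inv_rev, ← e, inv_inv]
      rw [this, inv_inv, mul_inv_cancel_left]; exact H.inv_mem hh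
  exact Nat.card_congr (Equiv.ofBijective f hf)

/-- Products of normal Hall subgroups of the factors of a solvable factorised group. -/
theorem hall_factor_product [Finite G] [Group.IsSolvable G] {H K A B : Subgroup G}
    (hHK : ∀ g : G, ∃ h ∈ H, ∃ k ∈ K, g = h * k) (hA : A ≤ H) (hAn : (A.subgroupOf H).Normal)
    (hB : B ≤ K) (hBn : (B.subgroupOf K).Normal) (hAh : (Nat.card A).Coprime A.index)
    (hBh : (Nat.card B).Coprime B.index) (x y : G) : ∃ S : Subgroup G, (S : Set G) =
      ((MulAut.conj x • A : Subgroup G) : Set G) * ((MulAut.conj y • B : Subgroup G) : Set G) := by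
  have red : ∀ x y : G, ∃ g : G, MulAut.conj x • A = MulAut.conj g • A ∧
      MulAut.conj y • B = MulAut.conj g • B := fun x y => by
    obtain ⟨g, hx, hy⟩ := exists_conj_pair hHK x y
    exact ⟨g, conj_smul_eq_of_quot (conj_smul_eq_of_normal_in hAn hA hx),
      conj_smul_eq_of_quot (conj_smul_eq_of_normal_in hBn hB hy)⟩
  set π : Set ℕ := {p | p ∣ Nat.card A ∨ p ∣ Nat.card B} with hπ
  obtain ⟨X, hX⟩ := hall_exists (G := G) π
  obtain ⟨a, ha⟩ := hall_le_conj (U := A) hX fun p _ hpd => Or.inl hpd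
  obtain ⟨b, hb⟩ := hall_le_conj (U := B) hX fun p _ hpd => Or.inr hpd
  obtain ⟨g, hga, hgb⟩ := red a⁻¹ b⁻¹
  have hAX : MulAut.conj g • A ≤ X := by
    rw [← hga, map_inv]; exact subset_pointwise_smul_iff.1 ha
  have hBX : MulAut.conj g • B ≤ X := by
    rw [← hgb, map_inv]; exact subset_pointwise_smul_iff.1 hb
  set A' := MulAut.conj g • A with hA'
  set B' := MulAut.conj g • B with hB'
  have hA'c : Nat.card A' = Nat.card A := card_conj_smul g A
  have hB'c : Nat.card B' = Nat.card B := card_conj_smul g B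
  have hA'h : (Nat.card A').Coprime A'.index := by rw [hA'c, index_conj_smul]; exact hAh
  have hB'h : (Nat.card B').Coprime B'.index := by rw [hB'c, index_conj_smul]; exact hBh
  have hrel : B'.relIndex X ≤ B'.relIndex A' := by
    refine Nat.le_of_dvd (Nat.pos_of_ne_zero (B'.subgroupOf A').index_ne_zero_of_finite) ?_
    have e1 := card_eq_mul_relIndex hBX
    have e2 := card_eq_mul_relIndex (inf_le_right : B' ⊓ A' ≤ A')
    rw [inf_relIndex_right] at e2
    have hd1 : B'.relIndex X ∣ B'.index := relIndex_dvd_index_of_le hBX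
    have hcop : (B'.relIndex X).Coprime (Nat.card ↥(B' ⊓ A')) :=
      (hB'h.symm.coprime_dvd_left hd1).coprime_dvd_right (card_dvd_of_le inf_le_left)
    refine hcop.dvd_of_dvd_mul_left (e2 ▸ ?_)
    refine (Nat.Coprime.dvd_of_dvd_mul_right (n := A'.index) ?_ ?_)
    · refine Nat.Coprime.symm (Nat.coprime_of_dvd fun p hp hpI hpR => ?_)
      have hpX : p ∣ Nat.card X := by rw [e1]; exact dvd_mul_of_dvd_right hpR _
      rcases hX.1 p hp hpX with h' | h'
      · exact hp.ne_one (Nat.eq_one_of_dvd_coprimes hA'h (hA'c ▸ h') hpI)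
      · exact hp.ne_one (Nat.eq_one_of_dvd_coprimes hB'h (hB'c ▸ h') (hpR.trans hd1))
    · rw [card_mul_index]
      exact hd1.trans B'.index_dvd_card
  have key : (X : Set G) = (A' : Set G) * (B' : Set G) := factor_of_relIndex hBX hAX hrel
  obtain ⟨g₁, h1, h2⟩ := red x y
  refine ⟨MulAut.conj (g₁ * g⁻¹) • X, ?_⟩
  have e : ∀ W : Subgroup G, MulAut.conj g₁ • W = MulAut.conj (g₁ * g⁻¹) • (MulAut.conj g • W) :=
    fun W => by rw [← mul_smul, ← map_mul, inv_mul_cancel_right]
  rw [h1, h2, e A, e B, ← hA', ← hB', coe_pointwise_smul, key, coe_pointwise_smul,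
    coe_pointwise_smul]
  exact smul_mul' _ _ _

end Cfsg.Lib.Solv
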