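import Mathlib
import Cfsg.Agent.Lib.Solv.Products

/-! Kegel's lemma on subgroups permuting with all conjugates. -/

set_option autoImplicit false
open Subgroup
open scoped Pointwise

namespace Cfsg.Lib.Solv.Kegel

variable {G : Type*} [Group G]

/-- `A` permutes with `B`, the product being proper. -/
def ProperPerm (A B : Subgroup G) : Prop :=
  ∃ S : Subgroup G, S ≠ ⊤ ∧ (S : Set G) = (A : Set G) * (B : Set G)

theorem comm_of_subgroup {A B S : Subgroup G} (h : (S : Set G) = (A : Set G) * (B : Set G)) :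
    (A : Set G) * (B : Set G) = (B : Set G) * (A : Set G) := by
  have h2 := congrArg (fun s : Set G => s⁻¹) h
  simp only [mul_inv_rev, inv_coe_set] at h2
  rw [← h, h2]

theorem sup_mul_comm {H₁ H₂ K : Subgroup G} (h₁ : (H₁ : Set G) * K = (K : Set G) * H₁)
    (h₂ : (H₂ : Set G) * K = (K : Set G) * H₂) :
    ((H₁ ⊔ H₂ : Subgroup G) : Set G) * K = (K : Set G) * ((H₁ ⊔ H₂ : Subgroup G) : Set G) := by
  set T := H₁ ⊔ H₂ with hT
  suffices ∀ x ∈ T, (∀ k ∈ K, x * k ∈ (K : Set G) * (T : Set G)) ∧ ∀ k ∈ K, k * x ∈ (T : Set G) * (K : Set G) by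
    refine subset_antisymm ?_ ?_
    · rintro _ ⟨x, hx, k, hk, rfl⟩; exact (this x hx).1 k hk
    · rintro _ ⟨k, hk, x, hx, rfl⟩; exact (this x hx).2 k hk
  intro x hx
  rw [hT, sup_eq_closure] at hx
  induction hx using Subgroup.closure_induction with
  | mem x hx =>
    rcases hx with hx | hx
    · refine ⟨fun k hk => ?_, fun k hk => ?_⟩
      · exact Set.mul_subset_mul_left (le_sup_left : H₁ ≤ T) (h₁ ▸ Set.mul_mem_mul hx hk)
      · exact Set.mul_subset_mul_right (le_sup_left : H₁ ≤ T) (h₁.symm ▸ Set.mul_mem_mul hk hx)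
    · refine ⟨fun k hk => ?_, fun k hk => ?_⟩
      · exact Set.mul_subset_mul_left (le_sup_right : H₂ ≤ T) (h₂ ▸ Set.mul_mem_mul hx hk)
      · exact Set.mul_subset_mul_right (le_sup_right : H₂ ≤ T) (h₂.symm ▸ Set.mul_mem_mul hk hx)
  | one =>
    exact ⟨fun k hk => ⟨k, hk, 1, T.one_mem, by simp⟩, fun k hk => ⟨1, T.one_mem, k, hk, by simp⟩⟩
  | mul x y _ _ hx hy =>
    refine ⟨fun k hk => ?_, fun k hk => ?_⟩
    · obtain ⟨k₁, hk₁, y', hy', e₁⟩ := hy.1 k hk
      obtain ⟨k₂, hk₂, x', hx', e₂⟩ := hx.1 k₁ hk₁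
      simp only at e₁ e₂
      refine ⟨k₂, hk₂, x' * y', T.mul_mem hx' hy', ?_⟩
      show k₂ * (x' * y') = _
      rw [mul_assoc x, ← e₁, ← mul_assoc, e₂, mul_assoc]
    · obtain ⟨x', hx', k₁, hk₁, e₁⟩ := hx.2 k hk
      obtain ⟨y', hy', k₂, hk₂, e₂⟩ := hy.2 k₁ hk₁
      simp only at e₁ e₂
      refine ⟨x' * y', T.mul_mem hx' hy', k₂, hk₂, ?_⟩
      show x' * y' * k₂ = _
      rw [← mul_assoc k, ← e₁, mul_assoc x', e₂, mul_assoc]
  | inv x _ hx =>
    refine ⟨fun k hk => ?_, fun k hk => ?_⟩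
    · obtain ⟨x', hx', k', hk', e⟩ := hx.2 k⁻¹ (K.inv_mem hk)
      simp only at e
      refine ⟨k'⁻¹, K.inv_mem hk', x'⁻¹, T.inv_mem hx', ?_⟩
      show k'⁻¹ * x'⁻¹ = _
      rw [← mul_inv_rev, e, mul_inv_rev, inv_inv]
    · obtain ⟨k', hk', x', hx', e⟩ := hx.1 k⁻¹ (K.inv_mem hk)
      simp only at e
      refine ⟨x'⁻¹, T.inv_mem hx', k'⁻¹, K.inv_mem hk', ?_⟩
      show x'⁻¹ * k'⁻¹ = _
      rw [← mul_inv_rev, e, mul_inv_rev, inv_inv]

theorem conj_smul_coe (g : G) (A B : Subgroup G) :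
    ((MulAut.conj g • A : Subgroup G) : Set G) * ((MulAut.conj g • B : Subgroup G) : Set G) =
      MulAut.conj g • ((A : Set G) * (B : Set G)) := by
  rw [coe_pointwise_smul, coe_pointwise_smul]
  exact (Set.image_mul (MulAut.conj g)).symm

/-- Kegel: a subgroup permuting properly with all conjugates of another one. -/
theorem exists_normal_of_properPerm [Finite G] : ∀ (n : ℕ) (A B : Subgroup G), A.index = n → A ≠ ⊥ →
    (∀ x : G, ProperPerm A (MulAut.conj x • B)) →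
    ∃ N : Subgroup G, N.Normal ∧ N ≠ ⊤ ∧ (A ≤ N ∨ B ≤ N) := by
  intro n
  induction n using Nat.strong_induction_on with
  | _ n ih =>
  intro A B hn hA h
  subst hn
  by_cases hBA : ∀ x : G, MulAut.conj x • B ≤ normalizer (A : Set G)
  · by_cases hcl : normalClosure (B : Set G) = ⊤
    · refine ⟨A, ?_, ?_, Or.inl le_rfl⟩
      · rw [← normalizer_eq_top_iff, ← top_le_iff, ← hcl, normalClosure, closure_le]
        intro z hz
        obtain ⟨b, hb, hc⟩ := Group.mem_conjugatesOfSet_iff.1 hz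
        obtain ⟨c, rfl⟩ := isConj_iff.1 hc
        exact hBA c ⟨b, hb, rfl⟩
      · rintro rfl
        obtain ⟨S, hS, e⟩ := h 1
        refine hS (top_le_iff.1 fun z _ => ?_)
        rw [← SetLike.mem_coe, e]
        exact ⟨z, mem_top z, 1, one_mem _, mul_one z⟩
    · exact ⟨_, normalClosure_normal, hcl, Or.inr le_normalClosure⟩
  push Not at hBA
  obtain ⟨x, hx⟩ := hBA
  obtain ⟨y, hy, hyA⟩ := SetLike.not_le_iff_exists.1 hx
  set A₁ := A ⊔ MulAut.conj y • A with hA₁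
  have hlt : A₁.index < A.index := by
    refine index_strictAnti (lt_of_le_of_ne le_sup_left fun e => hyA ?_)
    rw [← conj_smul_eq_self_iff]
    exact eq_of_le_of_card_ge (le_sup_right.trans e.symm.le) (card_conj_smul y A).ge
  obtain ⟨Sx, hSx, ex⟩ := h x
  have hASx : A ≤ Sx := fun a ha => by
    rw [← SetLike.mem_coe, ex]; exact ⟨a, ha, 1, one_mem _, mul_one a⟩
  have hySx : y ∈ Sx := by
    rw [← SetLike.mem_coe, ex]; exact ⟨1, one_mem _, y, hy, one_mul y⟩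
  have hA₁Sx : A₁ ≤ Sx := sup_le hASx (by
    rintro _ ⟨a, ha, rfl⟩
    exact Sx.mul_mem (Sx.mul_mem hySx (hASx ha)) (Sx.inv_mem hySx))
  have hperm : ∀ z : G, (A₁ : Set G) * ((MulAut.conj z • B : Subgroup G) : Set G) =
      ((MulAut.conj z • B : Subgroup G) : Set G) * (A₁ : Set G) := by
    intro z
    obtain ⟨S, -, e⟩ := h z
    obtain ⟨S', -, e'⟩ := h (y⁻¹ * z)
    refine sup_mul_comm (comm_of_subgroup e) ?_
    have h2 := comm_of_subgroup e'
    have hz : MulAut.conj y • (MulAut.conj (y⁻¹ * z) • B) = MulAut.conj z • B := by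
      rw [← mul_smul, ← map_mul, mul_inv_cancel_left]
    rw [← hz, conj_smul_coe, conj_smul_coe, h2]
  have hnew : ∀ z : G, ProperPerm A₁ (MulAut.conj z • B) := by
    intro z
    refine ⟨A₁ ⊔ MulAut.conj z • B, fun htop => hSx (top_le_iff.1 fun t _ => ?_),
      coe_sup_of_mul_comm (hperm z)⟩
    have hfac : ∀ g : G, ∃ a ∈ A₁, ∃ b ∈ MulAut.conj z • B, g = a * b := fun g => by
      have hg : g ∈ ((A₁ ⊔ MulAut.conj z • B : Subgroup G) : Set G) := by rw [htop]; trivial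
      rw [coe_sup_of_mul_comm (hperm z)] at hg
      obtain ⟨a, ha, b, hb, e⟩ := hg
      exact ⟨a, ha, b, hb, e.symm⟩
    obtain ⟨a, ha, b, hb, eab⟩ := hfac (x * z⁻¹)
    have hB : MulAut.conj x • B = MulAut.conj a • (MulAut.conj z • B) := by
      rw [show x = a * b * z by rw [← eab, inv_mul_cancel_right], map_mul, map_mul, mul_smul, mul_smul,
        conj_smul_eq_self_iff.2 (le_normalizer hb)]
    obtain ⟨a₂, ha₂, b₂, hb₂, e₂⟩ := hfac (a⁻¹ * t * a)
    have hb₂' : a * b₂ * a⁻¹ ∈ MulAut.conj x • B := by rw [hB]; exact ⟨b₂, hb₂, rfl⟩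
    have hxS : MulAut.conj x • B ≤ Sx := fun w hw => by
      rw [← SetLike.mem_coe, ex]; exact ⟨1, one_mem _, w, hw, one_mul w⟩
    have : t = a * a₂ * a⁻¹ * (a * b₂ * a⁻¹) := by
      calc t = a * (a⁻¹ * t * a) * a⁻¹ := by group
        _ = _ := by rw [e₂]; group
    rw [this]
    exact Sx.mul_mem (hA₁Sx (A₁.mul_mem (A₁.mul_mem ha ha₂) (A₁.inv_mem ha))) (hxS hb₂')
  obtain ⟨N, hN, hNt, hAB⟩ := ih _ hlt A₁ B rfl (ne_bot_of_le_ne_bot hA le_sup_left) hnew
  exact ⟨N, hN, hNt, hAB.imp_left le_sup_left.trans⟩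

end Cfsg.Lib.Solv.Kegel
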