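import Cfsg.Agent.Lib.Solv.MinNormal
import Cfsg.Agent.Lib.Solv.SchurZassenhaus
import Cfsg.Agent.Lib.Solv.Supersolvable

/-!
Groups with the order type of a supersolvable group have a Sylow tower.
-/

set_option autoImplicit false

namespace Cfsg.Lib.Solv

open Subgroup

universe u v

/-- Elements all of whose prime order divisors are at least `m`. -/
def bigPart (G : Type*) [Group G] (m : ℕ) : Set G :=
  {g | ∀ r : ℕ, r.Prime → r ∣ orderOf g → m ≤ r}

theorem exists_equiv_orderOf {G : Type u} {H : Type v} [Group G] [Finite G] [Group H] [Finite H]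
    (hT : ∀ m : ℕ, Nat.card {g : G // orderOf g = m} = Nat.card {h : H // orderOf h = m}) :
    ∃ e : G ≃ H, ∀ g, orderOf (e g) = orderOf g := by
  let f : (m : ℕ) → {g : G // orderOf g = m} ≃ {h : H // orderOf h = m} := fun m =>
    (Finite.card_eq.1 (hT m)).some
  refine ⟨(Equiv.sigmaFiberEquiv orderOf).symm.trans ((Equiv.sigmaCongrRight f).trans
    (Equiv.sigmaFiberEquiv orderOf)), fun g => ?_⟩
  exact (f (orderOf g) ⟨g, rfl⟩).2

theorem card_bigPart_eq {G : Type u} {H : Type v} [Group G] [Group H]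
    (e : G ≃ H) (he : ∀ g, orderOf (e g) = orderOf g) (m : ℕ) :
    Nat.card (bigPart G m) = Nat.card (bigPart H m) :=
  Nat.card_congr (e.subtypeEquiv fun g => by simp [bigPart, he])

variable {G : Type u} [Group G] [Finite G]

theorem prime_le_of_dvd_bigPart {N : Subgroup G} {m : ℕ} (hN : (N : Set G) = bigPart G m)
    {r : ℕ} (hr : r.Prime) (hd : r ∣ Nat.card N) : m ≤ r := by
  haveI := Fact.mk hr
  obtain ⟨x, hx⟩ := exists_prime_orderOf_dvd_card' (G := N) r hd
  have h : (x : G) ∈ bigPart G m := hN ▸ x.2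
  exact h r hr (by rw [orderOf_coe, hx])

theorem not_dvd_index_bigPart {N : Subgroup G} {m : ℕ} (hN : (N : Set G) = bigPart G m)
    {r : ℕ} (hr : r.Prime) (hmr : m ≤ r) : ¬ r ∣ N.index := by
  haveI := Fact.mk hr
  let R : Sylow r G := default
  intro hd
  refine R.not_dvd_index (hd.trans (index_dvd_of_le fun x hx => ?_))
  rw [← SetLike.mem_coe, hN]
  intro s hs hsd
  obtain ⟨k, hk⟩ := IsPGroup.iff_orderOf.1 R.isPGroup' ⟨x, hx⟩
  rw [← orderOf_coe] at hk
  rw [hk] at hsd
  rw [(Nat.prime_dvd_prime_iff_eq hs hr).1 (hs.dvd_of_dvd_pow hsd)]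
  exact hmr

/-- The join with a Sylow subgroup stays inside the next part. -/
theorem sylow_sup_bigPart {N : Subgroup G} [hNn : N.Normal] {m : ℕ} [hm : Fact m.Prime]
    (hN : (N : Set G) = bigPart G (m + 1)) (Q : Sylow m G) :
    ((↑((Q : Subgroup G) ⊔ N) : Set G) ⊆ bigPart G m) ∧
      Nat.card ↥((Q : Subgroup G) ⊔ N) = Nat.card N * m ^ (Nat.card G).factorization m := by
  have hNm : ∀ r : ℕ, r.Prime → r ∣ Nat.card N → m < r := fun r hr hd =>
    prime_le_of_dvd_bigPart hN hr hd
  have hd : (Q : Subgroup G) ⊓ N = ⊥ := inf_eq_bot_of_coprime_card (by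
    rw [Q.card_eq_multiplicity]
    exact Nat.Coprime.pow_left _ (hm.out.coprime_iff_not_dvd.2 fun h =>
      lt_irrefl m (hNm m hm.out h)))
  have hc := card_sup_eq_mul hd
  rw [Q.card_eq_multiplicity] at hc
  refine ⟨fun x hx r hr hrd => ?_, by rw [hc, mul_comm]⟩
  have hx' : r ∣ Nat.card ↥((Q : Subgroup G) ⊔ N) :=
    hrd.trans (by rw [← orderOf_mk x hx]; exact orderOf_dvd_natCard _)
  rw [hc] at hx'
  rcases (Nat.Prime.dvd_mul hr).1 hx' with h | h
  · first
    | exact le_of_eq ((Nat.prime_dvd_prime_iff_eq hr hm.out).1 (hr.dvd_of_dvd_pow h)).symm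
    | exact (hNm r hr h).le
  · first
    | exact le_of_eq ((Nat.prime_dvd_prime_iff_eq hr hm.out).1 (hr.dvd_of_dvd_pow h)).symm
    | exact (hNm r hr h).le

theorem bigPart_eq_succ {m : ℕ} (hm : ¬ m.Prime) : bigPart G m = bigPart G (m + 1) := by
  ext g
  refine ⟨fun h r hr hd => ?_, fun h r hr hd => (Nat.le_succ m).trans (h r hr hd)⟩
  rcases (h r hr hd).lt_or_eq with hlt | rfl
  · exact hlt
  · exact absurd hr hm

theorem bigPart_base {m : ℕ} (hm : Nat.card G < m) :
    ((⊥ : Subgroup G) : Set G) = bigPart G m := by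
  ext g
  simp only [coe_bot, Set.mem_singleton_iff]
  refine ⟨fun h r hr hd => ?_, fun h => ?_⟩
  · rw [h, orderOf_one] at hd
    exact absurd (Nat.dvd_one.1 hd) hr.ne_one
  · by_contra hg
    obtain ⟨r, hr, hd⟩ := Nat.exists_prime_and_dvd (fun e => hg (orderOf_eq_one_iff.1 e))
    exact absurd ((h r hr hd).trans (Nat.le_of_dvd Nat.card_pos (hd.trans (orderOf_dvd_natCard g))))
      (not_le.2 hm)

/-- In a supersolvable group the big parts are normal Hall subgroups. -/
theorem exists_bigPart_supersolvable (hs : Cfsg.IsSupersolvable G) : ∀ m : ℕ,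
    ∃ N : Subgroup G, N.Normal ∧ (N : Set G) = bigPart G m := by
  suffices h : ∀ k m : ℕ, Nat.card G + 1 ≤ m + k →
      ∃ N : Subgroup G, N.Normal ∧ (N : Set G) = bigPart G m from
    fun m => h (Nat.card G + 1) m (by omega)
  intro k
  induction k with
  | zero => intro m hm; exact ⟨⊥, inferInstance, bigPart_base (by omega)⟩
  | succ k ih =>
    intro m hm
    obtain ⟨N, hNn, hN⟩ := ih (m + 1) (by omega)
    by_cases hmp : m.Prime
    swap
    · exact ⟨N, hNn, hN.trans (bigPart_eq_succ hmp).symm⟩
    haveI := Fact.mk hmp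
    haveI := hNn
    let Q : Sylow m G := default
    obtain ⟨hsub, hcard⟩ := sylow_sup_bigPart hN Q
    have hQn := sylow_normal_of_supersolvable (G ⧸ N) (isSupersolvable_quotient N hs) m
      (fun q hq hqd => not_lt.1 fun hlt => not_dvd_index_bigPart hN hq hlt
        (by rwa [index_eq_card]))
      (Q.mapSurjective (QuotientGroup.mk'_surjective N))
    rw [Sylow.coe_mapSurjective] at hQn
    have hTn : ((Q : Subgroup G) ⊔ N).Normal := by
      have h : (Q : Subgroup G) ⊔ N =
          ((Q : Subgroup G).map (QuotientGroup.mk' N)).comap (QuotientGroup.mk' N) := by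
        rw [comap_map_eq, QuotientGroup.ker_mk']
      rw [h]; exact hQn.comap _
    refine ⟨_, hTn, subset_antisymm hsub fun g hg => ?_⟩
    rw [SetLike.mem_coe, ← QuotientGroup.eq_one_iff, ← orderOf_eq_one_iff]
    by_contra hne
    obtain ⟨r, hr, hd⟩ := Nat.exists_prime_and_dvd hne
    have hmr : m ≤ r := hg r hr
      (hd.trans (orderOf_map_dvd (QuotientGroup.mk' ((Q : Subgroup G) ⊔ N)) g))
    have hidx : r ∣ ((Q : Subgroup G) ⊔ N).index := by
      rw [index_eq_card]; exact hd.trans (orderOf_dvd_natCard _)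
    rcases hmr.lt_or_eq with hlt | heq
    · exact not_dvd_index_bigPart hN hr hlt (hidx.trans (index_dvd_of_le le_sup_right))
    · subst heq
      exact Q.not_dvd_index (hidx.trans (index_dvd_of_le le_sup_left))

/-- A group with the order type of a supersolvable group is solvable. -/
theorem solvable_of_orderType {H : Type v} [Group H] [Finite H] (hs : Cfsg.IsSupersolvable G)
    (e : G ≃ H) (he : ∀ g, orderOf (e g) = orderOf g) : Group.IsSolvable H := by
  suffices h : ∀ k m : ℕ, Nat.card H + 1 ≤ m + k →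
      ∃ N : Subgroup H, N.Normal ∧ Group.IsSolvable N ∧ (N : Set H) = bigPart H m by
    obtain ⟨N, -, hsol, hN⟩ := h (Nat.card H + 1) 0 (by omega)
    have htop : N = ⊤ := eq_top_iff.2 fun x _ => by
      rw [← SetLike.mem_coe, hN]; exact fun r _ _ => Nat.zero_le r
    subst htop
    exact solvable_of_equiv hsol Subgroup.topEquiv
  intro k
  induction k with
  | zero => intro m hm; exact ⟨⊥, inferInstance, inferInstance, bigPart_base (by omega)⟩
  | succ k ih =>
    intro m hm
    obtain ⟨N, hNn, hNs, hN⟩ := ih (m + 1) (by omega)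
    by_cases hmp : m.Prime
    swap
    · exact ⟨N, hNn, hNs, hN.trans (bigPart_eq_succ hmp).symm⟩
    haveI := Fact.mk hmp
    haveI := hNn
    let Q : Sylow m H := default
    obtain ⟨hsub, hcard⟩ := sylow_sup_bigPart hN Q
    obtain ⟨M, hMn, hM⟩ := exists_bigPart_supersolvable hs (m + 1)
    obtain ⟨T, hTn, hT⟩ := exists_bigPart_supersolvable hs m
    haveI := hMn
    let Q' : Sylow m G := default
    obtain ⟨hsub', hcard'⟩ := sylow_sup_bigPart hM Q'
    have hTeq : T = (Q' : Subgroup G) ⊔ M := by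
      refine le_antisymm (fun g hg => ?_) (fun g hg => by rw [← SetLike.mem_coe, hT]; exact hsub' hg)
      haveI : ((Q' : Subgroup G) ⊔ M).Normal := by
        have hQn := sylow_normal_of_supersolvable (G ⧸ M) (isSupersolvable_quotient M hs) m
          (fun q hq hqd => not_lt.1 fun hlt => not_dvd_index_bigPart hM hq hlt
            (by rwa [index_eq_card]))
          (Q'.mapSurjective (QuotientGroup.mk'_surjective M))
        rw [Sylow.coe_mapSurjective] at hQn
        have h : (Q' : Subgroup G) ⊔ M =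
            ((Q' : Subgroup G).map (QuotientGroup.mk' M)).comap (QuotientGroup.mk' M) := by
          rw [comap_map_eq, QuotientGroup.ker_mk']
        rw [h]; exact hQn.comap _
      rw [← QuotientGroup.eq_one_iff, ← orderOf_eq_one_iff]
      by_contra hne
      obtain ⟨r, hr, hd⟩ := Nat.exists_prime_and_dvd hne
      have hg' : g ∈ bigPart G m := hT ▸ hg
      have hmr : m ≤ r := hg' r hr
        (hd.trans (orderOf_map_dvd (QuotientGroup.mk' ((Q' : Subgroup G) ⊔ M)) g))
      have hidx : r ∣ ((Q' : Subgroup G) ⊔ M).index := by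
        rw [index_eq_card]; exact hd.trans (orderOf_dvd_natCard _)
      rcases hmr.lt_or_eq with hlt | heq
      · exact not_dvd_index_bigPart hM hr hlt (hidx.trans (index_dvd_of_le le_sup_right))
      · subst heq
        exact Q'.not_dvd_index (hidx.trans (index_dvd_of_le le_sup_left))
    have hcardG : Nat.card G = Nat.card H := Nat.card_congr e
    have hMN : Nat.card M = Nat.card N := by
      have := card_bigPart_eq e he (m + 1)
      rwa [← hM, ← hN] at this
    have hS : Nat.card (bigPart H m) = Nat.card ↥((Q : Subgroup H) ⊔ N) := by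
      rw [← card_bigPart_eq e he m, ← hT]
      show Nat.card T = _
      rw [hTeq, hcard', hcard, hMN, hcardG]
    have heq : (↑((Q : Subgroup H) ⊔ N) : Set H) = bigPart H m :=
      Set.eq_of_subset_of_ncard_le hsub (by
        rw [← Nat.card_coe_set_eq, ← Nat.card_coe_set_eq, hS]; exact le_rfl) (Set.toFinite _)
    refine ⟨_, ⟨fun x hx g => ?_⟩, solvable_sup _ _ ?_ hNs, heq⟩
    · have hx' : x ∈ bigPart H m := heq ▸ hx
      rw [← SetLike.mem_coe, heq]
      intro r hr hd
      refine hx' r hr ?_
      have e1 : orderOf (g * x * g⁻¹) = orderOf x :=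
        orderOf_injective (MulAut.conj g).toMonoidHom (MulAut.conj g).injective x
      rwa [e1] at hd
    · haveI := Q.isPGroup'.isNilpotent
      infer_instance

end Cfsg.Lib.Solv
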