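import Cfsg.Agent.Lib.Solv.OrderType
import Cfsg.Agent.Lib.Solv.Frobenius
import Cfsg.Agent.Lib.Solv.FrobeniusComplement
import Cfsg.Agent.Lib.Solv.ThompsonKernel
import Cfsg.Agent.Lib.ZStar.UniqueInvolution
import Cfsg.Agent.Lib.Characters.Burnside

/-!
The order type determines Frobenius groups and the solvability of their complements.
-/

set_option autoImplicit false

namespace Cfsg.Lib.Solv

open Subgroup
open scoped Pointwise

universe u v

variable {A : Type u} [Group A]

/-- Every Sylow subgroup has a cyclic subgroup of index at most two. -/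
def AlmostCyclicSylow (A : Type u) [Group A] : Prop :=
  ∀ p : ℕ, p.Prime → ∀ P : Sylow p A, ∃ c ∈ (P : Subgroup A), Nat.card (P : Subgroup A) ≤ 2 * orderOf c

theorem almostCyclicSylow_quotient [Finite A] (N : Subgroup A) [N.Normal] (h : AlmostCyclicSylow A) :
    AlmostCyclicSylow (A ⧸ N) := by
  intro p hp P'
  haveI := Fact.mk hp
  obtain ⟨P, hP⟩ := Sylow.mapSurjective_surjective (QuotientGroup.mk'_surjective N) p P'
  obtain ⟨c, hc, hle⟩ := h p hp P
  subst hP
  rw [Sylow.coe_mapSurjective]
  set q := QuotientGroup.mk' N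
  refine ⟨q c, mem_map_of_mem q hc, ?_⟩
  have hcard : Nat.card ↥((P : Subgroup A).map q) * Nat.card ↥(N ⊓ P) = Nat.card (P : Subgroup A) := by
    have h1 : N.relIndex P = Nat.card ↥((P : Subgroup A).map q) := by
      rw [← relIndex_ker, QuotientGroup.ker_mk']
    have h2 := relIndex_mul_relIndex ⊥ (N ⊓ P) (P : Subgroup A) bot_le inf_le_right
    rw [relIndex_bot_left, relIndex_bot_left, inf_relIndex_right, h1] at h2
    rw [← h2, mul_comm]
  have hord : orderOf c ≤ orderOf (q c) * Nat.card ↥(N ⊓ P) := by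
    refine Nat.le_of_dvd (mul_pos (orderOf_pos _) Nat.card_pos) (orderOf_dvd_of_pow_eq_one ?_)
    rw [pow_mul]
    have hmem : c ^ orderOf (q c) ∈ N ⊓ P := by
      refine ⟨(QuotientGroup.eq_one_iff _).1 ?_, pow_mem hc _⟩
      show q (c ^ orderOf (q c)) = 1
      rw [map_pow, pow_orderOf_eq_one]
    exact congrArg Subtype.val (pow_card_eq_one' (x := (⟨_, hmem⟩ : ↥(N ⊓ P))))
  refine Nat.le_of_mul_le_mul_right ?_ (Nat.card_pos (α := ↥(N ⊓ P)))
  calc Nat.card ↥((P : Subgroup A).map q) * Nat.card ↥(N ⊓ P) = Nat.card (P : Subgroup A) := hcard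
    _ ≤ 2 * orderOf c := hle
    _ ≤ 2 * (orderOf (q c) * Nat.card ↥(N ⊓ P)) := Nat.mul_le_mul_left 2 hord
    _ = _ := by ring

/-- A normal elementary abelian `p`-subgroup has order at most `2 p`. -/
theorem card_le_of_almostCyclic [Finite A] (h : AlmostCyclicSylow A) {p : ℕ} [Fact p.Prime]
    (N : Subgroup A) [N.Normal] (hp : IsPGroup p N) (hexp : ∀ x ∈ N, x ^ p = 1) :
    Nat.card N ≤ 2 * p := by
  obtain ⟨P⟩ : Nonempty (Sylow p A) := inferInstance
  obtain ⟨c, hc, hle⟩ := h p Fact.out P
  have hNP : N ≤ (P : Subgroup A) :=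
    le_sup_right.trans (P.is_maximal' (P.isPGroup'.to_sup_of_normal_right' hp
      le_normalizer_of_normal) le_sup_left).le
  set Z := zpowers c with hZ
  have hZP : Z ≤ (P : Subgroup A) := zpowers_le.2 hc
  have h1 : Z.relIndex P ≤ 2 := by
    have := relIndex_mul_relIndex ⊥ Z (P : Subgroup A) bot_le hZP
    rw [relIndex_bot_left, relIndex_bot_left, hZ, Nat.card_zpowers] at this
    rw [← this, mul_comm] at hle
    exact Nat.le_of_mul_le_mul_right hle (orderOf_pos c)
  have h2 : Z.relIndex N ≤ 2 :=
    (relIndex_le_of_le_right hNP (by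
      intro h0
      exact index_ne_zero_of_finite (H := Z.subgroupOf P) h0)).trans h1
  have h3 : Nat.card ↥(Z ⊓ N) ≤ p := by
    haveI : IsCyclic ↥(Z ⊓ N) := isCyclic_of_injective (inclusion (inf_le_left : Z ⊓ N ≤ Z)) (inclusion_injective _)
    obtain ⟨g, hg⟩ := IsCyclic.exists_ofOrder_eq_natCard (α := ↥(Z ⊓ N))
    rw [← hg]
    exact Nat.le_of_dvd (Fact.out : p.Prime).pos (orderOf_dvd_of_pow_eq_one (Subtype.ext (hexp _ g.2.2)))
  have h4 := relIndex_mul_relIndex ⊥ (Z ⊓ N) N bot_le inf_le_right
  rw [relIndex_bot_left, relIndex_bot_left, inf_relIndex_right] at h4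
  rw [← h4, mul_comm]
  exact Nat.mul_le_mul h2 h3

/-- An element all of whose prime divisors are large centralizes a small normal subgroup. -/
theorem commute_of_small [Finite A] (N : Subgroup A) [N.Normal] {t : ℕ} (hN : Nat.card N ≤ t)
    {x : A} (hx : x ∈ bigPart A t) {a : A} (ha : a ∈ N) : x * a = a * x := by
  by_cases ha1 : a = 1
  · rw [ha1, mul_one, one_mul]
  set φ := MulAut.conj x with hφ
  let f : A → A := φ
  have hper : Function.IsPeriodicPt f (orderOf x) a := by
    have hit : ∀ (n : ℕ) (z : A), f^[n] z = x ^ n * z * (x ^ n)⁻¹ := by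
      intro n
      induction n with
      | zero => intro z; simp
      | succ n ih =>
        intro z
        rw [Function.iterate_succ_apply', ih]
        simp only [f, hφ, MulAut.conj_apply, pow_succ']
        group
    show f^[orderOf x] a = a
    rw [hit, pow_orderOf_eq_one, one_mul, inv_one, mul_one]
  have hd : Function.minimalPeriod f a ∣ orderOf x := hper.minimalPeriod_dvd
  by_cases h1 : Function.minimalPeriod f a = 1
  · have : f a = a := Function.minimalPeriod_eq_one_iff_isFixedPt.1 h1
    exact mul_inv_eq_iff_eq_mul.1 this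
  exfalso
  obtain ⟨r, hr, hrd⟩ := Nat.exists_prime_and_dvd h1
  have htr : t ≤ Function.minimalPeriod f a :=
    (hx r hr (hrd.trans hd)).trans (Nat.le_of_dvd (Function.minimalPeriod_pos_of_mem_periodicPts
      ⟨orderOf x, orderOf_pos x, hper⟩) hrd)
  -- the orbit lies in `N` minus the identity
  have hmem : ∀ n : ℕ, f^[n] a ∈ N ∧ f^[n] a ≠ 1 := by
    intro n
    induction n with
    | zero => exact ⟨ha, ha1⟩
    | succ n ih =>
      rw [Function.iterate_succ_apply']
      exact ⟨‹N.Normal›.conj_mem _ ih.1 x, fun h => ih.2 ((map_eq_one_iff φ φ.injective).1 h)⟩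
  let g : Option (Fin (Function.minimalPeriod f a)) → N := fun i =>
    match i with
    | none => 1
    | some i => ⟨f^[i.1] a, (hmem i.1).1⟩
  have hinj : Function.Injective g := by
    intro i j hij
    match i, j with
    | none, none => rfl
    | none, some j => exact absurd (congrArg Subtype.val hij).symm (hmem j.1).2
    | some i, none => exact absurd (congrArg Subtype.val hij) (hmem i.1).2
    | some i, some j =>
      exact congrArg some (Fin.ext (Function.iterate_injOn_Iio_minimalPeriod i.2 j.2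
        (congrArg Subtype.val hij)))
  have hle := Nat.card_le_card_of_injective g hinj
  rw [Nat.card_eq_fintype_card (α := Option _), Fintype.card_option, Fintype.card_fin] at hle
  omega

theorem exists_bigPart_almostCyclic : ∀ (n : ℕ) (A : Type u) [Group A] [Finite A], Nat.card A = n →
    Group.IsSolvable A → AlmostCyclicSylow A → ∀ t : ℕ, 4 ≤ t →
    ∃ H : Subgroup A, H.Normal ∧ (H : Set A) = bigPart A t := by
  intro n
  induction n using Nat.strong_induction_on with
  | _ n ih =>
  intro A _ _ hn hs hA t ht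
  rcases eq_or_ne (⊤ : Subgroup A) ⊥ with h0 | h0
  · refine ⟨⊥, inferInstance, ?_⟩
    ext g
    have hg : g = 1 := Subgroup.mem_bot.1 (h0 ▸ mem_top g)
    subst hg
    simp only [coe_bot, Set.mem_singleton_iff, true_iff]
    intro r hr hd
    rw [orderOf_one] at hd
    exact absurd (Nat.dvd_one.1 hd) hr.ne_one
  obtain ⟨N, hNn, -, hNne, hNmin⟩ := exists_minimal_normal_le (N := (⊤ : Subgroup A)) h0
  haveI := hNn
  haveI := hs
  obtain ⟨-, p, hp, hNp, hexp⟩ := minimal_normal_elementary hNne inferInstance hNmin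
  haveI := Fact.mk hp
  have hlt : Nat.card (A ⧸ N) < n := by
    rw [← hn, card_eq_card_quotient_mul_card_subgroup N]
    exact lt_mul_of_one_lt_right Nat.card_pos ((one_lt_card_iff_ne_bot N).mpr hNne)
  obtain ⟨H', hH'n, hH'⟩ := ih _ hlt (A ⧸ N) rfl inferInstance (almostCyclicSylow_quotient N hA) t ht
  set q := QuotientGroup.mk' N with hq
  set M := H'.comap q with hM
  have hbig : ∀ g ∈ bigPart A t, g ∈ M := by
    intro g hg
    rw [hM, mem_comap, ← SetLike.mem_coe, hH']
    exact fun r hr hd => hg r hr (hd.trans (orderOf_map_dvd q g))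
  have hconj : ∀ g ∈ bigPart A t, ∀ y : A, y * g * y⁻¹ ∈ bigPart A t := by
    intro g hg y r hr hd
    refine hg r hr ?_
    rwa [show orderOf (y * g * y⁻¹) = orderOf g from
      orderOf_injective (MulAut.conj y).toMonoidHom (MulAut.conj y).injective g] at hd
  have hMcard : Nat.card M = Nat.card H' * Nat.card N := by
    have h1 := M.card_mul_index
    rw [hM, index_comap_of_surjective _ (QuotientGroup.mk'_surjective N), ← hM] at h1
    refine Nat.eq_of_mul_eq_mul_right (Nat.pos_of_ne_zero (index_ne_zero_of_finite (H := H'))) ?_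
    rw [h1, mul_right_comm, H'.card_mul_index, ← index_eq_card, N.index_mul_card]
  by_cases hpt : t ≤ p
  · refine ⟨M, hH'n.comap q, Set.Subset.antisymm (fun g hg r hr hd => ?_) hbig⟩
    have hd' : r ∣ Nat.card M := hd.trans (orderOf_dvd_natCard M hg)
    rw [hMcard] at hd'
    rcases (Nat.Prime.dvd_mul hr).1 hd' with h | h
    · exact prime_le_of_dvd_bigPart hH' hr h
    · obtain ⟨k, hk⟩ := hNp.exists_card_eq
      rw [hk] at h
      rw [(Nat.prime_dvd_prime_iff_eq hr hp).1 (hr.dvd_of_dvd_pow h)]
      exact hpt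
  push Not at hpt
  have hNt : Nat.card N ≤ t := by
    obtain ⟨k, hk⟩ := hNp.exists_card_eq
    have h2 := card_le_of_almostCyclic hA N hNp hexp
    rw [hk] at h2 ⊢
    rcases hp.eq_two_or_odd with rfl | hodd
    · omega
    · have hk1 : k ≤ 1 := by
        by_contra hk1
        push Not at hk1
        have h3 : p ^ 2 ≤ p ^ k := Nat.pow_le_pow_right hp.pos hk1
        have h4 : 3 ≤ p := by have := hp.two_le; omega
        nlinarith
      have h3 := Nat.pow_le_pow_right hp.pos hk1
      rw [pow_one] at h3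
      omega
  have hcopH : ∀ r : ℕ, r.Prime → r ∣ Nat.card H' → r ≠ p := fun r hr hd e => by
    have := prime_le_of_dvd_bigPart hH' hr hd
    omega
  have hNM : N ≤ M := fun x hx => by
    rw [hM, mem_comap, show q x = 1 from (QuotientGroup.eq_one_iff x).2 hx]; exact one_mem _
  have hidx : (N.subgroupOf M).index = Nat.card H' := by
    have h1 := (N.subgroupOf M).card_mul_index
    rw [Nat.card_congr (subgroupOfEquivOfLe hNM).toEquiv, hMcard, mul_comm (Nat.card H')] at h1
    exact Nat.eq_of_mul_eq_mul_left Nat.card_pos h1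
  have hcop : (Nat.card (N.subgroupOf M)).Coprime (N.subgroupOf M).index := by
    rw [hidx, Nat.card_congr (subgroupOfEquivOfLe hNM).toEquiv]
    obtain ⟨k, hk⟩ := hNp.exists_card_eq
    rw [hk]
    refine Nat.Coprime.pow_left k (hp.coprime_iff_not_dvd.2 fun hd => hcopH p hp hd rfl)
  obtain ⟨H1, hH1⟩ := exists_right_complement'_of_coprime hcop
  set H := H1.map M.subtype with hH
  have hH1card : Nat.card H1 = Nat.card H' := by rw [← hH1.symm.index_eq_card, hidx]
  have hHbig : ∀ g ∈ H, g ∈ bigPart A t := by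
    rintro _ ⟨g, hg, rfl⟩ r hr hd
    exact prime_le_of_dvd_bigPart hH' hr (hH1card ▸ hd.trans (by
      rw [coe_subtype, orderOf_coe]; exact orderOf_dvd_natCard H1 hg))
  have heq : (H : Set A) = bigPart A t := by
    refine Set.Subset.antisymm hHbig fun g hg => ?_
    obtain ⟨⟨⟨a, ha⟩, ⟨h, hh⟩⟩, hab⟩ := hH1.2 ⟨g, hbig g hg⟩
    have e : g = (a : A) * (h : A) := (congrArg Subtype.val hab).symm
    have hc : Commute (a : A) (h : A) :=
      (commute_of_small N hNt (hHbig _ (mem_map_of_mem _ hh)) (show (a : A) ∈ N from ha)).symm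
    have h1 : g ^ p = (h : A) ^ p := by rw [e, hc.mul_pow, hexp _ (show (a : A) ∈ N from ha), one_mul]
    obtain ⟨m, hm⟩ := exists_pow_eq_self_of_coprime (x := g) (n := p)
      (hp.coprime_iff_not_dvd.2 fun hd => absurd (hg p hp hd) (by omega))
    rw [SetLike.mem_coe, ← hm, h1]
    exact pow_mem (pow_mem (mem_map_of_mem _ hh) p) m
  refine ⟨H, ⟨fun x hx y => ?_⟩, heq⟩
  rw [← SetLike.mem_coe, heq] at hx ⊢
  exact hconj x hx y

/-- A group with the order type of a solvable group with almost cyclic Sylow subgroups is solvable. -/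
theorem solvable_of_orderType_almostCyclic {B : Type v} [Group B] [Finite B] [Finite A]
    (hs : Group.IsSolvable A) (hA : AlmostCyclicSylow A)
    (e : A ≃ B) (he : ∀ g, orderOf (e g) = orderOf g) : Group.IsSolvable B := by
  have hcardAB : Nat.card A = Nat.card B := Nat.card_congr e
  have h : ∀ k m : ℕ, 4 ≤ m → Nat.card B + 1 ≤ m + k →
      ∃ N : Subgroup B, N.Normal ∧ Group.IsSolvable N ∧ (N : Set B) = bigPart B m := by
    intro k
    induction k with
    | zero => intro m _ hm; exact ⟨⊥, inferInstance, inferInstance, bigPart_base (by omega)⟩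
    | succ k ih =>
      intro m hm4 hm
      obtain ⟨N, hNn, hNs, hN⟩ := ih (m + 1) (by omega) (by omega)
      by_cases hmp : m.Prime
      swap
      · exact ⟨N, hNn, hNs, hN.trans (bigPart_eq_succ hmp).symm⟩
      haveI := Fact.mk hmp
      haveI := hNn
      let Q : Sylow m B := default
      obtain ⟨hsub, hcard⟩ := sylow_sup_bigPart hN Q
      obtain ⟨M, hMn, hM⟩ := exists_bigPart_almostCyclic _ A rfl hs hA (m + 1) (by omega)
      obtain ⟨T, hTn, hT⟩ := exists_bigPart_almostCyclic _ A rfl hs hA m hm4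
      haveI := hMn
      let Q' : Sylow m A := default
      obtain ⟨hsub', hcard'⟩ := sylow_sup_bigPart hM Q'
      have hTle : (Q' : Subgroup A) ⊔ M ≤ T := fun g hg => by
        rw [← SetLike.mem_coe, hT]; exact hsub' hg
      have hTeq : T = (Q' : Subgroup A) ⊔ M := by
        refine le_antisymm (relIndex_eq_one.1 ?_) hTle
        by_contra hne
        obtain ⟨r, hr, hd⟩ := Nat.exists_prime_and_dvd hne
        have hmr : m ≤ r := prime_le_of_dvd_bigPart hT hr (hd.trans (relIndex_dvd_card _ _))
        have hidx : r ∣ ((Q' : Subgroup A) ⊔ M).index := hd.trans (relIndex_dvd_index_of_le hTle)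
        rcases hmr.lt_or_eq with hlt | heq
        · exact not_dvd_index_bigPart hM hr hlt (hidx.trans (index_dvd_of_le le_sup_right))
        · subst heq
          exact Q'.not_dvd_index (hidx.trans (index_dvd_of_le le_sup_left))
      have hMN : Nat.card M = Nat.card N := by
        have := card_bigPart_eq e he (m + 1)
        rwa [← hM, ← hN] at this
      have hS : Nat.card (bigPart B m) = Nat.card ↥((Q : Subgroup B) ⊔ N) := by
        rw [← card_bigPart_eq e he m, ← hT]
        show Nat.card T = _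
        rw [hTeq, hcard', hcard, hMN, hcardAB]
      have heq : (↑((Q : Subgroup B) ⊔ N) : Set B) = bigPart B m :=
        Set.eq_of_subset_of_ncard_le hsub (by
          rw [← Nat.card_coe_set_eq, ← Nat.card_coe_set_eq, hS]; exact le_rfl) (Set.toFinite _)
      refine ⟨_, ⟨fun x hx g => ?_⟩, solvable_sup _ _ ?_ hNs, heq⟩
      · have hx' : x ∈ bigPart B m := heq ▸ hx
        rw [← SetLike.mem_coe, heq]
        intro r hr hd
        refine hx' r hr ?_
        rwa [show orderOf (g * x * g⁻¹) = orderOf x from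
          orderOf_injective (MulAut.conj g).toMonoidHom (MulAut.conj g).injective x] at hd
      · haveI := Q.isPGroup'.isNilpotent
        infer_instance
  obtain ⟨N, hNn, hNs, hN⟩ := h (Nat.card B + 1) 4 le_rfl (by omega)
  haveI := hNn
  haveI := hNs
  have hq : Group.IsSolvable (B ⧸ N) := by
    refine Cfsg.Lib.Characters.isSolvable_of_card_eq_pow_mul_pow Nat.prime_two Nat.prime_three _ _ rfl
      ⟨(Nat.card (B ⧸ N)).factorization 2, (Nat.card (B ⧸ N)).factorization 3, ?_⟩
    refine Nat.eq_of_factorization_eq Nat.card_pos.ne' (by positivity) fun r => ?_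
    rw [Nat.factorization_mul (by positivity) (by positivity), Nat.Prime.factorization_pow Nat.prime_two,
      Nat.Prime.factorization_pow Nat.prime_three]
    simp only [Finsupp.coe_add, Pi.add_apply, Finsupp.single_apply]
    by_cases h2 : r = 2
    · subst h2; simp
    by_cases h3 : r = 3
    · subst h3; simp
    rw [if_neg (Ne.symm h2), if_neg (Ne.symm h3), add_zero]
    by_cases hr : r.Prime
    · refine Nat.factorization_eq_zero_of_not_dvd fun hd => ?_
      rw [← index_eq_card] at hd
      exact not_dvd_index_bigPart hN hr (by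
        have := hr.two_le
        rcases Nat.lt_or_ge r 4 with h | h
        · omega
        · exact h) hd
    · exact Nat.factorization_eq_zero_of_not_prime _ hr
  exact Group.isSolvable_of_ker_le_range N.subtype (QuotientGroup.mk' N) (by simp)

/-- The elements of a given order outside the kernel come from the conjugates of the complement. -/
theorem card_orderOf_eq_of_frobenius {H : Type u} [Group H] [Finite H] (D : Subgroup H) (N : Subgroup H)
    (hD : Cfsg.IsFrobeniusComplement D) (hN : (N : Set H) = Cfsg.frobeniusKernel D) (m : ℕ)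
    (hm : m ≠ 1) (hmD : m ∣ Nat.card D) (hcopD : (Nat.card N).Coprime (Nat.card D)) :
    Nat.card {h : H // orderOf h = m} = D.index * Nat.card {d : D // orderOf d = m} := by
  obtain ⟨E, hE⟩ := Cfsg.Lib.Solv.frob_union_bijective hD
  rw [Subgroup.index_eq_card, ← Nat.card_prod]
  refine Nat.card_congr (Equiv.symm ?_)
  refine Equiv.ofBijective (fun z => ⟨E ⟨z.1, ⟨z.2.1, fun h => hm (by
    rw [← z.2.2, h, orderOf_one])⟩⟩, ?_⟩) ⟨?_, ?_⟩
  · rw [hE]
    show orderOf (z.1.out * ((z.2.1 : D) : H) * z.1.out⁻¹) = m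
    rw [show orderOf (z.1.out * ((z.2.1 : D) : H) * z.1.out⁻¹) = orderOf ((z.2.1 : D) : H) from
      orderOf_injective (MulAut.conj z.1.out).toMonoidHom (MulAut.conj z.1.out).injective _,
      Subgroup.orderOf_coe, z.2.2]
  · intro z w h
    have h2 := E.injective (Subtype.ext ((congrArg Subtype.val h :)) :
      E ⟨z.1, ⟨z.2.1, fun e => hm (by rw [← z.2.2, e, orderOf_one])⟩⟩ =
        E ⟨w.1, ⟨w.2.1, fun e => hm (by rw [← w.2.2, e, orderOf_one])⟩⟩)
    simp only [Prod.mk.injEq, Subtype.mk.injEq] at h2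
    exact Prod.ext h2.1 (Subtype.ext h2.2)
  · rintro ⟨h, hh⟩
    have hnot : h ∈ (Cfsg.frobeniusKernel D)ᶜ := by
      intro hmem
      rw [← hN] at hmem
      exact hm (Nat.eq_one_of_dvd_coprimes hcopD (hh ▸ Subgroup.orderOf_dvd_natCard _ hmem) hmD)
    obtain ⟨⟨q, d⟩, hqd⟩ := E.surjective ⟨h, hnot⟩
    have hd : orderOf d.1 = m := by
      have h3 : q.out * ((d.1 : D) : H) * q.out⁻¹ = h := (hE (q, d)).symm.trans (congrArg Subtype.val hqd)
      rw [← hh, ← h3, ← Subgroup.orderOf_coe]
      exact (orderOf_injective (MulAut.conj q.out).toMonoidHom (MulAut.conj q.out).injective _).symm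
    exact ⟨⟨q, ⟨d.1, hd⟩⟩, Subtype.ext ((congrArg Subtype.val hqd :) : ((E (q, d)) : H) = h)⟩

/-- Frobenius complements have almost cyclic Sylow subgroups. -/
theorem almostCyclicSylow_of_frobenius {H : Type u} [Group H] [Finite H] (D N : Subgroup H) [N.Normal]
    (hD : Cfsg.IsFrobeniusComplement D) (hND : N.IsComplement' D) : AlmostCyclicSylow D := by
  intro p hp P
  haveI := Fact.mk hp
  obtain ⟨V, hVN, hV, hVc, hDV⟩ := Cfsg.Lib.Solv.exists_invariant_abelian hD hND
  haveI := hVc
  have hfpf : ∀ d ∈ D, d ≠ 1 → V ⊓ Subgroup.centralizer ({d} : Set H) = ⊥ := fun d hd hd1 =>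
    le_bot_iff.1 ((inf_le_inf_right _ hVN).trans (Cfsg.Lib.Solv.frob_fpf hD hND.disjoint.eq_bot hd hd1).le)
  have hu : ∀ x y : (P : Subgroup D), orderOf x = p → orderOf y = p → y ∈ Subgroup.zpowers x :=
    fun x y hx hy => Cfsg.Lib.Solv.FrobCompl.mem_zpowers_of_pgroup hV hDV hfpf (P : Subgroup D) P.isPGroup' hx hy
  rcases Cfsg.Lib.ZStar.isCyclic_or_inverted P.isPGroup' hu with h | ⟨-, a, -, -, ha, -⟩
  · obtain ⟨g, hg⟩ := IsCyclic.exists_ofOrder_eq_natCard (α := (P : Subgroup D))
    exact ⟨g, g.2, by rw [Subgroup.orderOf_coe, hg]; omega⟩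
  · refine ⟨a, a.2, ?_⟩
    rw [Subgroup.orderOf_coe, ← Nat.card_zpowers, ← ha, mul_comm, (Subgroup.zpowers a).card_mul_index]

theorem solvable_iff_complement {H : Type u} [Group H] (N D : Subgroup H) [N.Normal]
    (hND : N.IsComplement' D) (hN : Group.IsSolvable N) :
    Group.IsSolvable H ↔ Group.IsSolvable D := by
  constructor
  · intro h
    exact Group.isSolvable_of_isSolvable_injective (f := D.subtype) D.subtype_injective
  · intro h
    haveI := hN
    haveI : Group.IsSolvable (H ⧸ N) := by
      refine Group.isSolvable_of_surjective (f := (QuotientGroup.mk' N).comp D.subtype) fun y => ?_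
      obtain ⟨g, rfl⟩ := QuotientGroup.mk'_surjective N y
      obtain ⟨⟨⟨a, ha⟩, ⟨b, hb⟩⟩, hab⟩ := hND.2 g
      refine ⟨⟨b, hb⟩, ?_⟩
      show QuotientGroup.mk' N b = QuotientGroup.mk' N g
      rw [← (show a * b = g from hab), map_mul, show QuotientGroup.mk' N a = 1 from (QuotientGroup.eq_one_iff a).2 ha, one_mul]
    exact Group.isSolvable_of_ker_le_range N.subtype (QuotientGroup.mk' N) (by simp)

end Cfsg.Lib.Solv
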