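import Mathlib
import Cfsg.Agent.Lib.Solv.PLengthSeries

/-!
# Bounds through the `p`-lengths for the other primes
-/

set_option autoImplicit false
set_option linter.unusedSectionVars false

namespace Cfsg.Lib.Solv

open Subgroup

universe u

variable {G : Type u} [Group G]

theorem prime_dvd_card_of_pCore_ne_bot [Finite G] {s : ℕ} [Fact s.Prime] (h : Cfsg.pCore s G ≠ ⊥) :
    s ∣ Nat.card G := by
  obtain ⟨n, hn⟩ := (isPGroup_pCore (G := G) s).exists_card_eq
  have h0 : n ≠ 0 := fun h0 => h (card_eq_one.1 (by rw [hn, h0, pow_zero]))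
  exact ((dvd_pow_self s h0).trans hn.symm.dvd).trans (card_subgroup_dvd_card _)

theorem card_quotient_lt [Finite G] (N : Subgroup G) [N.Normal] (h : N ≠ ⊥) :
    Nat.card (G ⧸ N) < Nat.card G := by
  rw [card_eq_card_quotient_mul_card_subgroup N]
  exact lt_mul_of_one_lt_right Nat.card_pos ((one_lt_card_iff_ne_bot N).2 h)

theorem card_quotient_le [Finite G] (N : Subgroup G) [N.Normal] : Nat.card (G ⧸ N) ≤ Nat.card G :=
  Nat.le_of_dvd Nat.card_pos (card_quotient_dvd_card N)

/-- The bound on the `p`-length by the other lengths. -/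
theorem pLength_prod_bound (p : ℕ) [Fact p.Prime] (r : ℕ) (q : Fin r → ℕ) (hq : ∀ i, (q i).Prime ∧ q i ≠ p) :
    ∀ (n : ℕ) (G : Type u) [Group G] [Finite G], Nat.card G ≤ n → Group.IsSolvable G →
      (∀ s : ℕ, s.Prime → s ∣ Nat.card G → s ≠ p → ∃ i, q i = s) →
      ∀ l : Fin r → ℕ, (∀ i, Cfsg.PLengthLE (q i) (l i) G) →
        Cfsg.PLengthLE p (Finset.univ.prod fun i => 1 + l i) G ∧
          (Cfsg.pCore p G = ⊥ → Cfsg.PLengthLE p ((Finset.univ.prod fun i => 1 + l i) - 1) G) := by
  intro n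
  induction n using Nat.strong_induction_on with
  | _ n ih =>
  intro G _ _ hn hsol hcover l hl
  classical
  haveI := hsol
  set N := Finset.univ.prod fun i => 1 + l i with hN
  have h1N : 1 ≤ N := Finset.one_le_prod' fun i _ => Nat.le_add_right 1 _
  suffices h : PSer p N (⊥ : Subgroup G) ∧ (Cfsg.pCore p G = ⊥ → PSer p (N - 1) (⊥ : Subgroup G)) from
    ⟨pSer_bot_iff.1 h.1, fun h0 => pSer_bot_iff.1 (h.2 h0)⟩
  refine of_monolithic (G := G) (fun K => PSer p N K ∧ (Cfsg.pCore p G = ⊥ → PSer p (N - 1) K))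
    (fun K L hK hL => ⟨hK.1.inf hL.1, fun h0 => (hK.2 h0).inf (hL.2 h0)⟩) ⟨PSer.top _, fun _ => PSer.top _⟩ ?_
  intro s _ K _ hsG hsQ hO
  set P₀ := Cfsg.pCore s (G ⧸ K) with hP₀
  have hlt : Nat.card ((G ⧸ K) ⧸ P₀) < n :=
    lt_of_lt_of_le (card_quotient_lt P₀ hsQ) ((card_quotient_le K).trans hn)
  have hsol' : Group.IsSolvable ((G ⧸ K) ⧸ P₀) := inferInstance
  have hcov' : ∀ t : ℕ, t.Prime → t ∣ Nat.card ((G ⧸ K) ⧸ P₀) → t ≠ p → ∃ i, q i = t := fun t ht hd hne =>
    hcover t ht (hd.trans ((card_quotient_dvd_card P₀).trans (card_quotient_dvd_card K))) hne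
  have hl1 : ∀ i, Cfsg.PLengthLE (q i) (l i) ((G ⧸ K) ⧸ P₀) := fun i => by
    haveI := Fact.mk (hq i).1
    exact pLengthLE_quotient (pLengthLE_quotient (hl i) K) P₀
  by_cases hsp : s = p
  · subst hsp
    refine ⟨pSer_of_quotient K ?_, fun h0 => absurd h0 hsG⟩
    have h2 := (ih _ hlt _ le_rfl hsol' hcov' l hl1).2 (pCore_quotient_eq_bot (G := G ⧸ K) s)
    have h3 := pLengthLE_of_quotient_p P₀ (isPGroup_pCore (G := G ⧸ K) s) h2
    rwa [Nat.sub_add_cancel h1N] at h3
  · obtain ⟨i, rfl⟩ := hcover s Fact.out (prime_dvd_card_of_pCore_ne_bot hsG) hsp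
    obtain ⟨hli, hpred⟩ := pLengthLE_pred hO hsQ (pLengthLE_quotient (hl i) K)
    set l' := Function.update l i (l i - 1) with hl'
    have hl2 : ∀ j, Cfsg.PLengthLE (q j) (l' j) ((G ⧸ K) ⧸ P₀) := fun j => by
      by_cases hj : j = i
      · subst hj; rw [hl', Function.update_self]; exact hpred
      · rw [hl', Function.update_of_ne hj]; exact hl1 j
    have hcop : (Nat.card P₀).Coprime p := by
      obtain ⟨m, hm⟩ := (isPGroup_pCore (G := G ⧸ K) (q i)).exists_card_eq
      rw [hP₀, hm]
      exact Nat.Coprime.pow_left m ((Nat.coprime_primes (hq i).1 Fact.out).2 (hq i).2)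
    have h3 := pLengthLE_of_quotient_pPrime P₀ hcop (ih _ hlt _ le_rfl hsol' hcov' l' hl2).1
    have hle : (Finset.univ.prod fun j => 1 + l' j) ≤ N - 1 := by
      refine Nat.le_sub_one_of_lt (Finset.prod_lt_prod (fun j _ => by omega) (fun j _ => ?_) ⟨i, Finset.mem_univ i, ?_⟩)
      · by_cases hj : j = i
        · subst hj; rw [hl', Function.update_self]; omega
        · rw [hl', Function.update_of_ne hj]
      · rw [hl', Function.update_self]; omega
    have h4 := pSer_of_quotient K h3
    exact ⟨h4.mono (hle.trans (Nat.sub_le N 1)), fun _ => h4.mono hle⟩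

theorem derivedSeries_le_map {m : ℕ} (N : Subgroup G) (h : derivedSeries G m ≤ N) (d : ℕ) :
    derivedSeries G (m + d) ≤ (derivedSeries N d).map N.subtype := by
  induction d with
  | zero => simpa [derivedSeries_zero, ← MonoidHom.range_eq_map] using h
  | succ d ih =>
    rw [← Nat.add_assoc, derivedSeries_succ, derivedSeries_succ, map_commutator]
    exact commutator_mono ih ih

theorem derivedSeries_eq_bot_of_injective {H : Type*} [Group H] (f : G →* H) (hf : Function.Injective f) {d : ℕ}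
    (h : derivedSeries H d = ⊥) : derivedSeries G d = ⊥ := by
  have h1 := map_derivedSeries_le_derivedSeries f d
  rw [h, le_bot_iff, map_eq_bot_iff_of_injective _ hf] at h1
  exact h1

/-- The bound on the derived length. -/
theorem derived_length_bound (r : ℕ) (q : Fin r → ℕ) (hq : ∀ i, (q i).Prime) (d : Fin r → ℕ) :
    ∀ (n : ℕ) (G : Type u) [Group G] [Finite G], Nat.card G ≤ n → Group.IsSolvable G →
      (∀ s : ℕ, s.Prime → s ∣ Nat.card G → ∃ i, q i = s) →
      (∀ i, ∀ S : Sylow (q i) G, derivedSeries ↥(S : Subgroup G) (d i) = ⊥) →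
      ∀ l : Fin r → ℕ, (∀ i, Cfsg.PLengthLE (q i) (l i) G) →
        derivedSeries G (Finset.univ.sum fun i => d i * l i) = ⊥ := by
  intro n
  induction n using Nat.strong_induction_on with
  | _ n ih =>
  intro G _ _ hn hsol hcover hd l hl
  classical
  haveI := hsol
  set D := Finset.univ.sum fun i => d i * l i with hD
  refine le_bot_iff.1 (of_monolithic (G := G) (fun K => derivedSeries G D ≤ K)
    (fun K L hK hL => le_inf hK hL) le_top ?_)
  intro s _ K _ hsG hsQ hO
  obtain ⟨i, rfl⟩ := hcover s Fact.out (prime_dvd_card_of_pCore_ne_bot hsG)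
  set P₀ := Cfsg.pCore (q i) (G ⧸ K) with hP₀
  obtain ⟨hli, hpred⟩ := pLengthLE_pred hO hsQ (pLengthLE_quotient (hl i) K)
  set l' := Function.update l i (l i - 1) with hl'
  have hsyl : ∀ (H : Type u) [Group H] (f : G →* H), Function.Surjective f → ∀ j, ∀ S : Sylow (q j) H,
      derivedSeries ↥(S : Subgroup H) (d j) = ⊥ := by
    intro H _ f hf j S
    haveI := Fact.mk (hq j)
    haveI : Finite H := Finite.of_surjective f hf
    obtain ⟨S₀, rfl⟩ := Sylow.mapSurjective_surjective hf (q j) S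
    rw [Sylow.coe_mapSurjective]
    rw [← map_derivedSeries_eq (f.subgroupMap_surjective (S₀ : Subgroup G)), hd j S₀, Subgroup.map_bot]
  have hl2 : ∀ j, Cfsg.PLengthLE (q j) (l' j) ((G ⧸ K) ⧸ P₀) := fun j => by
    haveI := Fact.mk (hq j)
    by_cases hj : j = i
    · subst hj; rw [hl', Function.update_self]; exact hpred
    · rw [hl', Function.update_of_ne hj]; exact pLengthLE_quotient (pLengthLE_quotient (hl j) K) P₀
  have h2 := ih _ (lt_of_lt_of_le (card_quotient_lt P₀ hsQ) ((card_quotient_le K).trans hn)) ((G ⧸ K) ⧸ P₀) le_rfl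
    inferInstance (fun t ht hdt => hcover t ht (hdt.trans ((card_quotient_dvd_card P₀).trans (card_quotient_dvd_card K))))
    (hsyl _ ((QuotientGroup.mk' P₀).comp (QuotientGroup.mk' K))
      ((QuotientGroup.mk'_surjective P₀).comp (QuotientGroup.mk'_surjective K))) l' hl2
  set D' := Finset.univ.sum fun j => d j * l' j with hD'
  have hDD : D = D' + d i := by
    rw [hD, hD', ← Finset.add_sum_erase Finset.univ _ (Finset.mem_univ i),
      ← Finset.add_sum_erase Finset.univ (fun j => d j * l' j) (Finset.mem_univ i), hl', Function.update_self,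
      Finset.sum_congr rfl (fun j hj => by rw [Function.update_of_ne (Finset.ne_of_mem_erase hj)] :
        ∀ j ∈ Finset.univ.erase i, d j * Function.update l i (l i - 1) j = d j * l j)]
    have : d i * l i = d i * (l i - 1) + d i := by
      rw [← Nat.mul_succ]
      congr 1
      omega
    omega
  have h3 : derivedSeries (G ⧸ K) D' ≤ P₀ := by
    rw [← map_derivedSeries_eq (QuotientGroup.mk'_surjective P₀), Subgroup.map_eq_bot_iff,
      QuotientGroup.ker_mk'] at h2
    exact h2
  obtain ⟨S⟩ : Nonempty (Sylow (q i) (G ⧸ K)) := inferInstance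
  have h4 : derivedSeries P₀ (d i) = ⊥ :=
    derivedSeries_eq_bot_of_injective (Subgroup.inclusion (pCore_le_sylow (q i) S))
      (Subgroup.inclusion_injective _) (hsyl _ _ (QuotientGroup.mk'_surjective K) i S)
  have h5 := derivedSeries_le_map P₀ h3 (d i)
  rw [h4, Subgroup.map_bot, le_bot_iff, ← hDD, ← map_derivedSeries_eq (QuotientGroup.mk'_surjective K),
    Subgroup.map_eq_bot_iff, QuotientGroup.ker_mk'] at h5
  exact h5

end Cfsg.Lib.Solv
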