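import Cfsg.Agent.Lib.Solv.Primitive

/-!
Two minimal normal subgroups in a primitive group.
-/

set_option autoImplicit false

namespace Cfsg.Lib.Solv

open Subgroup

variable {G : Type*} [Group G]

theorem nonempty_mulEquiv_of_complements {A D B : Subgroup G} [B.Normal] (hA : A ⊓ B = ⊥)
    (hD : D ⊓ B = ⊥) (h : A ⊔ B = D ⊔ B) : Nonempty (A ≃* D) := by
  have hinj : ∀ E : Subgroup G, E ⊓ B = ⊥ →
      Function.Injective ((QuotientGroup.mk' B).comp E.subtype) := fun E hE => by
    rw [injective_iff_map_eq_one]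
    intro x hx
    have hxB : (x : G) ∈ B := (QuotientGroup.eq_one_iff _).1 hx
    exact Subtype.ext (mem_bot.1 (hE ▸ mem_inf.2 ⟨x.2, hxB⟩))
  have e : ((QuotientGroup.mk' B).comp A.subtype).range = ((QuotientGroup.mk' B).comp D.subtype).range := by
    rw [MonoidHom.range_comp, MonoidHom.range_comp, range_subtype, range_subtype]
    have := congrArg (Subgroup.map (QuotientGroup.mk' B)) h
    simpa [Subgroup.map_sup] using this
  exact ⟨((MonoidHom.ofInjective (hinj A hA)).trans (MulEquiv.subgroupCongr e)).trans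
    (MonoidHom.ofInjective (hinj D hD)).symm⟩

theorem inf_eq_bot_of_centralized {U : Subgroup G} (hUc : U.normalCore = ⊥) (K B : Subgroup G)
    [K.Normal] (hKB : B ≤ centralizer (K : Set G)) (htop : U ⊔ B = ⊤) : K ⊓ U = ⊥ := by
  have hn : (K ⊓ U).Normal := by
    refine normalizer_eq_top_iff.1 (top_le_iff.1 (htop ▸ sup_le ?_ ?_))
    · refine fun u hu => mem_normalizer_iff.2 fun x => ⟨fun hx => ⟨(inferInstance : K.Normal).conj_mem x hx.1 u,
        U.mul_mem (U.mul_mem hu hx.2) (U.inv_mem hu)⟩, fun hx => ⟨?_, ?_⟩⟩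
      · have := (inferInstance : K.Normal).conj_mem _ hx.1 u⁻¹
        simpa [mul_assoc] using this
      · have := U.mul_mem (U.mul_mem (U.inv_mem hu) hx.2) hu
        simpa [mul_assoc] using this
    · refine fun m hm => mem_normalizer_iff.2 fun x => ⟨fun hx => ?_, fun hx => ?_⟩
      · rw [← (mem_centralizer_iff.1 (hKB hm)) x hx.1, mul_inv_cancel_right]; exact hx
      · have hxK : x ∈ K := by
          have := (inferInstance : K.Normal).conj_mem _ hx.1 m⁻¹
          simpa [mul_assoc] using this
        rw [← (mem_centralizer_iff.1 (hKB hm)) x hxK, mul_inv_cancel_right] at hx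
        exact hx
  exact le_bot_iff.1 (hUc ▸ normal_le_normalCore.2 inf_le_right)

end Cfsg.Lib.Solv
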