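import Mathlib

/-!
# Transitive groups with a full cycle of prime power length
-/

set_option autoImplicit false
set_option linter.style.haveILetI false

namespace Cfsg.Lib.Solv.SchurCyclic

open Subgroup
open scoped Pointwise

universe u v

variable {G : Type u} [Group G] {Ω : Type v} [MulAction G Ω]

/-- A regular commutative subgroup with a base point. -/
structure Reg (C : Subgroup G) (a : Ω) : Prop where
  bij : Function.Bijective (fun c : C => (c : G) • a)
  comm : ∀ x y : C, x * y = y * x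

variable {C : Subgroup G} {a : Ω}

/-- The map induced on `C`. -/
noncomputable def rho (h : Reg C a) (k : G) (c : C) : C :=
  (Equiv.ofBijective _ h.bij).symm (k • ((c : G) • a))

theorem rho_spec (h : Reg C a) (k : G) (c : C) : ((rho h k c : C) : G) • a = k • ((c : G) • a) :=
  Equiv.ofBijective_apply_symm_apply (fun c : C => (c : G) • a) h.bij _

theorem rho_bij (h : Reg C a) (k : G) : Function.Bijective (rho h k) := by
  refine ⟨fun x y e => h.bij.1 ?_, fun y => ?_⟩
  · have := congrArg (fun c : C => (c : G) • a) e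
    simp only [rho_spec] at this
    exact MulAction.injective k this
  · obtain ⟨x, hx⟩ := h.bij.2 (k⁻¹ • ((y : G) • a))
    refine ⟨x, h.bij.1 ?_⟩
    show ((rho h k x : C) : G) • a = (y : G) • a
    rw [rho_spec, show (x : G) • a = k⁻¹ • ((y : G) • a) from hx, smul_inv_smul]

/-- A set of elements of `C` invariant under the point stabilizer. -/
def Inv (h : Reg C a) (X : Set C) : Prop := ∀ s : G, s • a = a → ∀ c ∈ X, rho h s c ∈ X

theorem rho_one (h : Reg C a) {s : G} (hs : s • a = a) : rho h s 1 = 1 := h.bij.1 (by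
  show ((rho h s 1 : C) : G) • a = ((1 : C) : G) • a
  rw [rho_spec, OneMemClass.coe_one, one_smul, hs])

theorem inv_pair (h : Reg C a) {X : Set C} (hX : Inv h X) (k : G) (y z : C) (hyz : y * z⁻¹ ∈ X) :
    rho h k y * (rho h k z)⁻¹ ∈ X := by
  set s := ((rho h k z : C) : G)⁻¹ * k * (z : G) with hs
  have hsa : s • a = a := by
    rw [hs, mul_smul, mul_smul, ← rho_spec h k z, inv_smul_smul]
  have := hX s hsa _ hyz
  have e : rho h s (y * z⁻¹) = rho h k y * (rho h k z)⁻¹ := h.bij.1 (by
    show ((rho h s (y * z⁻¹) : C) : G) • a = ((rho h k y * (rho h k z)⁻¹ : C) : G) • a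
    rw [rho_spec, h.comm (rho h k y), h.comm y]
    simp only [Subgroup.coe_mul, Subgroup.coe_inv, mul_smul, rho_spec, hs, smul_inv_smul])
  exact e ▸ this

theorem pair_iff (h : Reg C a) {X : Set C} (hX : Inv h X) {s : G} (y z : C) :
    rho h s y * (rho h s z)⁻¹ ∈ X ↔ y * z⁻¹ ∈ X := by
  refine ⟨fun hm => ?_, inv_pair h hX s y z⟩
  have h2 := inv_pair h hX s⁻¹ _ _ hm
  have e : ∀ c, rho h s⁻¹ (rho h s c) = c := fun c => h.bij.1 (by
    show ((rho h s⁻¹ (rho h s c) : C) : G) • a = (c : G) • a
    rw [rho_spec, rho_spec, inv_smul_smul])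
  rwa [e, e] at h2

/-- An invariant set inside a proper subgroup gives a block. -/
theorem not_primitive (h : Reg C a) {X : Set C} (hX : Inv h X) {x : C} (hxX : x ∈ X) (hx1 : x ≠ 1)
    (U : Subgroup C) (hU : U ≠ ⊤) (hXU : X ⊆ U) [Finite C] : ¬ MulAction.IsPreprimitive G Ω := by
  intro hprim
  set V := closure X with hV
  have key : ∀ v ∈ V, ∀ (k : G) (z : C), rho h k (v * z) * (rho h k z)⁻¹ ∈ V := by
    intro v hv
    induction hv using closure_induction with
    | mem v hv => intro k z; exact subset_closure (inv_pair h hX k _ _ (by rwa [mul_inv_cancel_right]))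
    | one => intro k z; rw [one_mul, mul_inv_cancel]; exact one_mem _
    | mul v w _ _ ihv ihw =>
      intro k z
      have := mul_mem (ihv k (w * z)) (ihw k z)
      rwa [mul_assoc (rho h k (v * (w * z))), inv_mul_cancel_left, ← mul_assoc v] at this
    | inv v _ ihv =>
      intro k z
      have := inv_mem (ihv k (v⁻¹ * z))
      rwa [mul_inv_cancel_left, mul_inv_rev, inv_inv] at this
  set B : Set Ω := (fun c : C => (c : G) • a) '' (V : Set C) with hB
  have hblock : MulAction.IsBlock G B := by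
    rw [MulAction.isBlock_iff_smul_eq_of_nonempty]
    intro k hk
    obtain ⟨_, ⟨_, ⟨v0, hv0, rfl⟩, rfl⟩, v1, hv1, e⟩ := hk
    have hv0' : rho h k v0 ∈ V := by
      have : rho h k v0 = v1 := h.bij.1 (by
        show ((rho h k v0 : C) : G) • a = (v1 : G) • a
        rw [rho_spec]; exact e.symm)
      rw [this]; exact hv1
    have hmem : ∀ v ∈ V, rho h k v ∈ V := fun v hv => by
      have h1 := key (v * v0⁻¹) (mul_mem hv (inv_mem hv0)) k v0
      rw [inv_mul_cancel_right] at h1
      have := mul_mem h1 hv0'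
      rwa [inv_mul_cancel_right] at this
    have himg : rho h k '' (V : Set C) = (V : Set C) :=
      Set.eq_of_subset_of_ncard_le (by rintro _ ⟨v, hv, rfl⟩; exact hmem v hv)
        (Set.ncard_image_of_injective _ (rho_bij h k).1).ge (Set.toFinite _)
    rw [hB]
    conv_rhs => rw [← himg, Set.image_image]
    rw [← Set.image_smul, Set.image_image]
    exact Set.image_congr' fun v => (rho_spec h k v).symm
  rcases hprim.isTrivialBlock_of_isBlock hblock with hs | hs
  · exact hx1 (h.bij.1 (hs ⟨x, subset_closure hxX, rfl⟩ ⟨1, one_mem _, rfl⟩))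
  · refine hU (eq_top_iff.2 fun c _ => ?_)
    obtain ⟨v, hv, e⟩ : (c : G) • a ∈ B := hs ▸ Set.mem_univ _
    rw [← h.bij.1 e]
    exact (closure_le _).2 hXU hv

theorem two_transitive [Finite G] (p m : ℕ) [hp : Fact p.Prime] (hm : 2 ≤ m) (g : G) (hg : orderOf g = p ^ m)
    (h : Reg (zpowers g) a) (hprim : MulAction.IsPreprimitive G Ω) (x : zpowers g) (hx : x ≠ 1) :
    ∀ y : zpowers g, y ≠ 1 → ∃ s : G, s • a = a ∧ rho h s x = y := by
  classical
  let C := zpowers g
  letI : CommGroup C := { (inferInstance : Group C) with mul_comm := h.comm }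
  haveI : Fintype C := Fintype.ofFinite _
  have hcard : Nat.card C = p ^ m := by rw [Nat.card_zpowers, hg]
  let fr : C →* C := powMonoidHom p
  set h0 : C := ⟨g ^ p ^ (m - 1), pow_mem (mem_zpowers g) _⟩ with hh0
  have hh0o : orderOf h0 = p := by
    rw [hh0, Subgroup.orderOf_mk, orderOf_pow_of_dvd (pow_pos hp.out.pos _).ne' (hg ▸ pow_dvd_pow p (Nat.sub_le m 1)), hg,
      Nat.pow_div (Nat.sub_le m 1) hp.out.pos, show m - (m - 1) = 1 by omega, pow_one]
  have hker : fr.ker = zpowers h0 := by
    refine (eq_of_le_of_card_ge (zpowers_le.2 ?_) ?_).symm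
    · show h0 ^ p = 1
      rw [← hh0o, pow_orderOf_eq_one]
    · rw [Nat.card_zpowers, hh0o]
      have h1 := IsCyclic.card_pow_eq_one_le (α := C) (n := p) hp.out.pos
      rw [← Fintype.card_subtype, ← Nat.card_eq_fintype_card] at h1
      exact h1
  have hfr : fr.range ≠ ⊤ := fun e => by
    have h1 := Subgroup.card_mul_index fr.ker
    rw [hker, Nat.card_zpowers, hh0o] at h1
    rw [← hker, Subgroup.index_ker, e, Subgroup.card_top, hcard] at h1
    have := pow_pos hp.out.pos m
    have := hp.out.two_le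
    nlinarith
  have hP : zpowers h0 ≠ ⊤ := fun e => by
    have h1 : Nat.card (zpowers h0) = p ^ m := by rw [e, Subgroup.card_top, hcard]
    rw [Nat.card_zpowers, hh0o] at h1
    have h2 : p ^ 2 ≤ p ^ m := Nat.pow_le_pow_right hp.out.pos hm
    have := hp.out.two_le
    nlinarith
  have hh01 : h0 ≠ 1 := fun e => hp.out.ne_one (by rw [← hh0o, e, orderOf_one])
  -- the orbit of `h0`
  let O : C → Set C := fun c => {y | ∃ s : G, s • a = a ∧ rho h s c = y}
  have hcomp : ∀ (s t : G) (c : C), rho h s (rho h t c) = rho h (s * t) c := fun s t c => h.bij.1 (by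
    show ((rho h s (rho h t c) : C) : G) • a = ((rho h (s * t) c : C) : G) • a
    rw [rho_spec, rho_spec, rho_spec, mul_smul])
  have hrid : ∀ c : C, rho h 1 c = c := fun c => h.bij.1 (by
    show ((rho h 1 c : C) : G) • a = (c : G) • a
    rw [rho_spec, one_smul])
  have hO : ∀ c, Inv h (O c) := by
    rintro c s hs _ ⟨t, ht, rfl⟩
    exact ⟨s * t, by rw [mul_smul, ht, hs], (hcomp s t c).symm⟩
  have hO1 : ∀ c : C, c ≠ 1 → (1 : C) ∉ O c := by
    rintro c hc ⟨s, hs, e⟩
    exact hc ((rho_bij h s).1 (e.trans (rho_one h hs).symm))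
  have hself : ∀ c : C, c ∈ O c := fun c => ⟨1, one_smul _ _, hrid c⟩
  have hnotin : ∀ c : C, c ≠ 1 → ∀ U : Subgroup C, U ≠ ⊤ → ¬ O c ⊆ U := fun c hc U hU hsub =>
    not_primitive h (hO c) (hself c) hc U hU hsub hprim
  suffices key : ∀ y : C, y ≠ 1 → y ∈ O h0 by
    intro y hy
    obtain ⟨s, hs, es⟩ := key x hx
    obtain ⟨t, ht, et⟩ := key y hy
    refine ⟨t * s⁻¹, by rw [mul_smul, show s⁻¹ • a = a by rw [inv_smul_eq_iff, hs], ht], ?_⟩
    rw [← es, hcomp, inv_mul_cancel_right, et]
  set T := Finset.univ.filter (fun c : C => c ∈ O h0) with hT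
  have hTm : ∀ c, c ∈ T ↔ c ∈ O h0 := fun c => by simp [hT]
  have hTpair : ∀ (s : G) (y z : C), rho h s y * (rho h s z)⁻¹ ∈ T ↔ y * z⁻¹ ∈ T := fun s y z => by
    rw [hTm, hTm]; exact pair_iff h (hO h0) y z
  -- powers of the class sum modulo `p`
  let F : ℕ → C → ZMod p := fun n => Nat.rec (fun y => if y = 1 then 1 else 0)
    (fun _ f y => ∑ z, if y * z⁻¹ ∈ T then f z else 0) n
  have hFinv : ∀ (n : ℕ) (s : G), s • a = a → ∀ y, F n (rho h s y) = F n y := by
    intro n s hs
    induction n with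
    | zero =>
      intro y
      show (if rho h s y = 1 then (1 : ZMod p) else 0) = if y = 1 then 1 else 0
      have : rho h s y = 1 ↔ y = 1 := ⟨fun e => (rho_bij h s).1 (e.trans (rho_one h hs).symm), fun e => e ▸ rho_one h hs⟩
      simp only [this]
    | succ n ih =>
      intro y
      show (∑ z, if rho h s y * z⁻¹ ∈ T then F n z else 0) = ∑ z, if y * z⁻¹ ∈ T then F n z else 0
      rw [← (Equiv.ofBijective _ (rho_bij h s)).sum_comp (fun z => if rho h s y * z⁻¹ ∈ T then F n z else 0)]
      refine Finset.sum_congr rfl fun z _ => ?_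
      simp only [Equiv.ofBijective_apply, hTpair, ih z]
  let S : MonoidAlgebra (ZMod p) C := ∑ t ∈ T, MonoidAlgebra.single t (1 : ZMod p)
  have hS : ∀ (n : ℕ) (y : C), (S ^ n : MonoidAlgebra (ZMod p) C).coeff y = F n y := by
    intro n
    induction n with
    | zero =>
      intro y
      rw [pow_zero, MonoidAlgebra.one_def, MonoidAlgebra.coeff_single, Finsupp.single_apply]
      show _ = if y = 1 then (1 : ZMod p) else 0
      simp [eq_comm]
    | succ n ih =>
      intro y
      show _ = ∑ z, if y * z⁻¹ ∈ T then F n z else 0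
      rw [pow_succ', Finset.sum_mul, MonoidAlgebra.coeff_sum, Finsupp.finsetSum_apply]
      simp only [MonoidAlgebra.coeff_single_mul_apply, one_mul, ih]
      refine Finset.sum_bij' (fun t _ => t⁻¹ * y) (fun z _ => y * z⁻¹) ?_ ?_ ?_ ?_ ?_ |>.trans (Finset.sum_filter _ _)
      · intro t ht
        rw [Finset.mem_filter]
        exact ⟨Finset.mem_univ _, by simpa [mul_comm] using ht⟩
      · intro z hz
        exact (Finset.mem_filter.1 hz).2
      · intro t _; simp
      · intro z _; simp
      · intro t _; rfl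
  have hFp : ∀ y : C, F p y = ((T.filter fun t => t ^ p = y).card : ZMod p) := by
    intro y
    haveI : CharP (MonoidAlgebra (ZMod p) C) p := by
      have : Function.Injective (algebraMap (ZMod p) (MonoidAlgebra (ZMod p) C)) := RingHom.injective _
      exact charP_of_injective_algebraMap this p
    rw [← hS, sum_pow_char]
    simp only [MonoidAlgebra.single_pow, one_pow]
    rw [MonoidAlgebra.coeff_sum, Finsupp.finsetSum_apply, Finset.card_filter, Nat.cast_sum]
    refine Finset.sum_congr rfl fun t _ => ?_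
    rw [MonoidAlgebra.coeff_single, Finsupp.single_apply]
    split_ifs <;> simp
  have hzero : ∀ y : C, y ≠ 1 → p ∣ (T.filter fun t => t ^ p = y).card := by
    intro y hy
    rw [← ZMod.natCast_eq_zero_iff, ← hFp]
    by_contra hne
    obtain ⟨X, hX⟩ : ∃ X : Set C, X = {c | F p c ≠ 0 ∧ c ≠ 1} := ⟨_, rfl⟩
    refine not_primitive h (X := X) ?_ (x := y) (hX ▸ ⟨hne, hy⟩) hy fr.range hfr ?_ hprim
    · intro s hs c hc
      rw [hX] at hc ⊢
      refine ⟨by rw [hFinv p s hs]; exact hc.1, fun e => hc.2 ((rho_bij h s).1 (e.trans (rho_one h hs).symm))⟩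
    · intro c hc
      rw [hX] at hc
      by_contra hcr
      refine hc.1 ?_
      rw [hFp, Finset.filter_false_of_mem, Finset.card_empty, Nat.cast_zero]
      intro t _ ht
      exact hcr ⟨t, ht⟩
  set P := Finset.univ.filter (fun c : C => c ∈ zpowers h0) with hPd
  have hPm : ∀ c, c ∈ P ↔ c ∈ zpowers h0 := fun c => by simp [hPd]
  have hPc : P.card = p := by
    rw [hPd, ← Fintype.card_subtype, ← Nat.card_eq_fintype_card, ← hh0o, ← Nat.card_zpowers h0]
  set A := T.filter (fun t => t ∈ zpowers h0) with hA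
  set B := T.filter (fun t => t ∉ zpowers h0) with hB
  have hAm : ∀ z, z ∈ A ↔ z ∈ T ∧ z ∈ zpowers h0 := fun z => by rw [hA, Finset.mem_filter]
  have hBm : ∀ z, z ∈ B ↔ z ∈ T ∧ z ∉ zpowers h0 := fun z => by rw [hB, Finset.mem_filter]
  have hAB : A.card + B.card = T.card := Finset.card_filter_add_card_filter_not _
  -- `B` consists of full cosets
  have hcoset : ∀ x y : C, x ∈ B → y * x⁻¹ ∈ zpowers h0 → y ∈ B := by
    intro x y hx hyx
    rw [hBm] at hx ⊢
    have hyP : y ∉ zpowers h0 := fun hy => hx.2 (by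
      have := mul_mem (inv_mem hyx) hy
      rwa [mul_inv_rev, inv_inv, inv_mul_cancel_right] at this)
    refine ⟨?_, hyP⟩
    have hx1 : x ^ p ≠ 1 := fun e => hx.2 (hker ▸ (show x ∈ fr.ker from e))
    set Fib := Finset.univ.filter (fun t : C => t ^ p = x ^ p) with hFib
    have hFc : Fib.card = p := by
      rw [← hPc]
      refine Finset.card_bij' (fun t _ => t * x⁻¹) (fun c _ => c * x) ?_ ?_ ?_ ?_
      · intro t ht
        rw [hFib, Finset.mem_filter] at ht
        rw [hPm, ← hker]
        show (t * x⁻¹) ^ p = 1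
        rw [mul_pow, ht.2, inv_pow, mul_inv_cancel]
      · intro c hc
        rw [hPm, ← hker] at hc
        rw [hFib, Finset.mem_filter, mul_pow, show c ^ p = 1 from hc, one_mul]
        exact ⟨Finset.mem_univ _, rfl⟩
      · intro t _; exact inv_mul_cancel_right t x
      · intro c _; exact mul_inv_cancel_right c x
    have hle : (T.filter fun t => t ^ p = x ^ p) ⊆ Fib := fun t ht => by
      rw [hFib, Finset.mem_filter]; exact ⟨Finset.mem_univ _, (Finset.mem_filter.1 ht).2⟩
    have hpos : 0 < (T.filter fun t => t ^ p = x ^ p).card := Finset.card_pos.2 ⟨x, Finset.mem_filter.2 ⟨hx.1, rfl⟩⟩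
    have heq := Finset.eq_of_subset_of_card_le hle (by rw [hFc]; exact Nat.le_of_dvd hpos (hzero _ hx1))
    have hy' : y ∈ Fib := by
      rw [hFib, Finset.mem_filter]
      refine ⟨Finset.mem_univ _, ?_⟩
      rw [← hker] at hyx
      have : (y * x⁻¹) ^ p = 1 := hyx
      rwa [mul_pow, inv_pow, mul_inv_eq_one] at this
    rw [← heq] at hy'
    exact (Finset.mem_filter.1 hy').1
  have hh0T : h0 ∈ T := (hTm h0).2 (hself h0)
  have h1T : (1 : C) ∉ T := fun e => hO1 h0 hh01 ((hTm 1).1 e)
  have hA0 : h0 ∈ A := (hAm h0).2 ⟨hh0T, mem_zpowers h0⟩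
  have hAp : A.card < p := by
    rw [← hPc]
    refine Finset.card_lt_card (Finset.ssubset_iff_of_subset (fun z hz => (hPm z).2 ((hAm z).1 hz).2) |>.2 ⟨1, (hPm 1).2 (one_mem _), fun e => h1T ((hAm 1).1 e).1⟩)
  obtain ⟨x0, hx0⟩ : ∃ x0, x0 ∈ B := by
    by_contra hno
    push Not at hno
    refine hnotin h0 hh01 (zpowers h0) hP fun c hc => ?_
    by_contra hcP
    exact hno c ((hBm c).2 ⟨(hTm c).2 hc, hcP⟩)
  -- the intersection numbers
  set N : C → ℕ := fun y => (T.filter fun z => z * y⁻¹ ∈ T).card with hN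
  have hNconst : ∀ y ∈ T, N y = N h0 := by
    intro y hy
    obtain ⟨s, hs, rfl⟩ := (hTm y).1 hy
    refine (Finset.card_bij (fun z _ => rho h s z) ?_ (fun z _ w _ e => (rho_bij h s).1 e) ?_).symm
    · intro z hz
      rw [Finset.mem_filter] at hz ⊢
      refine ⟨?_, (hTpair s z h0).2 hz.2⟩
      have := (hTpair s z 1).2 (by rw [inv_one, mul_one]; exact hz.1)
      rwa [rho_one h hs, inv_one, mul_one] at this
    · intro w hw
      rw [Finset.mem_filter] at hw
      obtain ⟨z, rfl⟩ := (rho_bij h s).2 w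
      refine ⟨z, Finset.mem_filter.2 ⟨?_, (hTpair s z h0).1 hw.2⟩, rfl⟩
      have := (hTpair s z 1).1 (by rw [rho_one h hs, inv_one, mul_one]; exact hw.1)
      rwa [inv_one, mul_one] at this
  set A' := A.filter (fun z => z * h0⁻¹ ∈ A) with hA'
  have hN0 : N h0 = A'.card + B.card := by
    rw [hN]
    simp only
    rw [← Finset.card_filter_add_card_filter_not (s := T.filter fun z => z * h0⁻¹ ∈ T) (fun z => z ∈ zpowers h0)]
    congr 1
    · congr 1
      ext z
      simp only [hA', Finset.mem_filter, hAm]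
      exact ⟨fun hz => ⟨⟨hz.1.1, hz.2⟩, hz.1.2, mul_mem hz.2 (inv_mem (mem_zpowers h0))⟩, fun hz => ⟨⟨hz.1.1, hz.2.1⟩, hz.1.2⟩⟩
    · congr 1
      ext z
      simp only [Finset.mem_filter, hBm]
      refine ⟨fun hz => ⟨hz.1.1, hz.2⟩, fun hz => ⟨⟨hz.1, ((hBm _).1 (hcoset z (z * h0⁻¹) ((hBm z).2 hz) ?_)).1⟩, hz.2⟩⟩
      rw [mul_comm z, mul_inv_cancel_right]
      exact inv_mem (mem_zpowers h0)
  have hA'lt : A'.card < A.card := by
    refine Finset.card_lt_card (Finset.ssubset_iff_of_subset (Finset.filter_subset _ _) |>.2 ⟨h0, hA0, fun e => ?_⟩)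
    rw [Finset.mem_filter, mul_inv_cancel] at e
    exact h1T ((hAm 1).1 e.2).1
  set D : C → Finset C := fun x => B.filter (fun z => z * x⁻¹ ∈ B) with hD
  have hNB : ∀ x ∈ B, N x = (if x⁻¹ ∈ B then A.card else 0) + A.card + (D x).card := by
    intro x hx
    have hxB := (hBm x).1 hx
    have e1 : N x = (A.filter fun z => z * x⁻¹ ∈ T).card + (B.filter fun z => z * x⁻¹ ∈ T).card := by
      rw [hN]
      simp only
      rw [← Finset.card_filter_add_card_filter_not (s := T.filter fun z => z * x⁻¹ ∈ T) (fun z => z ∈ zpowers h0)]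
      congr 1 <;> (congr 1; ext z; simp only [Finset.mem_filter, hAm, hBm]; tauto)
    have e2 : (A.filter fun z => z * x⁻¹ ∈ T).card = if x⁻¹ ∈ B then A.card else 0 := by
      have key : ∀ z ∈ A, (z * x⁻¹ ∈ T ↔ x⁻¹ ∈ B) := by
        intro z hz
        have hzP := ((hAm z).1 hz).2
        have hn : z * x⁻¹ ∉ zpowers h0 := fun e => hxB.2 (by
          have := inv_mem (mul_mem (inv_mem hzP) e)
          rwa [inv_mul_cancel_left, inv_inv] at this)
        refine ⟨fun hh => hcoset (z * x⁻¹) x⁻¹ ((hBm _).2 ⟨hh, hn⟩) ?_, fun hh => ((hBm _).1 (hcoset x⁻¹ (z * x⁻¹) hh ?_)).1⟩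
        · rw [mul_inv_rev, inv_inv, ← mul_assoc, inv_mul_cancel, one_mul]; exact inv_mem hzP
        · rw [inv_inv, inv_mul_cancel_right]; exact hzP
      split_ifs with hb
      · rw [Finset.filter_true_of_mem fun z hz => (key z hz).2 hb]
      · rw [Finset.filter_false_of_mem fun z hz => fun hh => hb ((key z hz).1 hh), Finset.card_empty]
    have e3 : (B.filter fun z => z * x⁻¹ ∈ T).card = A.card + (D x).card := by
      rw [← Finset.card_filter_add_card_filter_not (s := B.filter fun z => z * x⁻¹ ∈ T) (fun z => z * x⁻¹ ∈ zpowers h0)]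
      congr 1
      · refine Finset.card_bij' (fun z _ => z * x⁻¹) (fun c _ => c * x) ?_ ?_ ?_ ?_
        · intro z hz
          simp only [Finset.mem_filter] at hz
          exact (hAm _).2 ⟨hz.1.2, hz.2⟩
        · intro c hc
          have hc' := (hAm c).1 hc
          simp only [Finset.mem_filter, mul_inv_cancel_right]
          exact ⟨⟨hcoset x (c * x) hx (by rw [mul_inv_cancel_right]; exact hc'.2), hc'.1⟩, hc'.2⟩
        · intro z _; exact inv_mul_cancel_right z x
        · intro c _; exact mul_inv_cancel_right c x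
      · congr 1
        ext z
        simp only [hD, Finset.mem_filter, hBm]
        tauto
    rw [e1, e2, e3]; ring
  -- divisibility of unions of cosets
  have hdiv : ∀ (W : Finset C), (∀ z ∈ W, ∀ w, w * z⁻¹ ∈ zpowers h0 → w ∈ W) → p ∣ W.card := by
    intro W hW
    rw [Finset.card_eq_sum_card_fiberwise (f := fun z : C => z ^ p) (t := W.image fun z => z ^ p) fun z hz => Finset.mem_image_of_mem _ hz]
    refine Finset.dvd_sum fun y hy => ?_
    obtain ⟨z, hz, rfl⟩ := Finset.mem_image.1 hy
    have : (W.filter fun w => w ^ p = z ^ p).card = P.card := by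
      refine Finset.card_bij' (fun w _ => w * z⁻¹) (fun c _ => c * z) ?_ ?_ ?_ ?_
      · intro w hw
        rw [Finset.mem_filter] at hw
        rw [hPm, ← hker]
        show (w * z⁻¹) ^ p = 1
        rw [mul_pow, hw.2, inv_pow, mul_inv_cancel]
      · intro c hc
        rw [hPm] at hc
        rw [Finset.mem_filter]
        refine ⟨hW z hz _ (by rw [mul_inv_cancel_right]; exact hc), ?_⟩
        rw [← hker] at hc
        rw [mul_pow, show c ^ p = 1 from hc, one_mul]
      · intro w _; exact inv_mul_cancel_right w z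
      · intro c _; exact mul_inv_cancel_right c z
    rw [this, hPc]
  have hpB : p ∣ B.card := hdiv B fun z hz w hw => hcoset z w hz hw
  have main : ∀ x ∈ B, x⁻¹ ∈ B ∧ ∀ z ∈ B, z * x⁻¹ ∈ B ∨ z * x⁻¹ ∈ zpowers h0 := by
    intro x hx
    have hD' : p ∣ (D x).card := hdiv _ fun z hz w hw => by
      simp only [hD, Finset.mem_filter] at hz ⊢
      refine ⟨hcoset z w hz.1 hw, hcoset (z * x⁻¹) (w * x⁻¹) hz.2 ?_⟩
      rw [mul_inv_rev, inv_inv, ← mul_assoc, inv_mul_cancel_right]
      exact hw
    have hDle : (D x).card ≤ B.card := Finset.card_filter_le _ _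
    have e := (hNconst x ((hBm x).1 hx).1).symm.trans rfl
    rw [hN0, hNB x hx] at e
    obtain ⟨b, hb⟩ := hpB
    obtain ⟨d, hd⟩ := hD'
    have hxinv : x⁻¹ ∈ B := by
      by_contra hn
      rw [if_neg hn, hb, hd] at e
      rcases lt_trichotomy b d with hlt | heq | hgt
      · have := Nat.mul_le_mul_left p hlt; rw [Nat.mul_succ] at this; omega
      · subst heq; omega
      · have := Nat.mul_le_mul_left p hgt; rw [Nat.mul_succ] at this; omega
    refine ⟨hxinv, fun z hz => ?_⟩
    rw [if_pos hxinv, hb, hd] at e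
    have hbd : b = d + 1 := by
      have hpos := hp.out.pos
      rcases lt_trichotomy b (d + 1) with hlt | heq | hgt
      · have := Nat.mul_le_mul_left p (Nat.lt_succ_iff.1 hlt); omega
      · exact heq
      · have := Nat.mul_le_mul_left p hgt; rw [Nat.succ_eq_add_one, Nat.mul_add, Nat.mul_add] at this; omega
    by_contra hno
    push Not at hno
    set E := B.filter (fun z => z * x⁻¹ ∈ zpowers h0) with hE
    have hEc : E.card = p := by
      rw [← hPc]
      refine Finset.card_bij' (fun z _ => z * x⁻¹) (fun c _ => c * x) ?_ ?_ ?_ ?_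
      · intro w hw; rw [hPm]; exact (Finset.mem_filter.1 hw).2
      · intro c hc
        rw [hPm] at hc
        rw [hE, Finset.mem_filter, mul_inv_cancel_right]
        exact ⟨hcoset x _ hx (by rwa [mul_inv_cancel_right]), hc⟩
      · intro w _; exact inv_mul_cancel_right w x
      · intro c _; exact mul_inv_cancel_right c x
    have hsub : insert z (E ∪ D x) ⊆ B := by
      intro w hw
      rcases Finset.mem_insert.1 hw with rfl | hw
      · exact hz
      · rcases Finset.mem_union.1 hw with hw | hw <;> exact (Finset.mem_filter.1 hw).1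
    have hdis : Disjoint E (D x) := Finset.disjoint_left.2 fun w hw1 hw2 =>
      ((hBm _).1 (Finset.mem_filter.1 hw2).2).2 (Finset.mem_filter.1 hw1).2
    have hzn : z ∉ E ∪ D x := fun hw => by
      rcases Finset.mem_union.1 hw with hw | hw
      · exact hno.2 (Finset.mem_filter.1 hw).2
      · exact hno.1 (Finset.mem_filter.1 hw).2
    have := Finset.card_le_card hsub
    rw [Finset.card_insert_of_notMem hzn, Finset.card_union_of_disjoint hdis, hEc, hb, hd, hbd, Nat.mul_add] at this
    omega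
  let K : Subgroup C :=
    { carrier := {c | c ∈ zpowers h0 ∨ c ∈ B}
      one_mem' := Or.inl (one_mem _)
      inv_mem' := fun {c} hc => hc.elim (fun h => Or.inl (inv_mem h)) fun h => Or.inr (main c h).1
      mul_mem' := fun {c d} hc hd => by
        rcases hc with hc | hc <;> rcases hd with hd | hd
        · exact Or.inl (mul_mem hc hd)
        · exact Or.inr (hcoset d (c * d) hd (by rw [mul_inv_cancel_right]; exact hc))
        · exact Or.inr (hcoset c (c * d) hc (by rw [mul_comm c, mul_inv_cancel_right]; exact hd))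
        · rcases (main d⁻¹ (main d hd).1).2 c hc with hh | hh
          · rw [inv_inv] at hh; exact Or.inr hh
          · rw [inv_inv] at hh; exact Or.inl hh }
  have hKtop : K = ⊤ := by
    by_contra hK
    refine hnotin h0 hh01 K hK fun c hc => ?_
    by_cases hcP : c ∈ zpowers h0
    · exact Or.inl hcP
    · exact Or.inr ((hBm c).2 ⟨(hTm c).2 hc, hcP⟩)
  intro y hy
  by_contra hyT
  refine hnotin y hy (zpowers h0) hP fun c hc => ?_
  by_contra hcP
  rcases (hKtop.ge (mem_top c) : c ∈ K) with hh | hh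
  · exact hcP hh
  · obtain ⟨s, hs, es⟩ := hc
    obtain ⟨t, ht, et⟩ := (hTm c).1 ((hBm c).1 hh).1
    refine hyT ⟨s⁻¹ * t, by rw [mul_smul, ht, inv_smul_eq_iff, hs], ?_⟩
    rw [← hcomp, et, ← es, hcomp, inv_mul_cancel, hrid]

theorem main [Finite G] [Fintype Ω] [MulAction.IsPretransitive G Ω] [FaithfulSMul G Ω] (p m : ℕ) [hp : Fact p.Prime] (hm : 2 ≤ m)
    (hΩ : Fintype.card Ω = p ^ m) (h2 : ¬ MulAction.IsMultiplyPretransitive G Ω 2) (g : G) (hg : orderOf g = p ^ m) :
    ¬ MulAction.IsPreprimitive G Ω ∧ ¬ MulAction.IsPretransitive (Subgroup.normalClosure ({g ^ (p ^ (m - 1))} : Set G)) Ω := by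
  classical
  set C := zpowers g with hC
  have hcard : Nat.card C = p ^ m := by rw [Nat.card_zpowers, hg]
  have hcomm : ∀ x y : C, x * y = y * x := fun x y => (IsCyclic.commGroup (α := C)).mul_comm x y
  letI : CommGroup C := { (inferInstance : Group C) with mul_comm := hcomm }
  set h0 := g ^ p ^ (m - 1) with hh0
  have hh0o : orderOf h0 = p := by
    rw [hh0, orderOf_pow_of_dvd (pow_pos hp.out.pos _).ne' (hg ▸ pow_dvd_pow p (Nat.sub_le m 1)), hg,
      Nat.pow_div (Nat.sub_le m 1) hp.out.pos, show m - (m - 1) = 1 by omega, pow_one]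
  have hh01 : h0 ≠ 1 := fun e => hp.out.ne_one (by rw [← hh0o, e, orderOf_one])
  have hsub : ∀ U : Subgroup G, U ≤ C → U ≠ ⊥ → h0 ∈ U := by
    intro U hU hne
    obtain ⟨k, -, hk⟩ := (Nat.dvd_prime_pow hp.out).1 (hcard ▸ card_dvd_of_le hU)
    have hk0 : k ≠ 0 := fun e => hne (Subgroup.card_eq_one.1 (by rw [hk, e, pow_zero]))
    obtain ⟨u, hu⟩ := exists_prime_orderOf_dvd_card' (G := U) p (hk ▸ dvd_pow_self p hk0)
    rw [← Subgroup.orderOf_coe] at hu
    haveI : Fintype C := Fintype.ofFinite _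
    have hle := IsCyclic.card_pow_eq_one_le (α := C) (n := p) hp.out.pos
    have heq : (zpowers (u : G)).subgroupOf C = (zpowers h0).subgroupOf C := by
      have key : ∀ w : G, ∀ hw : w ∈ C, orderOf w = p → (zpowers w).subgroupOf C = (powMonoidHom p : C →* C).ker := by
        intro w hw hwo
        refine eq_of_le_of_card_ge ?_ ?_
        · intro c hc
          show c ^ p = 1
          refine Subtype.ext ?_
          rw [SubmonoidClass.coe_pow]
          obtain ⟨i, hi⟩ := hc
          simp only at hi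
          rw [show (c : G) = w ^ i from hi.symm, ← zpow_natCast, ← zpow_mul, mul_comm, zpow_mul, zpow_natCast, ← hwo, pow_orderOf_eq_one, one_zpow]
          rfl
        · rw [Nat.card_congr (subgroupOfEquivOfLe (zpowers_le.2 hw)).toEquiv, Nat.card_zpowers, hwo]
          rw [← Fintype.card_subtype, ← Nat.card_eq_fintype_card] at hle
          exact hle
      rw [key u (hU u.2) hu, key h0 (pow_mem (mem_zpowers g) _) hh0o]
    have h1 : (⟨h0, pow_mem (mem_zpowers g) _⟩ : C) ∈ (zpowers (u : G)).subgroupOf C := by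
      rw [heq]; exact mem_zpowers h0
    exact zpowers_le.2 u.2 h1
  obtain ⟨a, ha⟩ : ∃ a : Ω, h0 • a ≠ a := by
    by_contra hno
    push Not at hno
    exact hh01 (eq_of_smul_eq_smul (α := Ω) fun x => by rw [hno x, one_smul])
  have hreg : Reg C a := by
    refine ⟨?_, hcomm⟩
    haveI : Fintype C := Fintype.ofFinite _
    rw [Fintype.bijective_iff_injective_and_card, ← Nat.card_eq_fintype_card, hcard, hΩ]
    refine ⟨fun x y e => ?_, rfl⟩
    by_contra hne
    have hfix : ((x⁻¹ * y : C) : G) • a = a := by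
      rw [Subgroup.coe_mul, mul_smul, show (y : G) • a = (x : G) • a from e.symm, Subgroup.coe_inv, inv_smul_smul]
    have h1 := hsub (C ⊓ MulAction.stabilizer G a) inf_le_left (fun e' => hne (by
      have : ((x⁻¹ * y : C) : G) ∈ C ⊓ MulAction.stabilizer G a := ⟨(x⁻¹ * y).2, hfix⟩
      rw [e', mem_bot] at this
      exact inv_mul_eq_one.1 (Subtype.ext this)))
    exact ha h1.2
  have hnp : ¬ MulAction.IsPreprimitive G Ω := by
    intro hprim
    refine h2 (MulAction.is_two_pretransitive_iff.2 fun {b c d e} hbc hde => ?_)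
    obtain ⟨g1, hg1⟩ := MulAction.exists_smul_eq G b a
    obtain ⟨g2, hg2⟩ := MulAction.exists_smul_eq G d a
    obtain ⟨x, hx⟩ := hreg.bij.2 (g1 • c)
    obtain ⟨y, hy⟩ := hreg.bij.2 (g2 • e)
    have hx1 : x ≠ 1 := fun h => hbc (MulAction.injective g1 (by
      show g1 • b = g1 • c
      rw [hg1, ← hx, h]; simp))
    have hy1 : y ≠ 1 := fun h => hde (MulAction.injective g2 (by
      show g2 • d = g2 • e
      rw [hg2, ← hy, h]; simp))
    obtain ⟨s, hs, es⟩ := two_transitive p m hm g hg hreg hprim x hx1 y hy1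
    refine ⟨g2⁻¹ * s * g1, ?_, ?_⟩
    · rw [mul_smul, mul_smul, hg1, hs, inv_smul_eq_iff, hg2]
    · rw [mul_smul, mul_smul, ← hx, inv_smul_eq_iff, ← hy, ← es]
      exact (rho_spec hreg s x).symm
  refine ⟨hnp, ?_⟩
  -- a nontrivial block
  obtain ⟨B, haB, hBb, hBn⟩ : ∃ B : Set Ω, a ∈ B ∧ MulAction.IsBlock G B ∧ ¬ MulAction.IsTrivialBlock B := by
    by_contra hno
    push Not at hno
    exact hnp (MulAction.IsPreprimitive.of_isTrivialBlock_base a fun {B} hB hb => hno B hB hb)
  rw [MulAction.IsTrivialBlock, not_or] at hBn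
  have hh0B : ∀ k : G, h0 • (k • B) = k • B := by
    have h1 : h0 • B = B := by
      have hne : C ⊓ MulAction.stabilizer G B ≠ ⊥ := by
        intro e
        obtain ⟨b, hb, hba⟩ : ∃ b ∈ B, b ≠ a := by
          by_contra hno
          push Not at hno
          exact hBn.1 fun x hx y hy => (hno x hx).trans (hno y hy).symm
        obtain ⟨c, hc⟩ := hreg.bij.2 b
        have hcB : (c : G) • B = B := (MulAction.isBlock_iff_smul_eq_of_nonempty.1 hBb) ⟨b, ⟨a, haB, hc⟩, hb⟩
        have : (c : G) ∈ C ⊓ MulAction.stabilizer G B := ⟨c.2, hcB⟩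
        rw [e, mem_bot] at this
        exact hba (by rw [← hc]; show (c : G) • a = a; rw [this, one_smul])
      exact (hsub _ inf_le_left hne).2
    intro k
    obtain ⟨c, hc⟩ := hreg.bij.2 (k • a)
    have e : k • B = (c : G) • B := by
      by_contra hne
      exact (Set.disjoint_left.1 (hBb hne)) ⟨a, haB, rfl⟩ ⟨a, haB, hc⟩
    rw [e, ← mul_smul, show h0 * (c : G) = (c : G) * h0 from
      congrArg Subtype.val (hcomm ⟨h0, pow_mem (mem_zpowers g) _⟩ c), mul_smul, h1]
  intro htr
  haveI := htr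
  have hle : Subgroup.normalClosure ({h0} : Set G) ≤ MulAction.stabilizer G B := by
    rw [Subgroup.normalClosure, closure_le]
    intro w hw
    obtain ⟨z, hz, hzw⟩ := Group.mem_conjugatesOfSet_iff.1 hw
    rw [Set.mem_singleton_iff] at hz
    subst hz
    obtain ⟨k, rfl⟩ := isConj_iff.1 hzw
    show (k * h0 * k⁻¹) • B = B
    rw [mul_smul, mul_smul, hh0B, smul_inv_smul]
  refine hBn.2 (Set.eq_univ_of_forall fun x => ?_)
  obtain ⟨n, hn⟩ := MulAction.exists_smul_eq (Subgroup.normalClosure ({h0} : Set G)) a x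
  rw [← hn, ← (hle n.2 : (n : G) • B = B)]
  exact ⟨a, haB, rfl⟩

end Cfsg.Lib.Solv.SchurCyclic
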