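import Mathlib

/-!
# Wielandt's count of subgroups of prime power order
-/

set_option autoImplicit false
set_option linter.style.haveILetI false

namespace Cfsg.Lib.Solv.SubgroupCount

open scoped Pointwise
open MulAction

universe u

variable (G : Type u) [Group G]

/-- The subsets of a given size. -/
abbrev KSubset (k : ℕ) : Type u := {s : Set G // s.ncard = k}

variable {G}

@[implicit_reducible]
noncomputable def ksAction (k : ℕ) : MulAction G (KSubset G k) where
  smul g s := ⟨g • s.1, by rw [← Set.image_smul, Set.ncard_image_of_injective _ (MulAction.injective g)]; exact s.2⟩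
  one_smul s := Subtype.ext (one_smul G s.1)
  mul_smul g h s := Subtype.ext (mul_smul g h s.1)

attribute [local instance] ksAction

theorem coe_smul' {k : ℕ} (g : G) (s : KSubset G k) : (g • s : KSubset G k).1 = g • s.1 := rfl

theorem mem_stabilizer' {k : ℕ} (g : G) (s : KSubset G k) : g ∈ stabilizer G s ↔ g • s.1 = s.1 := by
  rw [mem_stabilizer_iff, Subtype.ext_iff, coe_smul']

theorem card_stabilizer_dvd [Finite G] {k : ℕ} (s : KSubset G k) :
    Nat.card (stabilizer G s) ∣ k := by
  set U := stabilizer G s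
  have h1 : (s.1)⁻¹ * (U : Set G) = (s.1)⁻¹ := by
    refine Set.Subset.antisymm ?_ fun x hx => ⟨x, hx, 1, U.one_mem, mul_one x⟩
    rintro _ ⟨x, hx, u, hu, rfl⟩
    rw [Set.mem_inv] at hx ⊢
    rw [mul_inv_rev]
    have h2 := Set.smul_mem_smul_set (a := u⁻¹) hx
    rwa [(mem_stabilizer' u⁻¹ s).1 (U.inv_mem hu)] at h2
  have h3 := Subgroup.card_mul_eq_card_subgroup_mul_card_quotient U (s.1)⁻¹
  rw [h1, Nat.card_coe_set_eq, Set.ncard_inv, s.2] at h3
  exact Dvd.intro _ h3.symm

/-- The binomial coefficient counts the subgroups modulo `m * p`. -/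
theorem choose_modEq [Finite G] {p β : ℕ} (hp : p.Prime) {m : ℕ} (hm : Nat.card G = p ^ β * m) :
    (Nat.card G).choose (p ^ β) ≡ m * Nat.card {H : Subgroup G // Nat.card H = p ^ β} [MOD m * p] := by
  classical
  haveI := Fintype.ofFinite G
  have hcard : Nat.card (KSubset G (p ^ β)) = (Nat.card G).choose (p ^ β) := by
    rw [Nat.card_eq_fintype_card, Nat.card_eq_fintype_card (α := G), ← Fintype.card_finset_len]
    exact Fintype.card_congr
      { toFun := fun s => ⟨s.1.toFinset, by rw [← Set.ncard_eq_toFinset_card']; exact s.2⟩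
        invFun := fun s => ⟨(s.1 : Set G), by rw [Set.ncard_coe_finset]; exact s.2⟩
        left_inv := fun s => Subtype.ext (by simp)
        right_inv := fun s => Subtype.ext (by simp) }
  haveI : Fintype (Quotient (orbitRel G (KSubset G (p ^ β)))) := Fintype.ofFinite _
  let P : Quotient (orbitRel G (KSubset G (p ^ β))) → Prop := fun ω =>
    Nat.card (stabilizer G ω.out) = p ^ β
  have hterm : ∀ ω, Nat.card (orbit G (Quotient.out ω : KSubset G (p ^ β)))
      ≡ (if P ω then m else 0) [MOD m * p] := by
    intro ω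
    rw [Nat.card_congr (orbitEquivQuotientStabilizer G _), ← Subgroup.index_eq_card]
    obtain ⟨j, hj, hjc⟩ := (Nat.dvd_prime_pow hp).1 (card_stabilizer_dvd (ω.out : KSubset G (p ^ β)))
    have h := Subgroup.card_mul_index (stabilizer G (ω.out : KSubset G (p ^ β)))
    rw [hjc, hm] at h
    obtain ⟨d, hd⟩ := Nat.exists_eq_add_of_le hj
    have e : p ^ β * m = p ^ j * (p ^ d * m) := by rw [hd, pow_add, mul_assoc]
    rw [Nat.eq_of_mul_eq_mul_left (pow_pos hp.pos j) (h.trans e)]
    simp only [P, hjc]
    rcases d with _ | d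
    · rw [if_pos (by rw [hd, add_zero]), pow_zero, one_mul]
    · rw [if_neg (fun e => by have := Nat.pow_right_injective hp.two_le e; omega)]
      exact Nat.modEq_zero_iff_dvd.2 ⟨p ^ d, by rw [pow_succ]; ring⟩
  have hsum : Nat.card (KSubset G (p ^ β))
      = ∑ ω : Quotient (orbitRel G (KSubset G (p ^ β))), Nat.card (orbit G (Quotient.out ω : KSubset G (p ^ β))) := by
    rw [Nat.card_congr (selfEquivSigmaOrbits G (KSubset G (p ^ β))), Nat.card_sigma]
  have hbij : Nat.card {H : Subgroup G // Nat.card H = p ^ β} = (Finset.univ.filter P).card := by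
    rw [← Fintype.card_subtype, ← Nat.card_eq_fintype_card]
    let s₀ : {H : Subgroup G // Nat.card H = p ^ β} → KSubset G (p ^ β) := fun H =>
      ⟨(H.1 : Set G), by rw [← Nat.card_coe_set_eq]; exact H.2⟩
    have hstab : ∀ H, stabilizer G (s₀ H) = H.1 := by
      intro H
      ext g
      rw [mem_stabilizer']
      constructor
      · intro hg
        have : g • (1 : G) ∈ g • (H.1 : Set G) := Set.smul_mem_smul_set H.1.one_mem
        rw [show g • (H.1 : Set G) = (H.1 : Set G) from hg, smul_eq_mul, mul_one] at this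
        exact this
      · exact fun hg => smul_coe_set hg
    refine Nat.card_eq_of_bijective (fun H => ⟨⟦s₀ H⟧, ?_⟩) ⟨?_, ?_⟩
    · show Nat.card (stabilizer G (Quotient.out (⟦s₀ H⟧ : Quotient (orbitRel G _)))) = p ^ β
      obtain ⟨g, hg⟩ := (Quotient.mk_out (s := orbitRel G _) (s₀ H))
      have hg' : (⟦s₀ H⟧ : Quotient (orbitRel G _)).out = g • s₀ H := hg.symm
      rw [hg', stabilizer_smul_eq_stabilizer_map_conj, Subgroup.card_map_of_injective (MulAut.conj g).injective,
        hstab]
      exact H.2
    · intro H K h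
      obtain ⟨g, hg⟩ := Quotient.exact (congrArg Subtype.val h)
      have hg' : g • (K.1 : Set G) = (H.1 : Set G) := congrArg Subtype.val hg
      have h1 : (1 : G) ∈ g • (K.1 : Set G) := hg' ▸ H.1.one_mem
      obtain ⟨k, hk, e⟩ := h1
      have hgK : g ∈ K.1 := by
        have : g = k⁻¹ := eq_inv_of_mul_eq_one_left e
        rw [this]; exact K.1.inv_mem hk
      rw [smul_coe_set hgK] at hg'
      exact Subtype.ext (SetLike.coe_injective hg'.symm)
    · rintro ⟨ω, hω⟩
      set s : KSubset G (p ^ β) := ω.out with hs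
      set U := stabilizer G s
      obtain ⟨x, hx⟩ : s.1.Nonempty :=
        (Set.ncard_pos (Set.toFinite _)).1 (by rw [s.2]; exact pow_pos hp.pos β)
      have hsub : (fun u => u * x) '' (U : Set G) = s.1 := by
        refine Set.eq_of_subset_of_ncard_le ?_ ?_ (Set.toFinite _)
        · rintro _ ⟨u, hu, rfl⟩
          have h2 := Set.smul_mem_smul_set (a := u) hx
          rwa [(mem_stabilizer' u s).1 hu] at h2
        · rw [Set.ncard_image_of_injective _ (mul_left_injective x), s.2, ← Nat.card_coe_set_eq]
          exact hω.ge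
      have hmem : ∀ y, y ∈ U.map (MulAut.conj x⁻¹).toMonoidHom ↔ x * y ∈ s.1 := by
        intro y
        rw [← hsub]
        constructor
        · rintro ⟨u, hu, rfl⟩
          exact ⟨u, hu, by simp [MulAut.conj_apply, mul_assoc]⟩
        · rintro ⟨u, hu, e⟩
          refine ⟨u, hu, ?_⟩
          rw [MulEquiv.coe_toMonoidHom, MulAut.conj_apply, inv_inv, mul_assoc,
            show u * x = x * y from e, inv_mul_cancel_left]
      have hHc : Nat.card ↥(U.map (MulAut.conj x⁻¹).toMonoidHom) = p ^ β := by
        rw [Subgroup.card_map_of_injective (MulAut.conj x⁻¹).injective]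
        exact hω
      refine ⟨⟨_, hHc⟩, Subtype.ext ?_⟩
      show ⟦s₀ ⟨_, hHc⟩⟧ = ω
      rw [← Quotient.out_eq ω]
      refine Quotient.sound ⟨x⁻¹, Subtype.ext ?_⟩
      rw [coe_smul']
      ext y
      rw [Set.mem_inv_smul_set_iff, smul_eq_mul]
      exact (hmem y).symm
  have e : m * (Finset.univ.filter P).card = ∑ ω, if P ω then m else 0 := by
    rw [← Finset.sum_filter, Finset.sum_const, smul_eq_mul, mul_comm]
  rw [← hcard, hsum, hbij, e]
  exact Nat.ModEq.sum fun ω _ => hterm ω

end Cfsg.Lib.Solv.SubgroupCount
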