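import Mathlib
import Cfsg.Agent.Lib.Solv.Subnormal

/-!
Extending a subnormally generated subgroup by one member of a conjugation invariant family.
-/

set_option autoImplicit false

open scoped Pointwise

namespace Cfsg.Lib.Solv

open Subgroup

universe u

variable {G : Type u} [Group G]

theorem exists_normalizing_member [Finite G] (W : Subgroup G) (F : Set (Subgroup G))
    (hFW : ∀ B ∈ F, B ≤ W) (hFinv : ∀ w ∈ W, ∀ B ∈ F, MulAut.conj w • B ∈ F)
    (T : Subgroup G) (hT : T = sSup {B ∈ F | B ≤ T}) (hsn : (T.subgroupOf W).IsSubnormal)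
    (hprop : ∃ B ∈ F, ¬ B ≤ T) :
    ∃ B ∈ F, ¬ B ≤ T ∧ B ≤ normalizer (T : Set G) := by
  have hTW : T ≤ W := by
    rw [hT]
    exact sSup_le fun B hB => hFW B hB.1
  by_cases hn : (T.subgroupOf W).Normal
  · obtain ⟨B, hB, hBT⟩ := hprop
    exact ⟨B, hB, hBT, (hFW B hB).trans ((normal_subgroupOf_iff_le_normalizer hTW).1 hn)⟩
  obtain ⟨⟨x, hxW⟩, hx, hxT⟩ := exists_conj_le_normalizer hsn hn
  have hxT' : MulAut.conj x • T ≤ normalizer (T : Set G) := by
    have h := map_mono (f := W.subtype) hxT
    rw [map_conj_smul, subgroupOf_map_subtype, inf_eq_left.2 hTW] at h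
    refine h.trans ((le_normalizer_map _).trans ?_)
    rw [subgroupOf_map_subtype, inf_eq_left.2 hTW]
  by_contra hcon
  push_neg at hcon
  have key : MulAut.conj x • T ≤ T := by
    conv_lhs => rw [hT]
    rw [conj_smul_eq_map, map_le_iff_le_comap]
    refine sSup_le fun B hB => ?_
    rw [← map_le_iff_le_comap, ← conj_smul_eq_map]
    by_contra hnle
    exact hcon _ (hFinv x hxW B hB.1) hnle ((smul_le_smul_left _ hB.2).trans hxT')
  apply hx
  rw [← conj_smul_eq_self_iff]
  apply map_injective W.subtype_injective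
  rw [map_conj_smul, subgroupOf_map_subtype, inf_eq_left.2 hTW]
  exact eq_of_le_of_card_ge key (card_conj_smul x T).ge

theorem sSup_isSubnormal [Finite G] (W : Subgroup G) (F : Set (Subgroup G))
    (hFW : ∀ B ∈ F, B ≤ W) (hsn : ∀ B ∈ F, (B.subgroupOf W).IsSubnormal) :
    ((sSup F).subgroupOf W).IsSubnormal := by
  suffices h : ∀ F' : Set (Subgroup G), F'.Finite → F' ⊆ F → ((sSup F').subgroupOf W).IsSubnormal by
    exact h F (Set.toFinite F) subset_rfl
  intro F' hfin
  induction F', hfin using Set.Finite.induction_on with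
  | empty =>
    intro _
    rw [sSup_empty, bot_subgroupOf]
    exact Subgroup.Normal.isSubnormal inferInstance
  | @insert B F' _ _ ih =>
    intro hsub
    rw [sSup_insert, subgroupOf_sup (hFW B (hsub (Set.mem_insert B F')))
      (sSup_le fun C hC => hFW C (hsub (Set.mem_insert_of_mem B hC)))]
    exact sup_isSubnormal (hsn B (hsub (Set.mem_insert B F')))
      (ih (fun C hC => hsub (Set.mem_insert_of_mem B hC)))

end Cfsg.Lib.Solv
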