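import Mathlib
import Cfsg.Prelude.Def_OddOrderLocal
import Cfsg.Agent.Lib.Solv.Cores
import Cfsg.Agent.Lib.Solv.Subnormal
import Cfsg.Agent.Lib.TwoFus.CyclicSylow

/-!
Elementary consequences of type-P data.
-/

set_option autoImplicit false
set_option linter.unusedSectionVars false
set_option linter.deprecated false
set_option linter.style.haveILetI false

namespace Cfsg.Lib.TypeP

open Subgroup Cfsg
open scoped commutatorElement

universe u

variable {G : Type u} [Group G] [Finite G]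

theorem fittingHall_spec :
    Group.IsNilpotent ↥(fittingHall G) ∧ (Nat.card ↥(fittingHall G)).Coprime (fittingHall G).index := by
  refine Solv.sSup_normal_induction
    (fun N : Subgroup G => Group.IsNilpotent N ∧ (Nat.card N).Coprime N.index) ⟨inferInstance, ?_⟩ ?_
  · rw [card_bot]; exact Nat.coprime_one_left _
  · intro H K hHn hKn hH hK
    haveI := hHn
    haveI := hKn
    refine ⟨Solv.isNilpotent_of_le (sup_le (Solv.le_fitting hHn hH.1) (Solv.le_fitting hKn hK.1))
      Solv.fitting_isNilpotent, Nat.coprime_of_dvd fun q hq hd hi => ?_⟩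
    rcases hq.dvd_mul.1 (hd.trans (Solv.card_sup_dvd_mul H K)) with h | h
    · exact Nat.not_coprime_of_dvd_of_dvd hq.one_lt h (hi.trans (index_dvd_of_le le_sup_left)) hH.2
    · exact Nat.not_coprime_of_dvd_of_dvd hq.one_lt h (hi.trans (index_dvd_of_le le_sup_right)) hK.2

theorem commute_of_coprime {F : Subgroup G} (hF : Group.IsNilpotent ↥F) {x y : G} (hx : x ∈ F)
    (hy : y ∈ F) (h : (orderOf x).Coprime (orderOf y)) : x * y = y * x := by
  haveI := hF
  have key : ∀ (z : ↥F) (π : Set ℕ), (∀ q : ℕ, q.Prime → q ∣ orderOf z → q ∈ π) → z ∈ piCore π ↥F :=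
    fun z π hz => Solv.subnormal_pi_le_piCore (Solv.isSubnormal_of_nilpotent (zpowers z))
      (fun q hq hd => hz q hq (by rwa [Nat.card_zpowers] at hd)) (mem_zpowers z)
  set a : ↥F := ⟨x, hx⟩
  set b : ↥F := ⟨y, hy⟩
  have hab : (orderOf a).Coprime (orderOf b) := by rwa [Subgroup.orderOf_mk, Subgroup.orderOf_mk]
  have h1 := key a {q | q ∣ orderOf a} fun q _ hd => hd
  have h2 := key b {q | ¬ q ∣ orderOf a} fun q hq hd hd' =>
    Nat.not_coprime_of_dvd_of_dvd hq.one_lt hd' hd hab
  have hbot : piCore {q | q ∣ orderOf a} ↥F ⊓ piCore {q | ¬ q ∣ orderOf a} ↥F = ⊥ := by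
    refine inf_eq_bot_of_coprime (Nat.coprime_of_dvd fun q hq hd hd' => ?_)
    exact Solv.piCore_primes _ q hq hd' (Solv.piCore_primes _ q hq hd)
  have := Subgroup.commute_of_normal_of_disjoint _ _ inferInstance inferInstance
    (disjoint_iff.2 hbot) a b h1 h2
  exact congrArg Subtype.val this.eq

variable {M W₁ U W₂ : Subgroup G}

theorem fitting_inf_le (hP : IsTypePWith M W₁ U W₂) :
    fittingOf M ⊓ U ≤ centralizer (fittingHallOf M : Set G) := by
  rintro u ⟨huF, huU⟩
  rw [mem_centralizer_iff]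
  intro h hh
  set H := fittingHallOf M
  have hFn : Group.IsNilpotent ↥(fittingOf M) := by
    have := Solv.fitting_isNilpotent (G := ↥M)
    exact Group.nilpotent_of_mulEquiv (equivMapOfInjective _ _ M.subtype_injective)
  refine commute_of_coprime hFn (hP.fitting_eq.le (mem_sup_left hh)) huF ?_
  refine Nat.Coprime.coprime_dvd_left (Subgroup.orderOf_dvd_natCard H hh)
    (Nat.Coprime.coprime_dvd_right (Subgroup.orderOf_dvd_natCard U huU) ?_)
  -- `U` has order prime to `H`
  have hHM : H ≤ M := map_subtype_le _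
  have hM'M : ⁅M, M⁆ ≤ M := commutator_le_self M
  have hc : (Nat.card H).Coprime (H.relIndex M) := by
    have h1 := (fittingHall_spec (G := ↥M)).2
    have h2 : H.relIndex M = (fittingHall ↥M).index := by
      rw [relIndex, show H.subgroupOf M = fittingHall ↥M from
        comap_map_eq_self_of_injective M.subtype_injective _]
    rw [h2]
    show (Nat.card ↥((fittingHall ↥M).map M.subtype)).Coprime _
    rwa [card_map_of_injective M.subtype_injective]
  obtain ⟨-, hUM', hinf, hprod⟩ := hP.U_compl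
  refine Nat.Coprime.coprime_dvd_right ?_ hc
  have h3 : H.relIndex U ∣ H.relIndex M := by
    haveI : (H.subgroupOf M).Normal := by
      rw [show H.subgroupOf M = fittingHall ↥M from comap_map_eq_self_of_injective M.subtype_injective _]
      infer_instance
    exact relIndex_dvd_of_normal_le (hUM'.trans hM'M)
  rwa [← inf_relIndex_right, hinf, relIndex_bot_left] at h3
where
  relIndex_dvd_of_normal_le {H U M : Subgroup G} [(H.subgroupOf M).Normal] (hU : U ≤ M) :
      H.relIndex U ∣ H.relIndex M := by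
    have h1 := relIndex_dvd_index_of_normal (H.subgroupOf M) (U.subgroupOf M)
    rwa [relIndex_subgroupOf hU] at h1

/-- S1387. -/
theorem fittingOf_eq (hP : IsTypePWith M W₁ U W₂) :
    fittingOf M = fittingHallOf M ⊔ (U ⊓ centralizer (fittingHallOf M : Set G)) := by
  refine le_antisymm (fun x hx => ?_) ?_
  · obtain ⟨h, hh, u, hu, rfl⟩ := hP.U_compl.2.2.2 x (hP.fitting_le hx)
    refine mul_mem (mem_sup_left hh) (mem_sup_right ⟨hu, fitting_inf_le hP ⟨?_, hu⟩⟩)
    have := mul_mem (inv_mem (hP.fitting_eq.le (mem_sup_left hh))) hx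
    simpa using this
  · rw [← hP.fitting_eq]
    exact sup_le_sup_left (inf_le_inf_right _ (hP.U_compl.2.1.trans (commutator_le_self M))) _

/-- S1388. -/
theorem derived_centralizes (hP : IsTypePWith M W₁ U W₂) :
    ⁅U, U⁆ ≤ centralizer (fittingHallOf M : Set G) ∧
      (U ≠ ⊥ → ¬ U ≤ centralizer (fittingHallOf M : Set G)) := by
  refine ⟨le_trans (le_inf ?_ (commutator_le_self U)) (fitting_inf_le hP), fun hU hle => hU ?_⟩
  · rw [← hP.fitting_eq]
    exact (commutator_mono hP.U_compl.2.1 hP.U_compl.2.1).trans hP.derived_two_le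
  -- otherwise `M'` is a normal nilpotent Hall subgroup
  set D := ⁅M, M⁆ with hD
  have hDM : D ≤ M := commutator_le_self M
  have hDF : D = fittingOf M := by
    refine le_antisymm ?_ hP.fitting_le
    intro x hx
    obtain ⟨h, hh, u, hu, rfl⟩ := hP.U_compl.2.2.2 x hx
    rw [fittingOf_eq hP]
    exact mul_mem (mem_sup_left hh) (mem_sup_right ⟨hu, hle hu⟩)
  have hDn : (D.subgroupOf M).Normal := normal_subgroupOf_of_le_normalizer (by
    rw [hD]; exact le_normalizer_commutator_self)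
  have hnil : Group.IsNilpotent ↥(D.subgroupOf M) := by
    rw [hDF, fittingOf, show ((fittingSubgroup ↥M).map M.subtype).subgroupOf M = fittingSubgroup ↥M from
      comap_map_eq_self_of_injective M.subtype_injective _]
    exact Solv.fitting_isNilpotent
  have hhall : (Nat.card ↥(D.subgroupOf M)).Coprime (D.subgroupOf M).index := by
    obtain ⟨-, hW, hinf, hprod⟩ := hP.W₁_compl
    have hcompl : IsComplement' (D.subgroupOf M) (W₁.subgroupOf M) := by
      refine isComplement'_of_disjoint_and_mul_eq_univ (disjoint_iff.2 ?_) ?_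
      · rw [eq_bot_iff]
        rintro y ⟨h1, h2⟩
        exact mem_bot.2 (Subtype.ext (mem_bot.1 (hinf ▸ Subgroup.mem_inf.2 ⟨h1, h2⟩)))
      · refine Set.eq_univ_of_forall fun y => ?_
        obtain ⟨a, ha, b, hb, hab⟩ := hprod y y.2
        exact ⟨⟨a, hDM ha⟩, ha, ⟨b, hW hb⟩, hb, Subtype.ext hab.symm⟩
    have e1 := hcompl.symm.index_eq_card
    have e2 := hcompl.index_eq_card
    have h0 := hP.W₁_hall
    rw [← Nat.card_congr (subgroupOfEquivOfLe hW).toEquiv, relIndex, e2] at h0
    rw [e1]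
    exact h0.symm
  have hle2 : D ≤ fittingHallOf M := by
    have h1 : D.subgroupOf M ≤ fittingHall ↥M := le_sSup (a := D.subgroupOf M) ⟨hDn, hnil, hhall⟩
    have h2 := map_mono (f := M.subtype) h1
    rwa [subgroupOf_map_subtype, inf_eq_left.2 hDM] at h2
  refine le_bot_iff.1 ?_
  rw [← hP.U_compl.2.2.1]
  exact le_inf (hP.U_compl.2.1.trans hle2) le_rfl
where
  le_normalizer_commutator_self {M : Subgroup G} : M ≤ normalizer ((⁅M, M⁆ : Subgroup G) : Set G) := by
    intro g hg
    rw [mem_normalizer_iff]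
    have hmap : ∀ k ∈ M, ⁅M, M⁆.map (MulAut.conj k).toMonoidHom ≤ ⁅M, M⁆ := by
      intro k hk
      rw [map_commutator]
      exact commutator_mono (map_conj_le hk) (map_conj_le hk)
    intro x
    refine ⟨fun hx => hmap g hg ⟨x, hx, rfl⟩, fun hx => ?_⟩
    exact hmap g⁻¹ (inv_mem hg) ⟨_, hx, by simp [mul_assoc]⟩
  map_conj_le {M : Subgroup G} {k : G} (hk : k ∈ M) : M.map (MulAut.conj k).toMonoidHom ≤ M := by
    rintro _ ⟨x, hx, rfl⟩
    exact mul_mem (mul_mem hk hx) (inv_mem hk)

/-- S1386. -/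
theorem W₂_unique (W₂' : Subgroup G) (S : Subgroup G) (hW : IsSelfNormalizingCyclic W₁ W₂) (hW₂S : W₂ ≤ S)
    (hP : IsTypePWith S W₁ U W₂') : W₂' = W₂ := by
  obtain ⟨hW1, hW2, hinf, hcomm, hcyc, hnorm⟩ := hW
  obtain ⟨-, -, hinf', hcomm', hcyc', -⟩ := hP.selfNormalizing
  obtain ⟨x, hx, hx1⟩ : ∃ x ∈ W₁, x ≠ 1 := by
    by_contra h
    push Not at h
    exact hW1 ((Subgroup.eq_bot_iff_forall _).2 h)
  have h1 : W₂ ≤ W₁ ⊔ W₂' := by
    intro w hw
    obtain ⟨a, ha, b, hb, rfl⟩ := hP.W₁_compl.2.2.2 w (hW₂S hw)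
    refine mul_mem (mem_sup_right ?_) (mem_sup_left hb)
    rw [← hP.W₂_centralizer x hx hx1]
    refine ⟨ha, mem_centralizer_singleton_iff.2 ?_⟩
    have hxw := hcomm x hx _ hw
    have hxb : x * b = b * x :=
      congrArg Subtype.val ((hcyc.commGroup).mul_comm (⟨x, mem_sup_left hx⟩ : ↥(W₁ ⊔ W₂)) ⟨b, mem_sup_left hb⟩)
    calc a * x = a * (x * b) * b⁻¹ := by group
      _ = (a * b * x) * b⁻¹ := by rw [hxb]; group
      _ = (x * (a * b)) * b⁻¹ := by rw [hxw]
      _ = x * a := by group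
  obtain ⟨y, hy, hy1⟩ : ∃ y ∈ W₂, y ≠ 1 := by
    by_contra h
    push Not at h
    exact hW2 ((Subgroup.eq_bot_iff_forall _).2 h)
  have hcab : ∀ {W : Subgroup G}, IsCyclic ↥W → ∀ {s t : G}, s ∈ W → t ∈ W → s * t = t * s :=
    fun {W} hW {s t} hs ht => congrArg Subtype.val ((hW.commGroup).mul_comm (⟨s, hs⟩ : ↥W) ⟨t, ht⟩)
  have heq : W₁ ⊔ W₂ = W₁ ⊔ W₂' := by
    refine le_antisymm (sup_le le_sup_left h1) (sup_le le_sup_left fun t ht => ?_)
    have hxy : x * y ∈ ((W₁ ⊔ W₂ : Subgroup G) : Set G) \ ((W₁ : Set G) ∪ W₂) := by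
      refine ⟨mul_mem (mem_sup_left hx) (mem_sup_right hy), fun h => h.elim (fun h => hy1 ?_) fun h => hx1 ?_⟩
      · exact mem_bot.1 (hinf ▸ Subgroup.mem_inf.2 ⟨(Subgroup.mul_mem_cancel_left _ hx).1 h, hy⟩)
      · exact mem_bot.1 (hinf ▸ Subgroup.mem_inf.2 ⟨hx, (Subgroup.mul_mem_cancel_right _ hy).1 h⟩)
    rw [← hnorm {x * y} (Set.singleton_subset_iff.2 hxy) (Set.singleton_nonempty _)]
    have h2 : t * (x * y) = (x * y) * t :=
      hcab hcyc' (mem_sup_right ht) (mul_mem (mem_sup_left hx) (h1 hy))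
    refine centralizer_le_normalizer _ (mem_centralizer_singleton_iff.2 h2)
  -- both are complements of `W₁` in the same cyclic group
  set W := W₁ ⊔ W₂ with hWdef
  haveI := hcyc
  letI : CommGroup ↥W := hcyc.commGroup
  have hcompl : ∀ B : Subgroup G, W₁ ⊔ B = W → W₁ ⊓ B = ⊥ →
      Nat.card ↥W = Nat.card ↥(W₁.subgroupOf W) * Nat.card ↥(B.subgroupOf W) := by
    intro B hB hi
    have hc : IsComplement' (W₁.subgroupOf W) (B.subgroupOf W) := by
      refine isComplement'_of_disjoint_and_mul_eq_univ (disjoint_iff.2 ?_) ?_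
      · rw [eq_bot_iff]
        rintro z ⟨h1, h2⟩
        exact mem_bot.2 (Subtype.ext (mem_bot.1 (hi ▸ Subgroup.mem_inf.2 ⟨h1, h2⟩)))
      · refine Set.eq_univ_of_forall fun z => ?_
        have hz : z ∈ W₁.subgroupOf W ⊔ B.subgroupOf W := by
          rw [← subgroupOf_sup (hB.le.trans' le_sup_left) (hB.le.trans' le_sup_right), hB, subgroupOf_self]
          exact mem_top z
        obtain ⟨a, ha, b, hb, rfl⟩ := mem_sup.1 hz
        exact ⟨a, ha, b, hb, rfl⟩
    exact hc.card_mul.symm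
  have hcard : Nat.card ↥(W₂'.subgroupOf W) = Nat.card ↥(W₂.subgroupOf W) := by
    have e := (hcompl W₂' heq.symm hinf').symm.trans (hcompl W₂ rfl hinf)
    exact Nat.eq_of_mul_eq_mul_left Nat.card_pos e
  have h3 : W₂'.subgroupOf W = W₂.subgroupOf W :=
    TwoFus.eq_of_card_eq_cyclic hcard
  have h4 := congrArg (Subgroup.map W.subtype) h3
  rwa [subgroupOf_map_subtype, subgroupOf_map_subtype, inf_eq_left.2 (le_sup_right.trans heq.ge),
    inf_eq_left.2 le_sup_right] at h4

end Cfsg.Lib.TypeP
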