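import Mathlib
import Cfsg.Agent.Lib.Solv.ThompsonKernel

/-!
An elementary abelian group of order `p ^ 2` acting without common fixed points: elementary tools
for Ward's theorem on Fitting height.
-/

set_option autoImplicit false

namespace Cfsg.Lib.Solv.Ward

open Subgroup

variable {p : ℕ} [hp : Fact p.Prime] {A : Type*} [CommGroup A] [Finite A]

/-- The points of a group fixed by one operator. -/
def fixS (H : Type*) [Group H] {A : Type*} [Monoid A] [MulDistribMulAction A H] (a : A) : Subgroup H where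
  carrier := {x | a • x = x}
  one_mem' := smul_one a
  mul_mem' := fun {x y} (hx : a • x = x) (hy : a • y = y) => show a • (x * y) = x * y by rw [smul_mul', hx, hy]
  inv_mem' := fun {x} (hx : a • x = x) => show a • x⁻¹ = x⁻¹ by rw [smul_inv', hx]

theorem mem_fixS {H : Type*} [Group H] {A : Type*} [Monoid A] [MulDistribMulAction A H] {a : A} {x : H} :
    x ∈ fixS H a ↔ a • x = x := Iff.rfl

theorem prime_orderOf (hexp : ∀ a : A, a ^ p = 1) {a : A} (ha : a ≠ 1) : orderOf a = p :=
  orderOf_eq_prime (hexp a) ha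

theorem mem_zpowers_symm (hexp : ∀ a : A, a ^ p = 1) {a c : A} (ha : a ≠ 1) (hc : c ≠ 1)
    (h : c ∈ zpowers a) : a ∈ zpowers c := by
  have e : zpowers c = zpowers a := eq_of_le_of_card_ge (zpowers_le.2 h)
    (by rw [Nat.card_zpowers, Nat.card_zpowers, prime_orderOf hexp ha, prime_orderOf hexp hc])
  exact e ▸ mem_zpowers a

theorem exists_not_mem (hexp : ∀ a : A, a ^ p = 1) (hcard : Nat.card A = p ^ 2) (a : A) :
    ∃ b : A, b ∉ zpowers a := by
  by_contra! h
  have e : zpowers a = ⊤ := eq_top_iff.2 fun b _ => h b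
  have h1 := congrArg (fun S : Subgroup A => Nat.card S) e
  simp only [Nat.card_zpowers, card_top, hcard] at h1
  have h2 : orderOf a ≤ p := Nat.le_of_dvd hp.out.pos (orderOf_dvd_of_pow_eq_one (hexp a))
  have := hp.out.two_le
  nlinarith

theorem top_of_pair (hexp : ∀ a : A, a ^ p = 1) (hcard : Nat.card A = p ^ 2) {a b : A} (ha : a ≠ 1)
    (hb : b ∉ zpowers a) {S : Subgroup A} (haS : a ∈ S) (hbS : b ∈ S) : S = ⊤ := by
  obtain ⟨k, hk, hk'⟩ := (Nat.dvd_prime_pow hp.out).1 (hcard ▸ card_subgroup_dvd_card S)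
  have hle : zpowers a ≤ S := zpowers_le.2 haS
  have hk2 : k = 2 := by
    by_contra hne
    have hk1 : p ^ k ≤ p := (Nat.pow_le_pow_right hp.out.pos (show k ≤ 1 by omega)).trans (pow_one p).le
    have e : zpowers a = S := eq_of_le_of_card_ge hle
      (by rw [Nat.card_zpowers, prime_orderOf hexp ha, hk']; exact hk1)
    exact hb (e ▸ hbS)
  exact eq_top_of_card_eq S (by rw [hk', hk2, hcard])

section action

variable {H : Type*} [Group H] [Finite H] [MulDistribMulAction A H]

omit [Finite H] in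
theorem fixed_of_pair (hexp : ∀ a : A, a ^ p = 1) (hcard : Nat.card A = p ^ 2) {a b : A} (ha : a ≠ 1)
    (hb : b ∉ zpowers a) {x : H} (hax : a • x = x) (hbx : b • x = x) (c : A) : c • x = x := by
  have h := top_of_pair hexp hcard ha hb (S := MulAction.stabilizer A x) hax hbx
  exact MulAction.mem_stabilizer_iff.1 (h ▸ mem_top c)

theorem isPGroup_A (hexp : ∀ a : A, a ^ p = 1) : IsPGroup p A := fun a => ⟨1, by rw [pow_one, hexp a]⟩

theorem not_dvd_card (hexp : ∀ a : A, a ^ p = 1) (hfix : ∀ x : H, (∀ a : A, a • x = x) → x = 1) :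
    ¬ p ∣ Nat.card H := by
  intro hd
  have h := (isPGroup_A hexp).card_modEq_card_fixedPoints H
  have h1 : MulAction.fixedPoints A H = {1} := by
    ext x
    simp only [MulAction.mem_fixedPoints, Set.mem_singleton_iff]
    exact ⟨hfix x, fun hx a => hx ▸ smul_one a⟩
  rw [h1, Nat.card_eq_fintype_card (α := ({1} : Set H))] at h
  have h2 : 0 % p = 1 % p := by
    have h3 : Nat.card H % p = 1 % p := by simpa [Nat.ModEq] using h
    rwa [Nat.mod_eq_zero_of_dvd hd, ← Nat.zero_mod p] at h3
  rw [Nat.zero_mod, Nat.mod_eq_of_lt hp.out.one_lt] at h2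
  omega

theorem eq_one_of_pow (hp' : ¬ p ∣ Nat.card H) {x : H} (hx : x ^ p = 1) : x = 1 := by
  by_contra h
  exact hp' (orderOf_eq_prime hx h ▸ orderOf_dvd_natCard x)

/-- A coset fixed by a group of operators contains a fixed point. -/
theorem exists_fixed (hexp : ∀ a : A, a ^ p = 1) (hp' : ¬ p ∣ Nat.card H) (B : Subgroup A) (N : Subgroup H)
    (hNB : ∀ b ∈ B, ∀ x ∈ N, b • x ∈ N) {g : H} (hg : ∀ b ∈ B, g⁻¹ * (b • g) ∈ N) :
    ∃ g' : H, g⁻¹ * g' ∈ N ∧ ∀ b ∈ B, b • g' = g' := by
  let X := {x : H // g⁻¹ * x ∈ N}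
  have hmem : ∀ (b : B) (x : X), g⁻¹ * ((b : A) • x.1) ∈ N := by
    intro b x
    have h := N.mul_mem (hg b b.2) (hNB b b.2 _ x.2)
    rwa [smul_mul', smul_inv', mul_assoc, mul_inv_cancel_left] at h
  let act : MulAction B X :=
    { smul := fun b x => ⟨(b : A) • x.1, hmem b x⟩
      one_smul := fun x => Subtype.ext (one_smul A x.1)
      mul_smul := fun b c x => Subtype.ext (mul_smul (b : A) (c : A) x.1) }
  let e : X ≃ N :=
    { toFun := fun x => ⟨g⁻¹ * x.1, x.2⟩
      invFun := fun n => ⟨g * n.1, by simp⟩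
      left_inv := fun x => Subtype.ext (mul_inv_cancel_left g x.1)
      right_inv := fun n => Subtype.ext (inv_mul_cancel_left g n.1) }
  obtain ⟨x, hx⟩ := ((isPGroup_A hexp).to_subgroup B).nonempty_fixed_point_of_prime_not_dvd_card X
    (by rw [Nat.card_congr e]; exact fun h => hp' (h.trans (card_subgroup_dvd_card N)))
  exact ⟨x.1, x.2, fun b hb => congrArg Subtype.val (hx ⟨b, hb⟩)⟩

/-- No fixed points on an invariant quotient. -/
theorem mem_of_fixed_coset (hexp : ∀ a : A, a ^ p = 1) (hfix : ∀ x : H, (∀ a : A, a • x = x) → x = 1)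
    (N : Subgroup H) (hN : ∀ (a : A), ∀ x ∈ N, a • x ∈ N) {g : H} (hg : ∀ a : A, g⁻¹ * (a • g) ∈ N) :
    g ∈ N := by
  obtain ⟨g', h1, h2⟩ := exists_fixed hexp (not_dvd_card hexp hfix) ⊤ N (fun b _ => hN b) (fun b _ => hg b)
  rw [hfix g' fun a => h2 a (mem_top a), mul_one] at h1
  exact inv_mem_iff.1 h1

/-- An operator moving an element only by a fixed element fixes it. -/
theorem fix_of_stable (hexp : ∀ a : A, a ^ p = 1) (hp' : ¬ p ∣ Nat.card H) {a : A} {x : H}
    (h : a • (x⁻¹ * (a • x)) = x⁻¹ * (a • x)) : a • x = x := by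
  have hk : ∀ k : ℕ, a ^ k • x = x * (x⁻¹ * (a • x)) ^ k := by
    intro k
    induction k with
    | zero => simp
    | succ k ih => rw [pow_succ', mul_smul, ih, smul_mul', smul_pow', h, pow_succ', ← mul_assoc x, mul_inv_cancel_left]
  have h1 := hk p
  rw [hexp a, one_smul, eq_comm, mul_eq_left] at h1
  exact (inv_mul_eq_one.1 (eq_one_of_pow hp' h1)).symm

/-- The fixed points of a nontrivial operator form a nilpotent group. -/
theorem fixS_nilpotent (hexp : ∀ a : A, a ^ p = 1) (hcard : Nat.card A = p ^ 2)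
    (hfix : ∀ x : H, (∀ a : A, a • x = x) → x = 1) {c : A} (hc : c ≠ 1) : Group.IsNilpotent (fixS H c) := by
  obtain ⟨b, hb⟩ := exists_not_mem (p := p) hexp hcard c
  have hmem : ∀ (d : A) (x : fixS H c), d • (x : H) ∈ fixS H c := by
    intro d x
    show c • d • (x : H) = d • (x : H)
    rw [← mul_smul, mul_comm, mul_smul, x.2]
  let φ : fixS H c ≃* fixS H c :=
    { toFun := fun x => ⟨b • (x : H), hmem b x⟩
      invFun := fun x => ⟨b⁻¹ • (x : H), hmem b⁻¹ x⟩
      left_inv := fun x => Subtype.ext (inv_smul_smul b (x : H))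
      right_inv := fun x => Subtype.ext (smul_inv_smul b (x : H))
      map_mul' := fun x y => Subtype.ext (smul_mul' b (x : H) y) }
  refine Cfsg.Lib.Solv.ThompsonKernel.fpf_isNilpotent (φ := φ) (r := p) ⟨hp.out, fun g hg => ?_, fun g => ?_⟩
  · exact Subtype.ext (hfix _ (fixed_of_pair hexp hcard hc hb g.2 (congrArg Subtype.val hg)))
  · have : ∀ i : ℕ, ((φ^[i] g : fixS H c) : H) = b ^ i • (g : H) := by
      intro i
      induction i with
      | zero => simp
      | succ i ih =>
        rw [Function.iterate_succ_apply', pow_succ', mul_smul, ← ih]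
        rfl
    refine Subtype.ext ?_
    rw [this, hexp, one_smul]

end action

section sums

theorem e_add (hexp : ∀ a : A, a ^ p = 1) (c : A) (i j : ZMod p) : c ^ (i + j).val = c ^ i.val * c ^ j.val := by
  rw [← pow_add, ZMod.val_add]
  exact pow_mod_eq (hexp c) _
where
  pow_mod_eq {c : A} (hc : c ^ p = 1) (n : ℕ) : c ^ (n % p) = c ^ n := by
    conv_rhs => rw [← Nat.mod_add_div n p, pow_add, pow_mul, hc, one_pow, mul_one]

theorem e_mul (hexp : ∀ a : A, a ^ p = 1) (c : A) (i j : ZMod p) : c ^ (i * j).val = (c ^ i.val) ^ j.val := by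
  rw [← pow_mul, ZMod.val_mul]
  exact e_add.pow_mod_eq (hexp c) _

variable {M : Type*} [CommGroup M] [MulDistribMulAction A M]

theorem norm_fixed (hexp : ∀ a : A, a ^ p = 1) (c : A) (m : M) :
    c • ∏ i : ZMod p, c ^ i.val • m = ∏ i : ZMod p, c ^ i.val • m := by
  rw [Finset.smul_prod']
  refine Fintype.prod_equiv (Equiv.addLeft (1 : ZMod p)) _ _ fun i => ?_
  rw [Equiv.coe_addLeft, e_add hexp, ZMod.val_one, pow_one, mul_smul]

/-- An abelian group with a fixed-point-free action is generated by the fixed points of single operators. -/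
theorem mem_of_fixS_le [Finite M] (hexp : ∀ a : A, a ^ p = 1) (hcard : Nat.card A = p ^ 2)
    (hfix : ∀ x : M, (∀ a : A, a • x = x) → x = 1) (K : Subgroup M)
    (hK : ∀ c : A, c ≠ 1 → ∀ x : M, c • x = x → x ∈ K) (m : M) : m ∈ K := by
  classical
  obtain ⟨a, ha⟩ : ∃ a : A, a ≠ 1 := by
    obtain ⟨b, hb⟩ := exists_not_mem (p := p) hexp hcard 1
    exact ⟨b, fun h => hb (by rw [h]; exact one_mem _)⟩
  obtain ⟨b, hb⟩ := exists_not_mem (p := p) hexp hcard a
  have hb1 : b ≠ 1 := fun h => hb (h ▸ one_mem _)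
  have hne : ∀ j : ZMod p, a * b ^ j.val ≠ 1 := by
    intro j h
    by_cases hj : j = 0
    · exact ha (by simpa [hj] using h)
    refine hb (mem_zpowers_symm hexp hb1 ha ?_)
    rw [eq_inv_of_mul_eq_one_left h]
    exact inv_mem (pow_mem (mem_zpowers b) _)
  have hone : ∀ i : ZMod p, ∀ k : ZMod p, ∀ x : M, (a ^ i.val * b ^ k.val) • x = a ^ i.val • b ^ k.val • x :=
    fun i k x => mul_smul _ _ x
  set T := ∏ i : ZMod p, ∏ k : ZMod p, a ^ i.val • b ^ k.val • m with hT
  have hT1 : T = 1 := by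
    refine hfix T fun c => fixed_of_pair hexp hcard ha hb ?_ ?_ c
    · rw [hT, Finset.prod_comm, Finset.smul_prod']
      exact Finset.prod_congr rfl fun k _ => norm_fixed hexp a _
    · rw [hT, Finset.smul_prod']
      refine Finset.prod_congr rfl fun i _ => ?_
      rw [← Finset.smul_prod', ← mul_smul, mul_comm, mul_smul, norm_fixed hexp b]
  have hid : (∏ j : ZMod p, ∏ i : ZMod p, (a * b ^ j.val) ^ i.val • m) * ∏ k : ZMod p, b ^ k.val • m
      = m ^ p * T := by
    rw [Finset.prod_comm, hT, Fintype.prod_eq_mul_prod_compl (0 : ZMod p),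
      Fintype.prod_eq_mul_prod_compl (0 : ZMod p) (fun i => ∏ k : ZMod p, a ^ i.val • b ^ k.val • m)]
    have h0 : (∏ j : ZMod p, (a * b ^ j.val) ^ (0 : ZMod p).val • m) = m ^ p := by simp
    have h0' : (∏ k : ZMod p, a ^ (0 : ZMod p).val • b ^ k.val • m) = ∏ k : ZMod p, b ^ k.val • m := by simp
    rw [h0, h0', mul_assoc, mul_comm (∏ k : ZMod p, b ^ k.val • m)]
    congr 2
    refine Finset.prod_congr rfl fun i hi => ?_
    have hi0 : i ≠ 0 := by simpa using hi
    refine Fintype.prod_equiv (Equiv.mulRight₀ i hi0) _ _ fun j => ?_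
    rw [mul_pow, mul_smul, Equiv.mulRight₀_apply, e_mul hexp]
  have hmp : m ^ p ∈ K := by
    rw [hT1, mul_one] at hid
    rw [← hid]
    exact K.mul_mem (K.prod_mem fun j _ => hK _ (hne j) _ (norm_fixed hexp _ m))
      (hK b hb1 _ (norm_fixed hexp b m))
  have hco : p.Coprime (orderOf m) := hp.out.coprime_iff_not_dvd.2 fun h =>
    not_dvd_card hexp hfix (h.trans (orderOf_dvd_natCard m))
  obtain ⟨k, hk⟩ := exists_pow_eq_self_of_coprime hco
  rw [← hk]
  exact K.pow_mem hmp k

end sums

section frobenius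

variable {H U : Type*} [Group H] [Finite H] [MulDistribMulAction A H] [CommGroup U]
  [MulDistribMulAction A U] [MulDistribMulAction H U]

/-- The Frobenius argument: an operator without fixed points on `M` has fixed points generating `X`. -/
theorem frobenius_mem {q : ℕ} (hq : ∀ u : U, u ^ q = 1)
    (hcompat : ∀ (a : A) (h : H) (u : U), a • h • u = (a • h) • (a • u)) (hexp : ∀ a : A, a ^ p = 1)
    (M : Subgroup H) (hMc : ∀ m ∈ M, ∀ n ∈ M, m * n = n * m) {b : A} (hMb : ∀ m ∈ M, b • m ∈ M)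
    (hMfix : ∀ m ∈ M, b • m = m → m = 1) (hco : (Nat.card M).Coprime q)
    (X : Subgroup U) (hXM : ∀ m ∈ M, ∀ x ∈ X, m • x ∈ X) (hXb : ∀ x ∈ X, b • x ∈ X)
    (hX0 : ∀ x ∈ X, (∀ m ∈ M, m • x = x) → x = 1)
    (W : Subgroup U) (hWM : ∀ m ∈ M, ∀ x ∈ W, m • x ∈ W) (hW : ∀ x ∈ X, b • x = x → x ∈ W)
    {x : U} (hx : x ∈ X) : x ∈ W := by
  classical
  let _ : CommGroup M := { (inferInstance : Group M) with
    mul_comm := fun m n => Subtype.ext (hMc m m.2 n n.2) }
  let _ := Fintype.ofFinite M
  let β : M →* M := MonoidHom.mk' (fun m => ⟨b • (m : H), hMb m m.2⟩) fun m n => Subtype.ext (smul_mul' b (m : H) n)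
  have hβk : ∀ (k : ℕ) (m : M), ((β^[k] m : M) : H) = b ^ k • (m : H) := by
    intro k
    induction k with
    | zero => simp
    | succ k ih => intro m; rw [Function.iterate_succ_apply', pow_succ', mul_smul, ← ih]; rfl
  let P : ℕ → M → M := fun i m => ∏ j ∈ Finset.range i, β^[j] m
  have hP' : ∀ i m, P (i + 1) m = m * β (P i m) := by
    intro i m
    show ∏ j ∈ Finset.range (i + 1), β^[j] m = m * β (∏ j ∈ Finset.range i, β^[j] m)
    rw [Finset.prod_range_succ', map_prod, mul_comm]
    simp only [Function.iterate_zero, id_eq, Function.iterate_succ_apply']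
  have hfb : ∀ m : M, β m = m → m = 1 := fun m hm =>
    Subtype.ext (hMfix m m.2 (congrArg Subtype.val hm))
  have hPp : ∀ m, P p m = 1 := by
    intro m
    refine hfb _ ?_
    have h1 : P (p + 1) m = P p m * m := by
      show ∏ j ∈ Finset.range (p + 1), β^[j] m = P p m * m
      rw [Finset.prod_range_succ]
      congr 1
      exact Subtype.ext (by rw [hβk, hexp, one_smul])
    rw [hP', mul_comm (P p m)] at h1
    exact mul_left_cancel h1
  have hPinj : ∀ i, 0 < i → i < p → Function.Injective (P i) := by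
    intro i hi hip m n hmn
    have hz : P i (m * n⁻¹) = 1 := by
      show ∏ j ∈ Finset.range i, β^[j] (m * n⁻¹) = 1
      rw [Finset.prod_congr rfl fun j _ => show β^[j] (m * n⁻¹) = β^[j] m * (β^[j] n)⁻¹ by
        rw [iterate_map_mul, iterate_map_inv], Finset.prod_mul_distrib, Finset.prod_inv_distrib, mul_inv_eq_one]
      exact hmn
    have h1 : β^[i] (m * n⁻¹) = m * n⁻¹ := by
      have h2 := hP' i (m * n⁻¹)
      rw [hz, map_one, mul_one] at h2
      have h3 : P (i + 1) (m * n⁻¹) = P i (m * n⁻¹) * β^[i] (m * n⁻¹) := Finset.prod_range_succ _ _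
      rw [hz, one_mul] at h3
      exact h3.symm.trans h2
    have hfix_i : b ^ i • ((m * n⁻¹ : M) : H) = ((m * n⁻¹ : M) : H) := by rw [← hβk, h1]
    have hcop : i.Coprime p := (hp.out.coprime_iff_not_dvd.2 (Nat.not_dvd_of_pos_of_lt hi hip)).symm
    obtain ⟨k, hk⟩ := exists_pow_eq_self_of_coprime (x := b)
      (hcop.coprime_dvd_right (orderOf_dvd_of_pow_eq_one (hexp b)))
    have hbf : b • ((m * n⁻¹ : M) : H) = ((m * n⁻¹ : M) : H) := by
      have : ∀ k : ℕ, (b ^ i) ^ k • ((m * n⁻¹ : M) : H) = ((m * n⁻¹ : M) : H) := by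
        intro k
        induction k with
        | zero => simp
        | succ k ih => rw [pow_succ, mul_smul, hfix_i, ih]
      rw [← hk]; exact this k
    have h4 := hMfix _ (m * n⁻¹ : M).2 hbf
    exact mul_inv_eq_one.1 (Subtype.ext h4 : m * n⁻¹ = 1)
  let f : M → (U →* U) := fun m =>
    (MulDistribMulAction.toMonoidHom U (m : H)).comp (MulDistribMulAction.toMonoidHom U b)
  have hf : ∀ m u, f m u = (m : H) • b • u := fun m u => rfl
  have hit : ∀ (i : ℕ) (m : M) (u : U), (f m)^[i] u = ((P i m : M) : H) • b ^ i • u := by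
    intro i
    induction i with
    | zero => intro m u; simp [P]
    | succ i ih =>
      intro m u
      rw [Function.iterate_succ_apply', ih, hf, hcompat, hP', Subgroup.coe_mul, mul_smul, pow_succ', mul_smul]
      rfl
  let s : M → U := fun m => ∏ i ∈ Finset.range p, (f m)^[i] x
  have hfX : ∀ (m : M) (i : ℕ), (f m)^[i] x ∈ X := by
    intro m i
    induction i with
    | zero => exact hx
    | succ i ih => rw [Function.iterate_succ_apply', hf]; exact hXM m m.2 _ (hXb _ ih)
  have hsW : ∀ m, s m ∈ W := by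
    intro m
    have hfs : f m (s m) = s m := by
      have h1 : f m (s m) * x = s m * (f m)^[p] x := by
        show f m (∏ i ∈ Finset.range p, (f m)^[i] x) * x = _
        rw [map_prod, ← Finset.prod_range_succ (fun i => (f m)^[i] x) p, Finset.prod_range_succ']
        simp only [Function.iterate_succ_apply', Function.iterate_zero, id_eq]
      rw [hit p, hPp, hexp, Subgroup.coe_one, one_smul, one_smul] at h1
      exact mul_right_cancel h1
    have hinj : Function.Injective fun n : M => n * (β n)⁻¹ := by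
      intro n n' h
      refine mul_inv_eq_one.1 (hfb (n * n'⁻¹) ?_)
      have h' : n * (β n)⁻¹ = n' * (β n')⁻¹ := h
      rw [map_mul, map_inv]
      rw [← div_eq_mul_inv, ← div_eq_mul_inv, div_eq_div_iff_mul_eq_mul] at h' ⊢
      rw [mul_comm]; exact h'.symm
    obtain ⟨n, hn⟩ := Finite.injective_iff_surjective.1 hinj m
    have hfix : b • (n⁻¹ : H) • s m = (n⁻¹ : H) • s m := by
      have h1 : (m : H) • b • s m = s m := hfs
      rw [hcompat, smul_inv']
      conv_rhs => rw [← h1, ← mul_smul]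
      congr 1
      rw [← hn, Subgroup.coe_mul, Subgroup.coe_inv, inv_mul_cancel_left]
      rfl
    have hy : (n⁻¹ : H) • s m ∈ X := hXM _ (inv_mem n.2) _ (X.prod_mem fun i _ => hfX m i)
    have := hWM n n.2 _ (hW _ hy hfix)
    rwa [smul_inv_smul] at this
  have hsum : ∏ m : M, s m = x ^ Nat.card M := by
    show ∏ m : M, ∏ i ∈ Finset.range p, (f m)^[i] x = _
    rw [Finset.prod_comm, Finset.prod_eq_single 0]
    · simp [Nat.card_eq_fintype_card]
    · intro i hi hi0
      have hbij := Finite.injective_iff_bijective.1 (hPinj i (Nat.pos_of_ne_zero hi0) (Finset.mem_range.1 hi))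
      rw [Finset.prod_congr rfl fun m _ => hit i m x,
        Fintype.prod_bijective (P i) hbij _ (fun m : M => (m : H) • b ^ i • x) fun m => rfl]
      have hbx : b ^ i • x ∈ X := by
        have h := hfX 1 i
        rw [hit] at h
        have hP1 : P i 1 = 1 := Finset.prod_eq_one fun j _ => by rw [iterate_map_one]
        rwa [hP1, Subgroup.coe_one, one_smul] at h
      refine hX0 _ (X.prod_mem fun m _ => hXM m m.2 _ hbx) fun k hk => ?_
      rw [Finset.smul_prod']
      refine Fintype.prod_equiv (Equiv.mulLeft (⟨k, hk⟩ : M)) _ _ fun m => ?_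
      rw [Equiv.coe_mulLeft, Subgroup.coe_mul, mul_smul]
    · intro h; exact absurd (Finset.mem_range.2 hp.out.pos) h
  have hpow : x ^ Nat.card M ∈ W := hsum ▸ W.prod_mem fun m _ => hsW m
  obtain ⟨k, hk⟩ := exists_pow_eq_self_of_coprime (x := x)
    (hco.coprime_dvd_right (orderOf_dvd_of_pow_eq_one (hq x)))
  rw [← hk]
  exact W.pow_mem hpow k

end frobenius

end Cfsg.Lib.Solv.Ward
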