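import Mathlib
import Cfsg.Agent.Lib.Solv.Cores
import Cfsg.Agent.Lib.Solv.MinNormal
import Cfsg.Agent.Lib.Solv.MinimalNonNilpotent
import Cfsg.Agent.Lib.Transfer.Action
import Cfsg.Agent.Lib.Solv.WardBasic

/-!
Ward's theorem: a solvable group with a fixed-point-free elementary abelian operator group of
order `p ^ 2` has Fitting height at most two.
-/

set_option autoImplicit false
set_option maxHeartbeats 800000

namespace Cfsg.Lib.Solv.Ward

open Subgroup
open scoped commutatorElement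

universe u v w

variable {p : ℕ} [hp : Fact p.Prime] {A : Type w} [CommGroup A] [Finite A]

/-- A minimal nontrivial invariant normal subgroup of a solvable group is elementary abelian. -/
theorem exists_minimal {K : Type u} [Group K] [Finite K] [Nontrivial K] [MulDistribMulAction A K]
    (hK : Group.IsSolvable K) :
    ∃ (r : ℕ) (N : Subgroup K), r.Prime ∧ N.Normal ∧ N ≠ ⊥ ∧ (∀ (a : A), ∀ x ∈ N, a • x ∈ N) ∧
      (∀ m ∈ N, ∀ n ∈ N, m * n = n * m) ∧ (∀ m ∈ N, m ^ r = 1) ∧
      ∀ N' : Subgroup K, N'.Normal → (∀ (a : A), ∀ x ∈ N', a • x ∈ N') → N' ≤ N → N' = ⊥ ∨ N' = N := by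
  obtain ⟨N, ⟨hNn, hNb, hNi⟩, hmin⟩ := (Set.toFinite {N : Subgroup K | N.Normal ∧ N ≠ ⊥ ∧
    ∀ (a : A), ∀ x ∈ N, a • x ∈ N}).exists_minimal ⟨⊤, inferInstance, top_ne_bot, fun a x _ => mem_top _⟩
  have hmin' : ∀ N' : Subgroup K, N'.Normal → (∀ (a : A), ∀ x ∈ N', a • x ∈ N') → N' ≤ N → N' = ⊥ ∨ N' = N := by
    intro N' h1 h2 h3
    by_cases hb : N' = ⊥
    · exact Or.inl hb
    · exact Or.inr (le_antisymm h3 (hmin ⟨h1, hb, h2⟩ h3))
  have hc : ⁅N, N⁆ = ⊥ := by
    refine (hmin' ⁅N, N⁆ inferInstance (fun a x hx => ?_) (commutator_le_right N N)).resolve_right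
      (Cfsg.Lib.Solv.commutator_self_ne_of_solvable hNb (Group.isSolvable_of_isSolvable_injective (subtype_injective N))).ne
    have h1 : ⁅N, N⁆.map (MulDistribMulAction.toMonoidHom K a) ≤ ⁅N, N⁆ := by
      rw [map_commutator]
      have : N.map (MulDistribMulAction.toMonoidHom K a) ≤ N := by rintro _ ⟨y, hy, rfl⟩; exact hNi a y hy
      exact commutator_mono this this
    exact h1 ⟨x, hx, rfl⟩
  have hcomm : ∀ m ∈ N, ∀ n ∈ N, m * n = n * m := by
    intro m hm n hn
    have h : ⁅m, n⁆ ∈ (⊥ : Subgroup K) := hc ▸ commutator_mem_commutator hm hn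
    rw [mem_bot, commutatorElement_eq_one_iff_mul_comm] at h
    exact h
  have hNc : Nat.card N ≠ 1 := fun h => hNb (eq_bot_of_card_eq N h)
  obtain ⟨r, hr, hrd⟩ := Nat.exists_prime_and_dvd hNc
  refine ⟨r, N, hr, hNn, hNb, hNi, hcomm, ?_, hmin'⟩
  let Ω : Subgroup K :=
    { carrier := {x | x ∈ N ∧ x ^ r = 1}
      one_mem' := ⟨N.one_mem, one_pow r⟩
      mul_mem' := fun {x y} hx hy => ⟨N.mul_mem hx.1 hy.1, by
        rw [(show Commute x y from hcomm x hx.1 y hy.1).mul_pow, hx.2, hy.2, one_mul]⟩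
      inv_mem' := fun {x} hx => ⟨N.inv_mem hx.1, by rw [inv_pow, hx.2, inv_one]⟩ }
  have hΩn : Ω.Normal := ⟨fun x hx g => ⟨hNn.conj_mem x hx.1 g, by rw [conj_pow, hx.2, mul_one, mul_inv_cancel]⟩⟩
  rcases hmin' Ω hΩn (fun a x hx => ⟨hNi a x hx.1, by rw [← smul_pow', hx.2, smul_one]⟩) (fun x hx => hx.1) with h | h
  · exfalso
    haveI := Fact.mk hr
    obtain ⟨x, hx⟩ := exists_prime_orderOf_dvd_card' (G := N) r hrd
    have h1 : (x : K) ∈ Ω := ⟨x.2, by
      rw [← Subgroup.coe_pow, ← hx, pow_orderOf_eq_one, Subgroup.coe_one]⟩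
    rw [h, mem_bot] at h1
    have hx1 : x = 1 := Subtype.ext h1
    rw [hx1, orderOf_one] at hx
    exact hr.ne_one hx.symm
  · intro m hm
    rw [← h] at hm
    exact hm.2

/-- Generators `m • u / u`. -/
def br {H U : Type*} [Group H] [CommGroup U] [MulDistribMulAction H U] (M : Subgroup H) (X : Subgroup U) :
    Subgroup U :=
  closure {w | ∃ m ∈ M, ∃ u ∈ X, w = m • u * u⁻¹}

section br

variable {H U : Type*} [Group H] [CommGroup U] [MulDistribMulAction H U]

theorem br_smul_mem {M : Subgroup H} {X : Subgroup U} (f : U →* U)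
    (hf : ∀ m ∈ M, ∀ u ∈ X, f (m • u * u⁻¹) ∈ br M X) {w : U} (hw : w ∈ br M X) : f w ∈ br M X := by
  have h : br M X ≤ (br M X).comap f := by
    rw [br, closure_le]
    rintro _ ⟨m, hm, u, hu, rfl⟩
    exact hf m hm u hu
  exact h hw

theorem br_fixed [Finite H] {M : Subgroup H} {X : Subgroup U} {q : ℕ} (hq : ∀ u : U, u ^ q = 1)
    (hco : (Nat.card M).Coprime q) {w : U} (hw : w ∈ br M X) (hfix : ∀ m ∈ M, m • w = w) : w = 1 := by
  classical
  let _ := Fintype.ofFinite M
  let E : U →* U := ∏ m : M, MulDistribMulAction.toMonoidHom U (m : H)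
  have hE : ∀ u, E u = ∏ m : M, (m : H) • u := fun u => by simp [E, MonoidHom.finset_prod_apply]
  have h1 : br M X ≤ E.ker := by
    rw [br, closure_le]
    rintro _ ⟨m, hm, u, -, rfl⟩
    rw [SetLike.mem_coe, MonoidHom.mem_ker, map_mul, map_inv, mul_inv_eq_one, hE, hE]
    refine Fintype.prod_equiv (Equiv.mulRight (⟨m, hm⟩ : M)) _ _ fun k => ?_
    rw [Equiv.coe_mulRight, Subgroup.coe_mul, mul_smul]
  have h2 : E w = 1 := h1 hw
  rw [hE, Finset.prod_congr rfl fun (m : M) _ => hfix m m.2, Finset.prod_const, Finset.card_univ,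
    ← Nat.card_eq_fintype_card] at h2
  have h3 : orderOf w ∣ Nat.card M := orderOf_dvd_of_pow_eq_one h2
  exact orderOf_eq_one_iff.1 (Nat.eq_one_of_dvd_coprimes hco h3 (orderOf_dvd_of_pow_eq_one (hq w)))

end br

/-- The induction-free core: on an irreducible module the group is nilpotent. -/
theorem core {H : Type u} {U : Type v} [Group H] [Finite H] [MulDistribMulAction A H] [CommGroup U] [Finite U]
    [Nontrivial U] [MulDistribMulAction A U] [MulDistribMulAction H U]
    (hexp : ∀ a : A, a ^ p = 1) (hcard : Nat.card A = p ^ 2)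
    (hfixH : ∀ x : H, (∀ a : A, a • x = x) → x = 1) (hfixU : ∀ x : U, (∀ a : A, a • x = x) → x = 1)
    (hcompat : ∀ (a : A) (h : H) (u : U), a • h • u = (a • h) • (a • u))
    {q : ℕ} [hqp : Fact q.Prime] (hq : ∀ u : U, u ^ q = 1)
    (hfaith : ∀ h : H, (∀ u : U, h • u = u) → h = 1)
    (hirr : ∀ W : Subgroup U, (∀ (a : A), ∀ u ∈ W, a • u ∈ W) → (∀ (h : H), ∀ u ∈ W, h • u ∈ W) → W = ⊥ ∨ W = ⊤)
    (hcen : ∀ c : A, c ≠ 1 → ∀ (h : H) (u : U), c • h = h → c • u = u → (orderOf h).Coprime q → h • u = u)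
    (hsol : Group.IsSolvable H) : Group.IsNilpotent H := by
  classical
  rcases subsingleton_or_nontrivial H with hH | hH
  · infer_instance
  -- no invariant normal `q`-subgroup
  have hnoq : ∀ N : Subgroup H, N.Normal → (∀ (a : A), ∀ x ∈ N, a • x ∈ N) → IsPGroup q N → N = ⊥ := by
    intro N hNn hNi hNq
    let W : Subgroup U :=
      { carrier := {u | ∀ n ∈ N, n • u = u}
        one_mem' := fun n _ => smul_one n
        mul_mem' := fun {x y} hx hy n hn => by rw [smul_mul', hx n hn, hy n hn]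
        inv_mem' := fun {x} hx n hn => by rw [smul_inv', hx n hn] }
    obtain ⟨u₀, hu₀⟩ := exists_ne (1 : U)
    have hdiv : q ∣ Nat.card U := orderOf_eq_prime (hq u₀) hu₀ ▸ orderOf_dvd_natCard u₀
    obtain ⟨u, hu, hu1⟩ := hNq.exists_fixed_point_of_prime_dvd_card_of_fixed_point U hdiv
      (a := 1) (fun n => smul_one (n : H))
    rcases hirr W (fun a v hv n hn => by
        have h1 := hcompat a (a⁻¹ • n) v
        rw [hv _ (hNi a⁻¹ n hn), smul_inv_smul] at h1
        exact h1.symm)
      (fun h v hv n hn => by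
        have h1 := hv _ (hNn.conj_mem n hn h⁻¹)
        rw [inv_inv, mul_smul, mul_smul, inv_smul_eq_iff] at h1
        exact h1) with hW | hW
    · exfalso
      have h1 : u ∈ W := fun n hn => hu ⟨n, hn⟩
      rw [hW, mem_bot] at h1
      exact hu1 h1.symm
    · rw [eq_bot_iff]
      intro n hn
      exact hfaith n fun v => (hW ▸ mem_top v : v ∈ W) n hn
  obtain ⟨r, Z, hr, hZn, hZb, hZi, hZc, hZr, -⟩ := exists_minimal (A := A) (K := H) hsol
  haveI := Fact.mk hr
  have hZp : IsPGroup r Z := fun z => ⟨1, Subtype.ext (by rw [Subgroup.coe_pow, pow_one, hZr z z.2, Subgroup.coe_one])⟩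
  have hrq : r ≠ q := fun e => hZb (hnoq Z hZn hZi (e ▸ hZp))
  have hco : ∀ M : Subgroup H, M ≤ Z → (Nat.card M).Coprime q := fun M hM => by
    obtain ⟨k, hk⟩ := IsPGroup.iff_card.1 (hZp.to_le hM)
    rw [hk]
    exact Nat.Coprime.pow_left _ ((Nat.coprime_primes hr hqp.out).2 hrq)
  have hZU : ∀ u : U, (∀ z ∈ Z, z • u = u) → u = 1 := by
    intro u hu
    let W : Subgroup U :=
      { carrier := {u | ∀ n ∈ Z, n • u = u}
        one_mem' := fun n _ => smul_one n
        mul_mem' := fun {x y} hx hy n hn => by rw [smul_mul', hx n hn, hy n hn]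
        inv_mem' := fun {x} hx n hn => by rw [smul_inv', hx n hn] }
    rcases hirr W (fun a v hv n hn => by
        have h1 := hcompat a (a⁻¹ • n) v
        rw [hv _ (hZi a⁻¹ n hn), smul_inv_smul] at h1
        exact h1.symm)
      (fun h v hv n hn => by
        have h1 := hv _ (hZn.conj_mem n hn h⁻¹)
        rw [inv_inv, mul_smul, mul_smul, inv_smul_eq_iff] at h1
        exact h1) with hW | hW
    · exact mem_bot.1 (hW ▸ (show u ∈ W from hu))
    · refine absurd ((eq_bot_iff_forall _).2 fun n hn => ?_) hZb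
      exact hfaith n fun v => (hW ▸ mem_top v : v ∈ W) n hn
  have hZgen : ∀ K : Subgroup H, (∀ c : A, c ≠ 1 → ∀ z ∈ Z, c • z = z → z ∈ K) → Z ≤ K := by
    intro K hK z hz
    let _ : CommGroup Z := { (inferInstance : Group Z) with mul_comm := fun m n => Subtype.ext (hZc m m.2 n n.2) }
    let _ : MulDistribMulAction A Z :=
      { smul := fun a z => ⟨a • (z : H), hZi a z z.2⟩
        one_smul := fun z => Subtype.ext (one_smul A (z : H))
        mul_smul := fun a b z => Subtype.ext (mul_smul a b (z : H))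
        smul_one := fun a => Subtype.ext (smul_one a)
        smul_mul := fun a z w => Subtype.ext (smul_mul' a (z : H) w) }
    exact mem_of_fixS_le (M := Z) hexp hcard (fun x hx => Subtype.ext (hfixH _ fun a => congrArg Subtype.val (hx a)))
      (K.comap Z.subtype) (fun c hc x hx => hK c hc x x.2 (congrArg Subtype.val hx)) ⟨z, hz⟩
  let Za : A → Subgroup H := fun a => Z ⊓ fixS H a
  let Wa : A → Subgroup U := fun a => br (Za a) ⊤
  have hZaA : ∀ (a c : A), ∀ m ∈ Za a, c • m ∈ Za a := fun a c m hm => ⟨hZi c m hm.1, by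
    show a • c • m = c • m
    rw [← mul_smul, mul_comm, mul_smul, (hm.2 : a • m = m)]⟩
  have hbrA : ∀ (a : A) (X : Subgroup U), (∀ (c : A), ∀ x ∈ X, c • x ∈ X) → ∀ (c : A), ∀ x ∈ br (Za a) X,
      c • x ∈ br (Za a) X := by
    intro a X hX c x hx
    refine br_smul_mem (MulDistribMulAction.toMonoidHom U c) (fun m hm u hu => ?_) hx
    show c • (m • u * u⁻¹) ∈ _
    rw [smul_mul', smul_inv', hcompat]
    exact subset_closure ⟨_, hZaA a c m hm, _, hX c u hu, rfl⟩
  have hbrZ : ∀ (a : A) (X : Subgroup U), (∀ z ∈ Z, ∀ x ∈ X, z • x ∈ X) → ∀ z ∈ Z, ∀ x ∈ br (Za a) X,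
      z • x ∈ br (Za a) X := by
    intro a X hX z hz x hx
    refine br_smul_mem (MulDistribMulAction.toMonoidHom U z) (fun m hm u hu => ?_) hx
    show z • (m • u * u⁻¹) ∈ _
    rw [smul_mul', smul_inv', ← mul_smul, hZc z hz m hm.1, mul_smul]
    exact subset_closure ⟨_, hm, _, hX z hz u hu, rfl⟩
  have hMc : ∀ a, ∀ m ∈ Za a, ∀ n ∈ Za a, m * n = n * m := fun a m hm n hn => hZc m hm.1 n hn.1
  have hMfix : ∀ a b : A, a ≠ 1 → b ∉ zpowers a → ∀ m ∈ Za a, b • m = m → m = 1 := fun a b ha hb m hm hbm =>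
    hfixH m (fixed_of_pair hexp hcard ha hb hm.2 hbm)
  have nofix : ∀ a b : A, a ≠ 1 → b ∉ zpowers a → ∀ w ∈ Wa a, a • w = w → w = 1 := by
    intro a b ha hb w hw haw
    refine mem_bot.1 (frobenius_mem hq hcompat hexp (Za a) (hMc a) (hZaA a b) (hMfix a b ha hb)
      (hco _ inf_le_left) (Wa a ⊓ fixS U a) ?_ ?_ ?_ ⊥ ?_ ?_ (x := w) ⟨hw, haw⟩)
    · intro m hm x hx
      refine ⟨hbrZ a ⊤ (fun _ _ _ _ => mem_top _) m hm.1 x hx.1, ?_⟩
      show a • m • x = m • x
      rw [hcompat, (hm.2 : a • m = m), (hx.2 : a • x = x)]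
    · intro x hx
      refine ⟨hbrA a ⊤ (fun _ _ _ => mem_top _) b x hx.1, ?_⟩
      show a • b • x = b • x
      rw [← mul_smul, mul_comm, mul_smul, (hx.2 : a • x = x)]
    · exact fun x hx h => br_fixed hq (hco _ inf_le_left) hx.1 h
    · intro m _ x hx
      rw [mem_bot.1 hx, smul_one]; exact one_mem _
    · exact fun x hx hbx => mem_bot.2 (hfixU x (fixed_of_pair hexp hcard ha hb hx.2 hbx))
  have hkill : ∀ a b : A, a ≠ 1 → b ≠ 1 → b ∉ zpowers a → ∀ z ∈ Za b, ∀ w ∈ Wa a, z • w = w := by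
    intro a b ha hb1 hb z hz w hw
    have hab : a ∉ zpowers b := fun h => hb (mem_zpowers_symm hexp hb1 ha h)
    have hY : br (Za b) (Wa a) ≤ Wa a ⊓ Wa b := by
      rw [br, closure_le]
      rintro _ ⟨m, hm, u, hu, rfl⟩
      exact ⟨(Wa a).mul_mem (hbrZ a ⊤ (fun _ _ _ _ => mem_top _) m hm.1 u hu) ((Wa a).inv_mem hu),
        subset_closure ⟨m, hm, u, mem_top u, rfl⟩⟩
    refine mul_inv_eq_one.1 (mem_bot.1 (frobenius_mem hq hcompat hexp (Za a) (hMc a) (hZaA a b)
      (hMfix a b ha hb) (hco _ inf_le_left) (br (Za b) (Wa a)) ?_ ?_ ?_ ⊥ ?_ ?_ (x := z • w * w⁻¹)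
      (subset_closure ⟨z, hz, w, hw, rfl⟩)))
    · exact fun m hm x hx => hbrZ b _ (hbrZ a ⊤ fun _ _ _ _ => mem_top _) m hm.1 x hx
    · exact fun x hx => hbrA b _ (hbrA a ⊤ fun _ _ _ => mem_top _) b x hx
    · exact fun x hx h => br_fixed hq (hco _ inf_le_left) (hY hx).1 h
    · intro m _ x hx
      rw [mem_bot.1 hx, smul_one]; exact one_mem _
    · exact fun x hx hbx => mem_bot.2 (nofix b a hb1 hab x (hY hx).2 hbx)
  have hfix_pow : ∀ (a c : A), a ∈ zpowers c → ∀ {x : H}, c • x = x → a • x = x := by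
    intro a c h x hx
    exact MulAction.mem_stabilizer_iff.1 ((zpowers_le (H := MulAction.stabilizer A x)).2 hx h)
  obtain ⟨a, ha, hZa⟩ : ∃ a : A, a ≠ 1 ∧ Za a ≠ ⊥ := by
    by_contra! hc
    exact hZb (le_bot_iff.1 (hZgen ⊥ fun c hc1 z hz hcz => hc c hc1 ▸ (⟨hz, hcz⟩ : z ∈ Za c)))
  have hWb : Wa a ≠ ⊥ := fun h => hZa ((eq_bot_iff_forall _).2 fun m hm => hfaith m fun u => by
    have h1 : m • u * u⁻¹ ∈ Wa a := subset_closure ⟨m, hm, u, mem_top u, rfl⟩
    rw [h, mem_bot] at h1
    exact mul_inv_eq_one.1 h1)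
  have hinvH : ∀ (h : H), ∀ w ∈ Wa a, h • w ∈ Wa a := by
    intro h w hw
    have hclaim : ∀ d : A, d ≠ 1 → d ∉ zpowers a → ∀ z ∈ Za d, z • h • w = h • w := by
      intro d hd hda z hz
      by_contra hne
      have had : a ∉ zpowers d := fun h' => hda (mem_zpowers_symm hexp hd ha h')
      set v₀ := z • h • w * (h • w)⁻¹ with hv₀
      have hv1 : v₀ ≠ 1 := fun e => hne (mul_inv_eq_one.1 e)
      have hv₀d : v₀ ∈ Wa d := subset_closure ⟨z, hz, h • w, mem_top _, rfl⟩
      obtain ⟨u₀, hu₀, hu₀v⟩ : ∃ u₀ ∈ Wa a, v₀ = h • u₀ := by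
        refine ⟨(h⁻¹ * z * h) • w * w⁻¹, mul_mem (hbrZ a ⊤ (fun _ _ _ _ => mem_top _) _
          (by simpa using hZn.conj_mem z hz.1 h⁻¹) w hw) (inv_mem hw), ?_⟩
        rw [hv₀, smul_mul', smul_inv', ← mul_smul, ← mul_smul]
        group
      let K : Subgroup H := Z ⊓ MulAction.stabilizer H v₀
      have hKmem : ∀ {k : H}, k ∈ Z → k • v₀ = v₀ → k ∈ K := fun h1 h2 => ⟨h1, h2⟩
      let twist : ∀ (c : A) (K : Subgroup H), K ≤ Z → Subgroup H := fun c K hK =>
        { carrier := {k | k ∈ Z ∧ c • k * k⁻¹ ∈ K}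
          one_mem' := ⟨Z.one_mem, by rw [smul_one, one_mul, inv_one]; exact K.one_mem⟩
          mul_mem' := fun {x y} hx hy => ⟨Z.mul_mem hx.1 hy.1, by
            have e : c • (x * y) * (x * y)⁻¹ = (c • x * x⁻¹) * (c • y * y⁻¹) := by
              have h1 : x⁻¹ * (c • y * y⁻¹) = (c • y * y⁻¹) * x⁻¹ :=
                hZc _ (Z.inv_mem hx.1) _ (Z.mul_mem (hZi c y hy.1) (Z.inv_mem hy.1))
              rw [smul_mul', mul_assoc (c • x) x⁻¹, h1]
              group
            rw [e]; exact K.mul_mem hx.2 hy.2⟩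
          inv_mem' := fun {x} hx => ⟨Z.inv_mem hx.1, by
            have e : c • x⁻¹ * x⁻¹⁻¹ = (c • x * x⁻¹)⁻¹ := by
              rw [smul_inv', mul_inv_rev]
              exact hZc _ (Z.inv_mem (hZi c x hx.1)) _ (Z.inv_mem (Z.inv_mem hx.1))
            rw [e]; exact K.inv_mem hx.2⟩ }
      have hdK : ∀ k ∈ Z, d • k * k⁻¹ ∈ K := fun k hk => (hZgen (twist d K inf_le_left) (fun c hc k hk hck => ⟨hk, by
        by_cases hcd : c ∈ zpowers d
        · rw [hfix_pow d c (mem_zpowers_symm hexp hd hc hcd) hck, mul_inv_cancel]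
          exact K.one_mem
        · refine K.mul_mem (hKmem (hZi d k hk) (hkill d c hd hc hcd _ (hZaA c d k ⟨hk, hck⟩) v₀ hv₀d))
            (K.inv_mem (hKmem hk (hkill d c hd hc hcd _ ⟨hk, hck⟩ v₀ hv₀d)))⟩) hk).2
      have haW : ∀ k ∈ Z, a • k * k⁻¹ ∈ Z ⊓ MulAction.stabilizer H u₀ :=
        fun k hk => (hZgen (twist a (Z ⊓ MulAction.stabilizer H u₀) inf_le_left) (fun c hc k hk hck => ⟨hk, by
        by_cases hca : c ∈ zpowers a
        · rw [hfix_pow a c (mem_zpowers_symm hexp ha hc hca) hck, mul_inv_cancel]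
          exact Subgroup.one_mem _
        · refine Subgroup.mul_mem _ ⟨hZi a k hk, hkill a c ha hc hca _ (hZaA c a k ⟨hk, hck⟩) u₀ hu₀⟩
            (Subgroup.inv_mem _ ⟨hk, hkill a c ha hc hca _ ⟨hk, hck⟩ u₀ hu₀⟩)⟩) hk).2
      -- the elements twisting `a` to the stabilizer of `v₀`
      let T : Set H := {k | ∀ x ∈ Z, k * (a • x) * k⁻¹ * x⁻¹ ∈ K}
      have hk₁ : h * (a • h⁻¹) ∈ T := by
        intro x hx
        obtain ⟨y, hy, rfl⟩ : ∃ y ∈ Z, x = h * y * h⁻¹ :=
          ⟨h⁻¹ * x * h, by simpa using hZn.conj_mem x hx h⁻¹, by group⟩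
        have e : h * (a • h⁻¹) * (a • (h * y * h⁻¹)) * (h * (a • h⁻¹))⁻¹ * (h * y * h⁻¹)⁻¹
            = h * (a • y * y⁻¹) * h⁻¹ := by
          rw [smul_mul', smul_mul', smul_inv']
          group
        rw [e]
        obtain ⟨hyZ, hys⟩ := haW y hy
        refine hKmem (hZn.conj_mem _ hyZ h) ?_
        rw [hu₀v, mul_smul, mul_smul, inv_smul_smul, (hys : (a • y * y⁻¹) • u₀ = u₀)]
      have hdinv : ∀ k ∈ K, d • k ∈ K := fun k hk => by
        have := K.mul_mem (hdK k hk.1) hk
        rwa [inv_mul_cancel_right] at this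
      let T₀ : Subgroup H :=
        { carrier := {k | ∀ x ∈ Z, k * x * k⁻¹ * x⁻¹ ∈ K}
          one_mem' := fun x _ => by simp
          mul_mem' := fun {k l} hk hl x hx => by
            have := K.mul_mem (hk _ (hZn.conj_mem x hx l)) (hl x hx)
            have e : k * l * x * (k * l)⁻¹ * x⁻¹ = k * (l * x * l⁻¹) * k⁻¹ * (l * x * l⁻¹)⁻¹ * (l * x * l⁻¹ * x⁻¹) := by
              group
            rw [e]; exact this
          inv_mem' := fun {k} hk x hx => by
            have := K.inv_mem (hk _ (hZn.conj_mem x hx k⁻¹))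
            have e : k⁻¹ * x * k⁻¹⁻¹ * x⁻¹ = (k * (k⁻¹ * x * k⁻¹⁻¹) * k⁻¹ * (k⁻¹ * x * k⁻¹⁻¹)⁻¹)⁻¹ := by group
            rw [e]; exact this }
      have hdT : ∀ k ∈ T, d • k ∈ T := by
        intro k hk x hx
        have h1 := hdinv _ (hk (d⁻¹ • x) (hZi d⁻¹ x hx))
        rwa [smul_mul', smul_mul', smul_mul', smul_inv', smul_inv', smul_comm d a, smul_inv_smul] at h1
      let k₁ := h * (a • h⁻¹)
      have hcoset : ∀ k ∈ T, k * k₁⁻¹ ∈ T₀ := by
        intro k hk x hx
        obtain ⟨y, hy, rfl⟩ : ∃ y ∈ Z, x = k₁ * (a • y) * k₁⁻¹ :=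
          ⟨a⁻¹ • (k₁⁻¹ * x * k₁), hZi _ _ (by simpa using hZn.conj_mem x hx k₁⁻¹), by rw [smul_inv_smul]; group⟩
        have := K.mul_mem (hk y hy) (K.inv_mem (hk₁ y hy))
        have e : k * k₁⁻¹ * (k₁ * (a • y) * k₁⁻¹) * (k * k₁⁻¹)⁻¹ * (k₁ * (a • y) * k₁⁻¹)⁻¹
            = (k * (a • y) * k⁻¹ * y⁻¹) * (k₁ * (a • y) * k₁⁻¹ * y⁻¹)⁻¹ := by group
        rw [e]; exact this
      have hcoset' : ∀ t ∈ T₀, t * k₁ ∈ T := by
        intro t ht y hy
        have := K.mul_mem (ht _ (hZn.conj_mem _ (hZi a y hy) k₁)) (hk₁ y hy)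
        have e : t * k₁ * (a • y) * (t * k₁)⁻¹ * y⁻¹
            = t * (k₁ * (a • y) * k₁⁻¹) * t⁻¹ * (k₁ * (a • y) * k₁⁻¹)⁻¹ * (k₁ * (a • y) * k₁⁻¹ * y⁻¹) := by group
        rw [e]; exact this
      obtain ⟨k₀, hk₀T, hk₀d⟩ : ∃ k₀ ∈ T, d • k₀ = k₀ := by
        let act : MulAction (zpowers d) T :=
          { smul := fun b k => ⟨(b : A) • (k : H), by
              obtain ⟨n, hn⟩ := mem_zpowers_iff.1 b.2
              obtain ⟨m, hm⟩ : ∃ m : ℕ, d ^ m = (b : A) := by
                have := mem_powers_iff_mem_zpowers.2 b.2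
                exact Submonoid.mem_powers_iff _ _ |>.1 this
              rw [← hm]
              clear hm
              induction m with
              | zero => simp
              | succ m ih => rw [pow_succ', mul_smul]; exact hdT _ ih⟩
            one_smul := fun k => Subtype.ext (one_smul A (k : H))
            mul_smul := fun b c k => Subtype.ext (mul_smul (b : A) (c : A) (k : H)) }
        let e : T ≃ T₀ :=
          { toFun := fun k => ⟨(k : H) * k₁⁻¹, hcoset k k.2⟩
            invFun := fun t => ⟨(t : H) * k₁, hcoset' t t.2⟩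
            left_inv := fun k => Subtype.ext (inv_mul_cancel_right (k : H) k₁)
            right_inv := fun t => Subtype.ext (mul_inv_cancel_right (t : H) k₁) }
        obtain ⟨k, hk⟩ := ((isPGroup_A hexp).to_subgroup (zpowers d)).nonempty_fixed_point_of_prime_not_dvd_card T
          (by rw [Nat.card_congr e]; exact fun h => not_dvd_card hexp hfixH (h.trans (card_subgroup_dvd_card T₀)))
        exact ⟨k, k.2, congrArg Subtype.val (hk ⟨d, mem_zpowers d⟩)⟩
      obtain ⟨u, hu⟩ : ∃ u : fixS H d, (u : H) * (a • (u : H))⁻¹ = k₀ := by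
        have hm : ∀ u : fixS H d, (u : H) * (a • (u : H))⁻¹ ∈ fixS H d := fun u => mul_mem u.2 (inv_mem (by
          show d • a • (u : H) = a • (u : H)
          rw [smul_comm, (u.2 : d • (u : H) = u)]))
        have hinj : Function.Injective fun u : fixS H d => (⟨_, hm u⟩ : fixS H d) := by
          intro u v huv
          have h1 : (u : H) * (a • (u : H))⁻¹ = (v : H) * (a • (v : H))⁻¹ := congrArg Subtype.val huv
          have h2 : a • ((v : H)⁻¹ * u) = (v : H)⁻¹ * u := by
            rw [smul_mul', smul_inv']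
            calc (a • (v : H))⁻¹ * (a • (u : H))
                = (v : H)⁻¹ * ((v : H) * (a • (v : H))⁻¹) * ((u : H) * (a • (u : H))⁻¹)⁻¹ * u := by group
              _ = (v : H)⁻¹ * u := by rw [h1]; group
          have h3 := hfixH _ (fixed_of_pair hexp hcard ha hda h2 (show d • ((v : H)⁻¹ * u) = (v : H)⁻¹ * u from
            (mul_mem (inv_mem v.2) u.2 : (v : H)⁻¹ * u ∈ fixS H d)))
          exact Subtype.ext (inv_mul_eq_one.1 h3).symm
        obtain ⟨u, hu⟩ := Finite.injective_iff_surjective.1 hinj ⟨k₀, hk₀d⟩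
        exact ⟨u, congrArg Subtype.val hu⟩
      let K₃ : Subgroup H :=
        { carrier := {x | x ∈ Z ∧ (u : H) * x * (u : H)⁻¹ ∈ K}
          one_mem' := ⟨Z.one_mem, by simp⟩
          mul_mem' := fun {x y} hx hy => ⟨Z.mul_mem hx.1 hy.1, by
            have := K.mul_mem hx.2 hy.2; simpa [mul_assoc] using this⟩
          inv_mem' := fun {x} hx => ⟨Z.inv_mem hx.1, by
            have := K.inv_mem hx.2; simpa [mul_assoc] using this⟩ }
      have ha3 : ∀ x ∈ Z, a • x * x⁻¹ ∈ K₃ := by
        intro x hx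
        refine ⟨Z.mul_mem (hZi a x hx) (Z.inv_mem hx), ?_⟩
        have := hk₀T _ (hZn.conj_mem x hx (u : H))
        rw [← hu, smul_mul', smul_mul', smul_inv'] at this
        simpa [mul_assoc] using this
      have hd3 : ∀ x ∈ Z, d • x * x⁻¹ ∈ K₃ := by
        intro x hx
        refine ⟨Z.mul_mem (hZi d x hx) (Z.inv_mem hx), ?_⟩
        have := hdK _ (hZn.conj_mem x hx (u : H))
        rw [smul_mul', smul_mul', smul_inv', (u.2 : d • (u : H) = u)] at this
        simpa [mul_assoc] using this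
      let G₃ : Submonoid A :=
        { carrier := {g | ∀ x ∈ Z, g • x * x⁻¹ ∈ K₃}
          one_mem' := fun x _ => by rw [one_smul, mul_inv_cancel]; exact K₃.one_mem
          mul_mem' := fun {g g'} hg hg' x hx => by
            have := K₃.mul_mem (hg _ (hZi g' x hx)) (hg' x hx)
            rw [mul_smul]
            simpa [mul_assoc] using this }
      have hall : ∀ g : A, g ∈ G₃ := by
        intro g
        let S : Subgroup A :=
          { G₃ with
            inv_mem' := fun {g} hg => by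
              have : g⁻¹ = g ^ (p - 1) := by
                rw [inv_eq_iff_mul_eq_one, ← pow_succ', Nat.sub_add_cancel hp.out.one_le, hexp]
              rw [this]; exact pow_mem (show g ∈ G₃ from hg) _ }
        have h1 : S = ⊤ := top_of_pair hexp hcard ha hda ha3 hd3
        have h2 : g ∈ S := by rw [h1]; exact mem_top g
        exact h2
      have hZK : ∀ x ∈ Z, x ∈ K := by
        have h3 : ∀ x ∈ Z, x ∈ K₃ := by
          intro x hx
          refine mem_of_fixed_coset hexp hfixH K₃ (fun g y hy => ?_) fun g => ?_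
          · have := K₃.mul_mem (hall g y hy.1) hy
            rwa [inv_mul_cancel_right] at this
          · rw [hZc _ (Z.inv_mem hx) _ (hZi g x hx)]
            exact hall g x hx
        intro x hx
        have := (h3 _ (by simpa using hZn.conj_mem x hx (u : H)⁻¹ : (u : H)⁻¹ * x * (u : H) ∈ Z)).2
        simpa [mul_assoc] using this
      exact hv1 (hZU v₀ fun x hx => (hZK x hx).2)
    let _ := Fintype.ofFinite (Za a)
    set y := h • w with hy
    have hEy : (∏ m : Za a, (m : H) • y) = 1 := by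
      refine hZU _ fun z hz => ?_
      have hle : Z ≤ MulAction.stabilizer H (∏ m : Za a, (m : H) • y) := hZgen _ fun c hc k hk hck => by
        show k • (∏ m : Za a, (m : H) • y) = _
        rw [Finset.smul_prod']
        by_cases hca : c ∈ zpowers a
        · refine Fintype.prod_equiv (Equiv.mulLeft (⟨k, hk, hfix_pow a c (mem_zpowers_symm hexp ha hc hca) hck⟩ : Za a))
            _ _ fun m => ?_
          rw [Equiv.coe_mulLeft, Subgroup.coe_mul, mul_smul]
        · refine Finset.prod_congr rfl fun m _ => ?_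
          rw [← mul_smul, hZc k hk m m.2.1, mul_smul, hclaim c hc hca k ⟨hk, hck⟩]
      exact hle hz
    have h1 : (∏ m : Za a, (m : H) • y * y⁻¹) = (y ^ Nat.card (Za a))⁻¹ := by
      rw [Finset.prod_mul_distrib, hEy, one_mul, Finset.prod_const, Finset.card_univ, Nat.card_eq_fintype_card, inv_pow]
    have h2 : y ^ Nat.card (Za a) ∈ Wa a := by
      rw [← inv_inv (y ^ _), ← h1]
      exact inv_mem ((Wa a).prod_mem fun m _ => subset_closure ⟨m, m.2, y, mem_top y, rfl⟩)
    obtain ⟨k, hk⟩ := exists_pow_eq_self_of_coprime (x := y)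
      ((hco (Za a) inf_le_left).coprime_dvd_right (orderOf_dvd_of_pow_eq_one (hq y)))
    rw [← hk]
    exact pow_mem h2 k
  have hWtop : Wa a = ⊤ := (hirr _ (hbrA a ⊤ fun _ _ _ => mem_top _) hinvH).resolve_left hWb
  have hZfix : ∀ z ∈ Z, a • z = z := hZgen (fixS H a) fun c hc z hz hcz => by
    by_cases hca : c ∈ zpowers a
    · exact hfix_pow a c (mem_zpowers_symm hexp ha hc hca) hcz
    · rw [hfaith z fun u => hkill a c ha hc hca z ⟨hz, hcz⟩ u (hWtop ▸ mem_top u)]
      exact one_mem _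
  have htriv : ∀ (c : A), c ≠ 1 → c ∉ zpowers a → ∀ x : H, c • x = x → (orderOf x).Coprime q → x = 1 := by
    intro c hc hca x hcx hxq
    set D := centralizer (Z : Set H) with hD
    have hDi : ∀ (g : A), ∀ k ∈ D, g • k ∈ D := by
      intro g k hk
      rw [hD, mem_centralizer_iff]
      intro z hz
      have h1 := congrArg (g • ·) (mem_centralizer_iff.1 hk _ (hZi g⁻¹ z hz))
      simpa only [smul_mul', smul_inv_smul] using h1
    have hxD : x ∈ D := by
      let S : Submonoid A :=
        { carrier := {g | x⁻¹ * (g • x) ∈ D}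
          one_mem' := by
            show x⁻¹ * ((1 : A) • x) ∈ D
            rw [one_smul, inv_mul_cancel]; exact one_mem _
          mul_mem' := fun {g g'} hg hg' => by
            show x⁻¹ * ((g * g') • x) ∈ D
            have h1 := D.mul_mem hg (hDi g _ hg')
            rwa [smul_mul', smul_inv', mul_assoc, mul_inv_cancel_left, ← mul_smul] at h1 }
      let S' : Subgroup A :=
        { S with
          inv_mem' := fun {g} hg => by
            have : g⁻¹ = g ^ (p - 1) := by
              rw [inv_eq_iff_mul_eq_one, ← pow_succ', Nat.sub_add_cancel hp.out.one_le, hexp]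
            rw [this]; exact pow_mem (show g ∈ S from hg) _ }
      have haS : a ∈ S' := by
        show x⁻¹ * (a • x) ∈ D
        rw [hD, mem_centralizer_iff]
        intro z hz
        have h1 : a • (x * z * x⁻¹) = x * z * x⁻¹ := hZfix _ (hZn.conj_mem z hz x)
        rw [smul_mul', smul_mul', smul_inv', hZfix z hz] at h1
        calc z * (x⁻¹ * (a • x)) = x⁻¹ * (x * z * x⁻¹) * (a • x) := by group
          _ = x⁻¹ * ((a • x) * z * (a • x)⁻¹) * (a • x) := by rw [h1]
          _ = x⁻¹ * (a • x) * z := by group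
      have hcS : c ∈ S' := by
        show x⁻¹ * (c • x) ∈ D
        rw [hcx, inv_mul_cancel]; exact one_mem _
      have htop := top_of_pair hexp hcard ha hca haS hcS
      exact mem_of_fixed_coset hexp hfixH D hDi fun g => (htop ▸ mem_top g : g ∈ S')
    refine hfaith x fun u => ?_
    let W : Subgroup U := fixS U x
    have h1 : u ∈ W := by
      refine frobenius_mem hq hcompat hexp Z hZc (b := c) (hZi c)
        (fun m hm hcm => hfixH m (fixed_of_pair hexp hcard ha hca (hZfix m hm) hcm)) (hco Z le_rfl) ⊤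
        (fun _ _ _ _ => mem_top _) (fun _ _ => mem_top _) (fun u _ hu => hZU u hu) W ?_ ?_ (mem_top u)
      · intro z hz v hv
        show x • z • v = z • v
        rw [← mul_smul, ← mem_centralizer_iff.1 hxD z hz, mul_smul, (hv : x • v = v)]
      · exact fun v _ hv => hcen c hc x v hcx hv hxq
    exact h1
  have hR : ∀ (n : ℕ) (X : Subgroup H), Nat.card X ≤ n → (∀ (g : A), ∀ x ∈ X, g • x ∈ X) →
      (∀ x ∈ X, (orderOf x).Coprime q) → ∀ x ∈ X, a • x = x := by
    intro n
    induction n with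
    | zero => intro X hX; exact absurd hX (Nat.not_le.2 Nat.card_pos)
    | succ n ih =>
      intro X hX hXi hXq x hx
      by_cases hXb : X = ⊥
      · rw [hXb, mem_bot] at hx; rw [hx, smul_one]
      have hne : ⁅X, X⁆ ≠ X :=
        (Cfsg.Lib.Solv.commutator_self_ne_of_solvable hXb (Group.isSolvable_of_isSolvable_injective (subtype_injective X))).ne
      have hle : ⁅X, X⁆ ≤ X := (commutator_le).2 fun g hg k hk =>
        X.mul_mem (X.mul_mem (X.mul_mem hg hk) (X.inv_mem hg)) (X.inv_mem hk)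
      have hlt : Nat.card ↥⁅X, X⁆ ≤ n := by
        have := lt_of_le_of_ne (Nat.le_of_dvd Nat.card_pos (card_dvd_of_le hle))
          fun e => hne (eq_of_le_of_card_ge hle e.ge)
        omega
      have hDi : ∀ (g : A), ∀ y ∈ ⁅X, X⁆, g • y ∈ ⁅X, X⁆ := by
        intro g y hy
        have h1 : ⁅X, X⁆.map (MulDistribMulAction.toMonoidHom H g) ≤ ⁅X, X⁆ := by
          rw [map_commutator]
          have : X.map (MulDistribMulAction.toMonoidHom H g) ≤ X := by rintro _ ⟨y, hy, rfl⟩; exact hXi g y hy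
          exact commutator_mono this this
        exact h1 ⟨y, hy, rfl⟩
      have hDfix := ih ⁅X, X⁆ hlt hDi fun y hy => hXq y (hle hy)
      let actX : A → (X →* X) :=
        fun g => MonoidHom.mk' (fun y => ⟨g • (y : H), hXi g y y.2⟩) fun y z => Subtype.ext (smul_mul' g (y : H) z)
      let _ : MulDistribMulAction A (Abelianization X) :=
        { smul := fun g m => Abelianization.map (actX g) m
          one_smul := fun m => by
            refine QuotientGroup.induction_on m fun y => ?_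
            show Abelianization.of (actX 1 y) = Abelianization.of y
            rw [show actX 1 y = y from Subtype.ext (one_smul A (y : H))]
          mul_smul := fun g g' m => by
            refine QuotientGroup.induction_on m fun y => ?_
            show Abelianization.of (actX (g * g') y) = Abelianization.of (actX g (actX g' y))
            rw [show actX (g * g') y = actX g (actX g' y) from Subtype.ext (mul_smul g g' (y : H))]
          smul_one := fun g => map_one _
          smul_mul := fun g m m' => map_mul _ m m' }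
      have hof : ∀ y : X, Abelianization.of y = 1 ↔ (y : H) ∈ ⁅X, X⁆ := by
        intro y
        rw [← MonoidHom.mem_ker, Abelianization.ker_of, ← Subgroup.map_subtype_commutator]
        exact ⟨fun h => ⟨y, h, rfl⟩, fun ⟨z, hz, e⟩ => Subtype.ext e ▸ hz⟩
      have hmod : ∀ (g : A) (y : X), g • Abelianization.of y = Abelianization.of y →
          (y : H)⁻¹ * g • (y : H) ∈ ⁅X, X⁆ := by
        intro g y h
        refine (hof (y⁻¹ * actX g y)).1 ?_
        rw [map_mul, map_inv, inv_mul_eq_one]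
        exact h.symm
      have hfixM : ∀ m : Abelianization X, (∀ g : A, g • m = m) → m = 1 := by
        intro m
        refine QuotientGroup.induction_on m fun y => ?_
        intro hy
        exact (hof y).2 (mem_of_fixed_coset hexp hfixH ⁅X, X⁆ hDi fun g => hmod g y (hy g))
      have hM : Abelianization.of (⟨x, hx⟩ : X) ∈ fixS (Abelianization X) a := by
        refine mem_of_fixS_le hexp hcard hfixM _ (fun c hc m => ?_) _
        refine QuotientGroup.induction_on m fun y => ?_
        intro hy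
        by_cases hca : c ∈ zpowers a
        · exact MulAction.mem_stabilizer_iff.1 ((zpowers_le (H := MulAction.stabilizer A _)).2 hy
            (mem_zpowers_symm hexp ha hc hca))
        · obtain ⟨y', hy', hfy'⟩ := exists_fixed hexp (not_dvd_card hexp hfixH) (zpowers c) ⁅X, X⁆
            (fun g _ => hDi g) (g := (y : H)) (fun g hg => hmod g y (MulAction.mem_stabilizer_iff.1
              ((zpowers_le (H := MulAction.stabilizer A _)).2 hy hg)))
          have hy'X : y' ∈ X := by
            have := X.mul_mem y.2 (hle hy')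
            rwa [mul_inv_cancel_left] at this
          rw [htriv c hc hca y' (hfy' c (mem_zpowers c)) (hXq y' hy'X), mul_one, inv_mem_iff] at hy'
          have h1 : Abelianization.of y = 1 := (hof y).2 hy'
          show a • Abelianization.of y = Abelianization.of y
          rw [h1, smul_one]
      exact fix_of_stable hexp (not_dvd_card hexp hfixH) (hDfix _ (hmod a ⟨x, hx⟩ hM))
  have hF : ∀ f ∈ Cfsg.fittingSubgroup H, a • f = f := by
    have hle : Cfsg.fittingSubgroup H ≤ fixS H a := by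
      rw [Cfsg.Lib.Solv.fitting_eq_iSup_pCore]
      refine iSup_le fun t => ?_
      haveI := Fact.mk t.2
      have hinv : ∀ (g : A), ∀ x ∈ Cfsg.pCore (t : ℕ) H, g • x ∈ Cfsg.pCore (t : ℕ) H := fun g x hx =>
        Cfsg.Lib.Solv.map_pCore_le (t : ℕ) (f := MulDistribMulAction.toMonoidHom H g) (MulAction.surjective g) ⟨x, hx, rfl⟩
      by_cases htq : (t : ℕ) = q
      · rw [hnoq (Cfsg.pCore (t : ℕ) H) inferInstance hinv (htq ▸ Cfsg.Lib.Solv.isPGroup_pCore (t : ℕ))]
        exact bot_le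
      · intro x hx
        refine hR _ (Cfsg.pCore (t : ℕ) H) le_rfl hinv (fun y hy => ?_) x hx
        obtain ⟨k, hk⟩ := IsPGroup.iff_orderOf.1 (Cfsg.Lib.Solv.isPGroup_pCore (G := H) (t : ℕ)) ⟨y, hy⟩
        rw [Subgroup.orderOf_mk] at hk
        rw [hk]
        exact Nat.Coprime.pow_left _ ((Nat.coprime_primes t.2 hqp.out).2 htq)
    exact fun f hf => hle hf
  have hall : ∀ x : H, a • x = x := by
    intro x
    refine fix_of_stable hexp (not_dvd_card hexp hfixH) (hF _ (Cfsg.Lib.Solv.centralizer_fitting_le ?_))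
    rw [mem_centralizer_iff]
    intro f hf
    have h1 := hF _ ((inferInstance : (Cfsg.fittingSubgroup H).Normal).conj_mem f hf x)
    rw [smul_mul', smul_mul', smul_inv', hF f hf] at h1
    calc f * (x⁻¹ * (a • x)) = x⁻¹ * (x * f * x⁻¹) * (a • x) := by group
      _ = x⁻¹ * ((a • x) * f * (a • x)⁻¹) * (a • x) := by rw [h1]
      _ = x⁻¹ * (a • x) * f := by group
  have htop : fixS H a = ⊤ := eq_top_iff.2 fun x _ => hall x
  have hnil := fixS_nilpotent (H := H) hexp hcard hfixH ha
  rw [htop] at hnil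
  exact Group.isNilpotent_top.1 hnil

end Cfsg.Lib.Solv.Ward
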